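import Cfsg.Agent.J4R.D0

/-! The final amalgam. -/

set_option autoImplicit false

namespace Cfsg.J4R

variable {G : Type*} [Group G]

/-- The final amalgam: `h` is the image of the last letter, and the letters `1..23, 25` satisfy
all relations of the model. -/
structure Am2 (z : G) (Q : Subgroup G) (a : ℕ → G) (Γ Λ : Subgroup (G × Spor.J4)) (g : ℕ → G)
    (h : G) : Prop where
  st : St z Q a Γ g
  fst : ∀ x, (x, 1) ∈ Λ → x = 1
  mem : ∀ l < 24, (g l, e0 l) ∈ Λ
  m25 : (h, e0 25) ∈ Λ

end Cfsg.J4R
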