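import Cfsg.Agent.Co2.E4

/-! A finite group containing a group with the same involution centraliser and a suitable elementary
abelian subgroup. -/

set_option autoImplicit false
set_option maxRecDepth 100000
set_option maxHeartbeats 400000

namespace Cfsg.J4R.E

open Cfsg.H6 Cfsg.Co Subgroup
open Cfsg.Co2.Le (count_gen)

variable {J : Type*} [Group J] {FF : Type*} [AddCommGroup FF]

/-- The facts on the model. -/
structure Mdl (e2 : FF → J) (O t : FF) : Prop where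
  add : ∀ c d, e2 (c + d) = e2 c * e2 d
  two : ∀ c : FF, c + c = 0
  inv : ∀ x : J, x * x = 1 → ∃ c, IsConj x (e2 c)
  cls : ∀ c, c = 0 ∨ IsConj (e2 O) (e2 c) ∨ IsConj (e2 t) (e2 c)
  O1 : e2 O ≠ 1
  t0 : t ≠ 0
  mon : ¬ IsConj (e2 O) (e2 t) → ∀ x a, IsConj (e2 t) (e2 a) → Commute x (e2 a) →
    ∀ c, ∃ d, x * e2 c * x⁻¹ = e2 d
  cnt : ¬ IsConj (e2 O) (e2 t) → ∀ A : AddSubgroup FF, (∀ a ∈ A, ¬ IsConj (e2 O) (e2 a)) →
    ¬ A.index - 1 ∣ {c | IsConj (e2 O) (e2 c)}.ncard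

namespace Mdl

variable {e2 : FF → J} {O t : FF} (M : Mdl e2 O t)
include M

theorem zero : e2 0 = 1 := by simpa using M.add 0 0

theorem sq (c : FF) : e2 c * e2 c = 1 := by rw [← M.add, M.two, M.zero]

theorem einv (c : FF) : (e2 c)⁻¹ = e2 c := inv_eq_of_mul_eq_one_right (M.sq c)

theorem comm (c d : FF) : Commute (e2 c) (e2 d) := by
  rw [Commute, SemiconjBy, ← M.add, ← M.add, add_comm]

end Mdl

variable {G : Type*} [Group G] {Ω : Type*} [MulAction G Ω]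

/-- The setting: the model is a point stabiliser. -/
structure Setg (e2 : FF → J) (ρ : J →* G) (α : Ω) (O t : FF) : Prop where
  M : Mdl e2 O t
  inj : Function.Injective ρ
  odd : Odd (Nat.card Ω)
  oddC : Odd (centralizer ({e2 O} : Set J)).index
  tr : ∀ β, ∃ g : G, g • α = β
  stab : ∀ g : G, g • α = α ↔ g ∈ ρ.range
  only : ∀ β, ρ (e2 O) • β = β → β = α
  nc : ¬ IsConj (ρ (e2 O)) (ρ (e2 t))

namespace Setg

variable {e2 : FF → J} {ρ : J →* G} {α : Ω} {O t : FF} (S : Setg e2 ρ α O t)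
include S

theorem fix (x : J) : ρ x • α = α := (S.stab _).mpr ⟨x, rfl⟩

theorem sq (c : FF) : ρ (e2 c) * ρ (e2 c) = 1 := by rw [← map_mul, S.M.sq, map_one]

theorem nc0 : ¬ IsConj (e2 O) (e2 t) := fun k => S.nc (ρ.map_isConj k)

theorem only_cj {x y : J} (h : ∀ β, ρ y • β = β → β = α) (e : IsConj y x) (β : Ω)
    (hβ : ρ x • β = β) : β = α := by
  obtain ⟨k, rfl⟩ := isConj_iff.mp e
  rw [map_mul, map_mul, map_inv, smul_cj] at hβ
  rw [← smul_inv_smul (ρ k) β, h _ hβ, S.fix]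

theorem cen_pt {P : Subgroup G} (hP : IsPGroup 2 P) {β : Ω} (hβ : ∀ p ∈ P, p • β = β) :
    ∃ y ∈ centralizer (P : Set G), y * y = 1 ∧ ∀ γ, y • γ = γ → γ = β := by
  have : Fact (Nat.Prime 2) := ⟨Nat.prime_two⟩
  obtain ⟨g, rfl⟩ := S.tr β
  have hA : IsPGroup 2 (P.comap ((MulAut.conj g).toMonoidHom.comp ρ)) :=
    hP.comap_of_injective _ ((MulAut.conj g).injective.comp S.inj)
  obtain ⟨q, hq⟩ := hA.nonempty_fixed_point_of_prime_not_dvd_card
    (J ⧸ centralizer ({e2 O} : Set J))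
    (by rw [← Subgroup.index, ← even_iff_two_dvd]; exact Nat.not_even_iff_odd.mpr S.oddC)
  obtain ⟨k, rfl⟩ := QuotientGroup.mk_surjective q
  refine ⟨g * ρ k * ρ (e2 O) * (g * ρ k)⁻¹, fun p hp => ?_, by simpa using sq_cj (S.sq O) (g * ρ k)⁻¹,
    fun γ hγ => ?_⟩
  · obtain ⟨a, e⟩ := (S.stab (g⁻¹ * p * g)).mp (by
      rw [mul_smul, mul_smul, hβ p hp, inv_smul_smul])
    have e1 : p = g * ρ a * g⁻¹ := by rw [e]; group
    have h2 : ((a * k : J) : J ⧸ centralizer ({e2 O} : Set J)) = k :=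
      hq ⟨a, by rw [e1] at hp; exact hp⟩
    have h3 := congrArg ρ (mem_centralizer_singleton_iff.mp (inv_mem (QuotientGroup.eq.mp h2)))
    simp only [mul_inv_rev, inv_inv, map_mul, map_inv] at h3
    rw [e1]
    calc _ = g * ρ k * ((ρ k)⁻¹ * (ρ a * ρ k) * ρ (e2 O)) * (g * ρ k)⁻¹ := by group
      _ = _ := by rw [h3]; group
  · have := S.only _ (smul_cj.mp hγ)
    rw [← smul_inv_smul (g * ρ k) γ, this, mul_smul, S.fix]

theorem cent_trans [Finite G] [Finite Ω] {P : Subgroup G} (hP : IsPGroup 2 P) {β : Ω}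
    (hα : ∀ p ∈ P, p • α = α) (hβ : ∀ p ∈ P, p • β = β) :
    ∃ h ∈ centralizer (P : Set G), h • α = β := by
  obtain ⟨x, x1, x2, x3⟩ := S.cen_pt hP hα
  obtain ⟨y, y1, y2, y3⟩ := S.cen_pt hP hβ
  exact syl_trans S.odd _ x1 y1 x2 y2 x3 y3

/-- The elements that fix a point. -/
def St (β : Ω) : AddSubgroup FF where
  carrier := {c | ρ (e2 c) • β = β}
  zero_mem' := by
    change ρ (e2 0) • β = β
    rw [S.M.zero, map_one, one_smul]
  add_mem' := fun {a b} ha hb => by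
    change ρ (e2 (a + b)) • β = β
    rw [S.M.add, map_mul, mul_smul, hb, ha]
  neg_mem' := fun {a} ha => by rwa [neg_eq_of_add_eq_zero_left (S.M.two a)]

/-- The image of a subgroup. -/
def img (A : AddSubgroup FF) : Subgroup G where
  carrier := {x | ∃ c ∈ A, ρ (e2 c) = x}
  one_mem' := ⟨0, A.zero_mem, by rw [S.M.zero, map_one]⟩
  mul_mem' := by
    rintro _ _ ⟨c, hc, rfl⟩ ⟨d, hd, rfl⟩
    exact ⟨c + d, A.add_mem hc hd, by rw [S.M.add, map_mul]⟩
  inv_mem' := by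
    rintro _ ⟨c, hc, rfl⟩
    exact ⟨c, hc, by rw [← map_inv, S.M.einv]⟩

theorem img_two (A : AddSubgroup FF) : IsPGroup 2 (S.img A) := by
  rintro ⟨_, c, -, rfl⟩
  exact ⟨1, Subtype.ext (by simpa [pow_two] using S.sq c)⟩

theorem ep_cent (A : AddSubgroup FF) (c : FF) : ρ (e2 c) ∈ centralizer (S.img A : Set G) := by
  rintro _ ⟨d, -, rfl⟩
  exact ((S.M.comm d c).map ρ).eq

theorem St_trans [Finite G] [Finite Ω] (β : Ω) :
    ∃ h ∈ centralizer (S.img (S.St β) : Set G), h • α = β :=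
  S.cent_trans (S.img_two _) (by rintro _ ⟨c, -, rfl⟩; exact S.fix _)
    (by rintro _ ⟨c, hc, rfl⟩; exact hc)

theorem no_max [Finite G] [Finite Ω] [Finite FF] {β : Ω} (hβ : β ≠ α) {a : FF} (ha : a ∈ S.St β)
    (a0 : a ≠ 0) (hm : ∀ γ ≠ α, S.St β ≤ S.St γ → S.St γ ≤ S.St β) : False := by
  set A := S.St β with hA
  have h8 : ∀ c ∈ A, ¬ IsConj (e2 O) (e2 c) := fun c hc e => hβ (S.only_cj S.only e β hc)
  have h12 : IsConj (e2 t) (e2 a) := ((S.M.cls a).resolve_left a0).resolve_left (h8 a ha)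
  set X := centralizer (S.img A : Set G) with hX
  obtain ⟨h, hh, hβ'⟩ := S.St_trans β
  have nB : ((S.img A).subgroupOf X).Normal := ⟨fun b hb g => by
    rw [mem_subgroupOf] at hb ⊢
    rw [coe_mul, coe_mul, ← g.2 _ hb]
    simpa using hb⟩
  let φ := QuotientGroup.mk' ((S.img A).subgroupOf X)
  have hφ : Function.Surjective φ := QuotientGroup.mk'_surjective _
  let e : FF → X := fun c => ⟨_, S.ep_cent A c⟩
  have K0 : ∀ u v : X, φ u = φ v → ∃ b ∈ A, v.1 = u.1 * ρ (e2 b) := fun u v huv => by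
    obtain ⟨b, hb, e⟩ := mem_subgroupOf.mp (QuotientGroup.eq.mp huv)
    exact ⟨b, hb, by rw [e]; simp⟩
  have K3 : ∀ (k u : X) (c : FF) (γ : Ω), c ∉ A → φ u = φ (k * e c * k⁻¹) → u.1 • γ = γ →
      A ≤ S.St γ → k.1⁻¹ • γ = α := fun k u c γ hc huv hu hγ => by
    obtain ⟨b, hb, e1⟩ := K0 _ _ huv
    have e2' : (k.1 * ρ (e2 c) * k.1⁻¹) • γ = γ := by
      rw [show k.1 * ρ (e2 c) * k.1⁻¹ = _ from e1, mul_smul, show ρ (e2 b) • γ = γ from hγ hb, hu]
    by_contra hne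
    refine hc (hm _ hne (fun d hd => ?_) (smul_cj.mp e2'))
    refine smul_cj.mp ?_
    rw [← k.2 _ ⟨d, hd, rfl⟩, mul_inv_cancel_right]
    exact hγ hd
  have hα : A ≤ S.St α := fun c _ => S.fix _
  have es : ∀ c, e c * e c = 1 := fun c => Subtype.ext (S.sq c)
  refine S.M.cnt S.nc0 A h8 (count_gen A _ h8 fun c hc d hd => ?_)
  let H : X := ⟨h, hh⟩
  have y2 : H * e d * H⁻¹ * (H * e d * H⁻¹) = 1 := by simpa using sq_cj (es d) H⁻¹
  have yβ : (H * e d * H⁻¹).1 • β = β := smul_cj.mpr (by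
    rw [← hβ', inv_smul_smul]; exact S.fix _)
  rcases dihedral (u := φ (e c)) (v := φ (H * e d * H⁻¹)) (by rw [← map_mul, es, map_one])
    (by rw [← map_mul, y2, map_one]) with ⟨j, h2⟩ | ⟨w, w1, -, w2, w3, -, i, j, h2⟩
  · obtain ⟨k, hk⟩ := hφ ((φ (e c) * φ (H * e d * H⁻¹)) ^ j)
    have h3 : φ (e d) = φ ((H⁻¹ * k⁻¹) * e c * (H⁻¹ * k⁻¹)⁻¹) := by
      rw [← hk] at h2
      simp only [map_mul, map_inv] at h2 ⊢
      rw [show φ (e d) = (φ H)⁻¹ * (φ H * φ (e d) * (φ H)⁻¹) * φ H by group, ← h2]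
      group
    have h4 := K3 _ _ c α hc h3 (S.fix _) hα
    obtain ⟨b, hb, e1⟩ := K0 _ _ h3
    generalize H⁻¹ * k⁻¹ = l at h4 e1
    obtain ⟨x, hx⟩ := (S.stab _).mp (inv_smul_eq_iff.mp h4).symm
    refine ⟨b, hb, fun a ha k0 => k0.trans (isConj_iff.mpr ⟨x, S.inj ?_⟩)⟩
    change l.1 * ρ (e2 c) * l.1⁻¹ = ρ (e2 d) * ρ (e2 b) at e1
    simp only [S.M.add, map_mul, map_inv, hx]
    rw [← e1, mul_assoc _ l.1⁻¹, ← (show Commute (ρ (e2 a)) l.1 from
      l.2 _ ⟨a, ha, rfl⟩).inv_right.eq]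
    group
  · obtain ⟨w, rfl⟩ := hφ w
    obtain ⟨k, hk⟩ := hφ ((φ (e c) * φ (H * e d * H⁻¹)) ^ i)
    have f1 : w.1⁻¹ • α = α := K3 w (e c) c α hc (by
      rw [map_mul, map_mul, map_inv, eq_mul_inv_iff_mul_eq]
      exact w2.eq.symm) (S.fix _) hα
    have f2 : (w * H).1⁻¹ • β = α := K3 (w * H) _ d β hd (by
      rw [show w * H * e d * (w * H)⁻¹ = w * (H * e d * H⁻¹) * w⁻¹ by group, map_mul φ (w * _),
        map_mul φ w, map_inv, eq_mul_inv_iff_mul_eq]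
      exact w3.eq.symm) yβ le_rfl
    have f3 : w.1 • α = α := (inv_smul_eq_iff.mp f1).symm
    have f4 : w.1 • β = β := by
      conv_lhs => rw [← hβ']
      exact (mul_smul _ _ _).symm.trans (inv_smul_eq_iff.mp f2).symm
    obtain ⟨k', c', hc', h3⟩ : ∃ (k' : X) (c' : FF), c' ∉ A ∧
        φ (w * e c) = φ (k' * e c' * k'⁻¹) := by
      rw [← hk] at h2
      rcases h2 with h2 | h2
      · exact ⟨k⁻¹, c, hc, by simpa only [map_mul, map_inv, inv_inv] using h2.1⟩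
      · refine ⟨k⁻¹ * H, d, hd, (map_mul φ _ _).trans (h2.1.trans ?_)⟩
        simp only [map_mul, map_inv]
        group
    have h4 := K3 _ _ c' α hc' h3 (by
      change (w.1 * ρ (e2 c)) • α = α
      rw [mul_smul, S.fix, f3]) hα
    obtain ⟨x, hx⟩ := (S.stab _).mp (inv_smul_eq_iff.mp h4).symm
    obtain ⟨c'', hπ⟩ := S.M.mon S.nc0 x a h12 (S.inj (by
      rw [map_mul, map_mul, hx]
      exact (k'.2 _ ⟨a, ha, rfl⟩).symm)) c'
    obtain ⟨b, hb, e1⟩ := K0 _ _ h3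
    have e3 : ρ (e2 (c'' + b + c)) = w.1 := by
      rw [S.M.add, S.M.add, map_mul, map_mul, ← hπ, map_mul, map_mul, map_inv, hx]
      refine (congrArg (· * ρ (e2 b) * ρ (e2 c)) e1).trans ?_
      change w.1 * ρ (e2 c) * ρ (e2 b) * ρ (e2 b) * ρ (e2 c) = _
      rw [mul_assoc _ _ (ρ (e2 b)), S.sq b, mul_one, mul_assoc, S.sq c, mul_one]
    refine (w1 ((QuotientGroup.eq_one_iff w).mpr (mem_subgroupOf.mpr ⟨_, ?_, e3⟩))).elim
    change ρ (e2 _) • β = β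
    rw [e3, f4]

theorem ep_only [Finite G] [Finite Ω] [Finite FF] {c : FF} (h : c ≠ 0) (β : Ω)
    (hβ : ρ (e2 c) • β = β) : β = α := by
  by_contra hne
  obtain ⟨γ, ⟨h1, a, ha, h2⟩, h3⟩ := Set.exists_max_image
    {γ : Ω | γ ≠ α ∧ ∃ a ∈ S.St γ, a ≠ 0} (fun γ => Nat.card (S.St γ)) (Set.toFinite _)
    ⟨β, hne, c, hβ, h⟩
  exact S.no_max h1 ha h2 fun δ hδ hle =>
    (AddSubgroup.eq_of_le_of_card_ge hle (h3 δ ⟨hδ, a, hle ha, h2⟩)).ge

theorem all_eq [Finite G] [Finite Ω] [Finite FF] (β : Ω) : β = α := by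
  have ht := S.M.t0
  have hn := S.nc
  by_contra hne
  obtain ⟨g, rfl⟩ := S.tr β
  have oy : ∀ γ, (g * ρ (e2 t) * g⁻¹) • γ = γ → γ = g • α := fun γ hγ => by
    rw [← S.ep_only ht _ (smul_cj.mp hγ), smul_inv_smul]
  rcases dihedral (S.sq O) (v := g * ρ (e2 t) * g⁻¹) (by simpa using sq_cj (S.sq t) g⁻¹) with
    ⟨j, h2⟩ | ⟨v, v1, v2, v3, v4, -⟩
  · exact hn ((h2 ▸ isConj_cj _ _).trans (isConj_iff.mpr ⟨g, rfl⟩).symm)
  have f1 : v • α = α := S.only _ (by rw [← mul_smul, ← v3.eq, mul_smul, S.fix])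
  have f2 : v • g • α = g • α := oy _ (by
    rw [← mul_smul, ← v4.eq, mul_smul, smul_cj.mpr (by rw [inv_smul_smul, S.fix])])
  obtain ⟨x, rfl⟩ := (S.stab v).mp f1
  obtain ⟨c, h3⟩ := S.M.inv x (S.inj (by rw [map_mul, v2, map_one]))
  refine hne (S.only_cj (S.ep_only (c := c) fun e => v1 ?_) h3.symm _ f2)
  rw [e, S.M.zero, isConj_one_left] at h3
  rw [h3, map_one]

end Setg

theorem surj {G : Type*} [Group G] [Finite G] [Finite FF] {e2 : FF → J} {O t : FF} (M : Mdl e2 O t)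
    (Φ : J →* G) (hΦ : Function.Injective Φ) (hC : centralizer {Φ (e2 O)} ≤ Φ.range)
    (hodd : Odd (centralizer ({Φ (e2 O)} : Set G)).index)
    (n8 : ¬ IsConj (Φ (e2 O)) (Φ (e2 t))) : Function.Surjective Φ := by
  have hc : (centralizer ({Φ (e2 O)} : Set G)).comap Φ = centralizer {e2 O} := Subgroup.ext fun x => by
    rw [mem_comap, mem_centralizer_singleton_iff, mem_centralizer_singleton_iff, ← map_mul,
      ← map_mul, hΦ.eq_iff]
  rw [← relIndex_mul_index hC, Nat.odd_mul, ← index_comap, hc] at hodd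
  have stab : ∀ g : G, g • ((1 : G) : G ⧸ Φ.range) = (1 : G) ↔ g ∈ Φ.range := fun g => by
    change ((g * 1 : G) : G ⧸ Φ.range) = (1 : G) ↔ _
    rw [QuotientGroup.eq, mul_one, mul_one, inv_mem_iff]
  have S : Setg e2 Φ ((1 : G) : G ⧸ Φ.range) O t := by
    refine ⟨M, hΦ, hodd.2, hodd.1, fun β => MulAction.exists_smul_eq G _ β, stab, fun β hβ => ?_, n8⟩
    obtain ⟨g, rfl⟩ := MulAction.exists_smul_eq G ((1 : G) : G ⧸ Φ.range) β
    obtain ⟨y, e⟩ := (stab (g⁻¹ * Φ (e2 O) * g)).mp (by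
      rw [mul_smul, mul_smul, hβ, inv_smul_smul])
    have c0 : IsConj (Φ (e2 O)) (Φ y) := e ▸ isConj_cj _ _
    obtain ⟨c, h2⟩ := M.inv y (hΦ (by
      rw [map_mul, map_one]; exact sq_of_isConj (by rw [← map_mul, M.sq, map_one]) c0))
    have c1 := c0.trans (Φ.map_isConj h2)
    rcases M.cls c with w | w | w
    · rw [w, M.zero, map_one, isConj_one_left] at c1
      exact absurd (hΦ (c1.trans Φ.map_one.symm)) M.O1
    · obtain ⟨k, rfl⟩ := isConj_iff.mp (w.trans h2.symm)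
      rw [map_mul, map_mul, map_inv] at e
      refine (stab g).mpr ((Φ.range.mul_mem_cancel_right (x := Φ k) ⟨k, rfl⟩).mp
        (hC (mem_centralizer_singleton_iff.mpr ?_)))
      rw [mul_assoc, mul_inv_eq_iff_eq_mul.mp e]
      group
    · exact absurd (c1.trans (Φ.map_isConj w.symm)) n8
  intro g
  exact (stab g).mp (S.all_eq _)

end Cfsg.J4R.E
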