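import Cfsg.Agent.J4R.MD
import Cfsg.Agent.H6.J4.Main

/-! Oracles for words in the letters of the model. -/

set_option autoImplicit false
set_option maxRecDepth 100000
set_option Elab.async false

namespace Cfsg.J4R

open Cfsg.H6 Cfsg.H6.J4

instance finiteJ4 : Finite Spor.J4 := J4.finite

/-- The faithful representation of dimension 112. -/
noncomputable def mu : Spor.J4 →* Matrix (Fin 112) (Fin 112) (ZMod 2) := J4.M.μ

theorem mu_inj : Function.Injective mu := J4.main.2

namespace M

theorem mu_ev (x : ℕ) (h1 : 1 ≤ x) (h2 : x < 5) : mu (J4.ev x) = xdec 112 112 (gc x) := by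
  have e : mu (J4.ev x) = J4.M.P.mat J4.M.code x := J4.M.hμ x h1 h2
  rw [e]
  have k : ∀ i < 112, ∀ j < 112, (J4.M.code x).testBit (784 * i + 7 * j) =
      (gc x).testBit (112 * i + j) := by
    intro i hi j hj
    have h3 := gc_eq x h2 h1
    rw [frcB_eq, frcB_eq] at h3
    have h4 := allR_range h3 rfl i (Nat.zero_le _) hi
    rw [frcB_eq, frcB_eq] at h4
    have h5 : (((J4.M.code x >>> (784 * i)) &&& (2 ^ 784 - 1)) >>> (7 * j)) &&& 1 =
        (((gc x >>> (112 * i)) &&& (2 ^ 112 - 1)) >>> j) &&& 1 :=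
      Nat.eq_of_beq_eq_true (allR_range h4 rfl j (Nat.zero_le _) hj)
    have h6 := congrArg (fun y => Nat.testBit y 0) h5
    simp only [Nat.testBit_and, Nat.testBit_shiftRight, Nat.testBit_two_pow_sub_one, add_zero,
      Nat.testBit_one_zero, Bool.and_true] at h6
    rwa [decide_eq_true (by omega : 7 * j < 784), decide_eq_true hj, Bool.and_true,
      Bool.and_true] at h6
  ext i j
  change (((J4.M.code x >>> (784 * i.1 + 7 * j.1)) % 2 ^ 1 : ℕ) : ZMod 2) =
    if (gc x).testBit (112 * i.1 + j.1) then 1 else 0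
  rw [← k i.1 i.2 j.1 j.2, Nat.testBit, Nat.one_and_eq_mod_two, pow_one]
  rcases Nat.mod_two_eq_zero_or_one (J4.M.code x >>> (784 * i.1 + 7 * j.1)) with h | h <;>
    rw [h] <;> rfl

theorem xdec_g0 : xdec 112 112 g0 = 1 := by
  ext i j
  have := allR_range (allR_range g0_eq rfl i (Nat.zero_le _) i.2) rfl j (Nat.zero_le _) j.2
  unfold xdec
  rw [beq_iff_eq.mp this, Matrix.one_apply]
  simp only [Nat.beq_eq, Fin.val_inj]

theorem WD_inR : ∀ l < 26, inR 5 (WD l) = true := by decide +kernel

theorem s_can {A B : Matrix (Fin 112) (Fin 112) (ZMod 2)}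
    (h : xdec 112 112 s0 * A = xdec 112 112 s0 * B) : A = B := by
  have e : xdec 112 112 s1 * xdec 112 112 s0 = 1 := by
    rw [← xdec_mul (by norm_num), Nat.eq_of_beq_eq_true s_inv, xdec_g0]
  rw [← Matrix.one_mul A, ← Matrix.one_mul B, ← e, Matrix.mul_assoc, h, Matrix.mul_assoc]

theorem mu_e0 (l : ℕ) (h : l < 26) : mu (e0 l) = xdec 112 112 (cd l) := by
  apply s_can
  rw [← xdec_mul (by norm_num), ← Nat.eq_of_beq_eq_true (cd_eq l h), xdec_tr (by norm_num)]
  congr 1
  exact map_evL_mpr mu_ev (WD_inR l h)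

theorem mu_evL {w : List ℕ} (h : ltB 26 w = true) :
    mu (evL e0 w) = mpr (fun x => xdec 112 112 (cd x)) w := by
  have hw := ltB_spec h
  clear h
  induction w with
  | nil => exact map_one mu
  | cons x w ih =>
    rw [evL_cons, map_mul, mpr_cons, ih fun y hy => hw y (by simp [hy]), mu_e0 x (hw x (by simp))]

/-- A vector in general position. -/
def v0 : ℕ := 0xb7e151628aed2a6abf7158809cf4

end M

/-- The word is a relator of the model. -/
noncomputable def eq1 (w : List ℕ) : Bool :=
  ltB 26 w && Nat.beq (trF (ximg 112 112 M.cd) w M.s0) M.s0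

/-- The word is not a relator of the model. -/
noncomputable def ne1 (w : List ℕ) : Bool :=
  ltB 26 w && frcB (fun p => Nat.blt p (2 ^ 112) && !Nat.beq p M.v0) (trF (ximg 112 1 M.cd) w M.v0)

theorem eq1_spec {w : List ℕ} (h : eq1 w = true) : evL e0 w = 1 := by
  simp only [eq1, Bool.and_eq_true, Nat.beq_eq] at h
  apply mu_inj
  have := xdec_tr (d := 112) (by norm_num) 112 M.cd w M.s0
  rw [h.2] at this
  apply M.s_can
  rw [M.mu_evL h.1, ← this, map_one, Matrix.mul_one]

theorem ne1_spec {w : List ℕ} (h : ne1 w = true) : evL e0 w ≠ 1 := by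
  simp only [ne1, frcB_eq, Bool.and_eq_true, Nat.blt_eq, Bool.not_eq_true'] at h
  intro e
  have := xdec_tr (d := 112) (by norm_num) 1 M.cd w M.v0
  rw [← M.mu_evL h.1, e, map_one, Matrix.mul_one] at this
  exact Nat.ne_of_beq_eq_false h.2.2 (xdec_inj h.2.1 (by decide +kernel) this)

theorem e0_zero : e0 0 = 1 := rfl

theorem e0_big {l : ℕ} (h : 26 ≤ l) : e0 l = 1 := by
  unfold e0 WD
  rw [List.getD_eq_default _ _ (le_trans (by decide +kernel) h)]
  rfl

theorem sq_e0 (l : ℕ) : e0 l * e0 l = 1 := by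
  by_cases h : l < 26
  · have e : ∀ l < 26, eq1 [l, l] = true := by decide +kernel
    simpa only [evL_cons, evL_nil, mul_one] using eq1_spec (e l h)
  · rw [e0_big (by omega), one_mul]

theorem e0_inv (l : ℕ) : (e0 l)⁻¹ = e0 l := inv_eq_of_mul_eq_one_right (sq_e0 l)

theorem e0_rev (w : List ℕ) : evL e0 w.reverse = (evL e0 w)⁻¹ := by
  induction w with
  | nil => simp [evL_nil]
  | cons x w ih => rw [List.reverse_cons, evL_append, evL_singleton, evL_cons, mul_inv_rev, ih, e0_inv]

/-- Two words have the same value in the model. -/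
noncomputable def eqw (u v : List ℕ) : Bool := eq1 (u ++ v.reverse)

/-- Two words have different values in the model. -/
noncomputable def new (u v : List ℕ) : Bool := ne1 (u ++ v.reverse)

theorem eqw_spec {u v : List ℕ} (h : eqw u v = true) : evL e0 u = evL e0 v := by
  have := eq1_spec h
  rwa [evL_append, e0_rev, mul_inv_eq_one] at this

theorem new_spec {u v : List ℕ} (h : new u v = true) : evL e0 u ≠ evL e0 v := by
  have := ne1_spec h
  rwa [evL_append, e0_rev, Ne, mul_inv_eq_one] at this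

/-- Conjugation in the model. -/
theorem eqw_conj {y u v : List ℕ} (h : eqw (y ++ u ++ y.reverse) v = true) :
    evL e0 y * evL e0 u * (evL e0 y)⁻¹ = evL e0 v := by
  rw [← eqw_spec h, evL_append, evL_append, e0_rev]

theorem hCW0 : ∀ l < 25, 14 ≤ l → ∀ i < 12, eqw [l, 2 + i, l] (CW l i) = true := by
  decide +kernel

theorem hCW (l : ℕ) (h1 : 14 ≤ l) (h2 : l < 25) (i : ℕ) (hi : i < 12) :
    e0 l * e0 (2 + i) * e0 l = evL e0 (CW l i) := by
  rw [← eqw_spec (hCW0 l h2 h1 i hi)]
  simp only [evL_cons, evL_nil, mul_one, mul_assoc]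

/-- The first generator as a word in the letters. -/
def xw : List ℕ := [13, 8, 25, 17, 16, 9, 18, 17]

/-- The second generator as a word in the letters. -/
def yw : List ℕ := [13, 17, 18, 15, 25, 15, 18, 13]

theorem ev_of {w : List ℕ} {x : ℕ} (h1 : 1 ≤ x) (h2 : x < 5)
    (h : (ltB 26 w && Nat.beq (trF (ximg 112 112 M.cd) w M.g0) (M.gc x)) = true) :
    evL e0 w = J4.ev x := by
  simp only [Bool.and_eq_true, Nat.beq_eq] at h
  apply mu_inj
  have := xdec_tr (d := 112) (by norm_num) 112 M.cd w M.g0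
  rw [h.2, M.xdec_g0, Matrix.one_mul] at this
  rw [M.mu_evL h.1, ← this, M.mu_ev x h1 h2]

theorem xw_spec : evL e0 xw = J4.ev 1 := ev_of le_rfl (by norm_num) (by decide +kernel)

theorem yw_spec : evL e0 yw = J4.ev 2 := ev_of (by norm_num) (by norm_num) (by decide +kernel)

theorem e0_t : e0 24 = J4.ev 4 := evL_singleton _ _

end Cfsg.J4R
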