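import Cfsg.Agent.J4R.E2
import Cfsg.Agent.J4R.M1

/-! The facts on the fourth Janko group that need the matrices. -/

set_option autoImplicit false
set_option maxRecDepth 100000
set_option Elab.async false

namespace Cfsg.J4R.E

open Subgroup Cfsg.H6

/-- A row vector times a word. -/
noncomputable def app (w : List ℕ) (p : ℕ) : ℕ := trF (ximg 112 1 M.cd) w p

theorem app_eq {w : List ℕ} (h : ltB 26 w = true) (p : ℕ) :
    xdec 112 1 (app w p) = xdec 112 1 p * mu (evL e0 w) := by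
  rw [M.mu_evL h, app, xdec_tr (by norm_num)]

/-- Pairs of vectors that are invariant under `V`. -/
noncomputable def pa : ℕ → ℕ := nthN [0x1, 0x3030945185ec2e2e00d803ec0a, 0x8f8bc7528adfc176259d29a854, 0x21a4413bda281e81e6b515db3fa]

noncomputable def pb : ℕ → ℕ := nthN [0x1, 0x3030945185ec2e2e00d803ec0b, 0x8f8bc7528adfc176259d29a855, 0x21a4413bda281e81e6b515db3fb]

noncomputable def ji : ℕ → ℕ := nthN [0, 2, 0, 0, 0, 0, 0, 0, 0, 0, 0, 0, 0, 0, 0, 0, 0, 0, 0, 3, 1, 1]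

theorem hpair : ∀ j < 4, ∀ l ∈ VL, ltB 26 [l] = true ∧ (app [l] (pa j) = pa j ∨ app [l] (pa j) = pb j) ∧
    (app [l] (pb j) = pa j ∨ app [l] (pb j) = pb j) := by decide +kernel

theorem pair_w {j : ℕ} (hj : j < 4) : ∀ w : List ℕ, (∀ l ∈ w, l ∈ VL) → ∀ p, (p = pa j ∨ p = pb j) →
    xdec 112 1 p * mu (evL e0 w) = xdec 112 1 (pa j) ∨
      xdec 112 1 p * mu (evL e0 w) = xdec 112 1 (pb j)
  | [], _, p, hp => by
    rw [evL_nil, map_one, Matrix.mul_one]
    exact hp.imp (congrArg _) (congrArg _)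
  | l :: w, h, p, hp => by
    obtain ⟨a, b, c⟩ := hpair j hj l (h l (by simp))
    rw [evL_cons, map_mul, ← Matrix.mul_assoc, ← evL_singleton e0 l, ← app_eq a]
    refine pair_w hj w (fun k hk => h k (by simp [hk])) _ ?_
    rcases hp with rfl | rfl
    exacts [b, c]

noncomputable def chkMv (i : ℕ) : Bool :=
  ltB 26 (GW i) && Nat.blt (ji i) 4 && frcB (fun a => frcB (fun b =>
    Nat.blt a (2 ^ 112) && Nat.blt b (2 ^ 112) && allR (fun v => Nat.beq v 0 || sx v ||
      frcB (fun c => Nat.blt c (2 ^ 112) && !Nat.beq c a && !Nat.beq c b) (app (vw v) a)) 0 2048)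
    (app (GW i) (pb (ji i)))) (app (GW i) (pa (ji i)))

theorem hMv : ∀ i < 22, i = 0 ∨ i = 2 ∨ i = 3 ∨ chkMv i = true := by decide +kernel

theorem hvw : ∀ v, ltB 26 (vw v) = true ∧ ∀ l ∈ vw v, l ∈ VL := fun v => by
  have k : ∀ l ∈ vw v, l ∈ VL := fun l hl => by
    obtain ⟨i, hi, rfl⟩ := List.mem_map.mp hl
    have : ∀ i ∈ List.range 11, VL.getD i 0 ∈ VL := by decide
    exact this i (List.mem_filter.mp hi).1
  exact ⟨List.all_eq_true.mpr fun l hl => Nat.blt_eq.mpr ((vw_lt v l hl).trans (by norm_num)), k⟩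

theorem hRL : ∀ e ∈ RL, eqw (e.2.2.1 ++ (vw e.2.1 ++ [e.1]) ++ e.2.2.1.reverse) (vw e.2.2.2) = true := by
  decide +kernel

theorem ex : Ex where
  rep e he := by
    have := eqw_conj (hRL e he)
    rwa [evL_append, evL_singleton] at this
  mv i hi h0 h2 h3 v hv v0 s u _ e := by
    have k := (((hMv i hi).resolve_left h0).resolve_left h2).resolve_left h3
    simp only [chkMv, frcB_eq, Bool.and_eq_true, Nat.blt_eq] at k
    obtain ⟨⟨k1, k2⟩, ⟨k3, k4⟩, k5⟩ := k
    have k6 := allR_range k5 rfl v (Nat.zero_le _) hv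
    simp only [s, Bool.or_false, Bool.or_eq_true, Nat.beq_eq, v0, false_or, Bool.and_eq_true,
      Nat.blt_eq, Bool.not_eq_true'] at k6
    have f : xdec 112 1 (app (vw v) (app (GW i) (pa (ji i)))) =
        xdec 112 1 (pa (ji i)) * mu (vv e0 u) * mu (evL e0 (GW i)) := by
      rw [app_eq (hvw v).1, app_eq k1, ← e, Matrix.mul_assoc, Matrix.mul_assoc, ← map_mul, ← map_mul,
        inv_mul_cancel_right, vv]
    rcases pair_w k2 _ (hvw u).2 _ (Or.inl rfl) with a | a <;> rw [vv, a, ← app_eq k1] at f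
    · exact Nat.ne_of_beq_eq_false k6.1.2 (xdec_inj k6.1.1 k3 f)
    · exact Nat.ne_of_beq_eq_false k6.2 (xdec_inj k6.1.1 k4 f)

end Cfsg.J4R.E
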