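import Cfsg.Agent.J4R.E2
import Cfsg.Agent.H7.Core

/-! The last step of the characterisation of the fourth Janko group. -/

set_option autoImplicit false
set_option maxRecDepth 100000

namespace Cfsg.J4R

open Subgroup Cfsg.H6
open Cfsg.Co.Rc (mem_cen)

variable {G : Type*} [Group G] [Finite G]

theorem ES.odd_index {z : G} {Q : Subgroup G} (E : ES z Q) :
    Odd (centralizer ({z} : Set G)).index := by
  have : Fact (Nat.Prime 2) := ⟨Nat.prime_two⟩
  have hQ : IsPGroup 2 Q := IsPGroup.of_card (n := 13) E.card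
  have h1 := hQ.card_modEq_card_fixedPoints (G ⧸ centralizer ({z} : Set G))
  have h2 : MulAction.fixedPoints Q (G ⧸ centralizer ({z} : Set G)) = {((1 : G) : G ⧸ _)} := by
    ext x
    obtain ⟨x, rfl⟩ := QuotientGroup.mk_surjective x
    have key : ∀ q : Q, q • (x : G ⧸ centralizer ({z} : Set G)) = x ↔
        x * z * x⁻¹ * q = q * (x * z * x⁻¹) := fun q => by
      show ((q.1 * x : G) : G ⧸ centralizer ({z} : Set G)) = (x : G ⧸ centralizer ({z} : Set G)) ↔ _
      rw [eq_comm, QuotientGroup.eq, mem_cen]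
      constructor
      · intro e
        calc x * z * x⁻¹ * q = x * (z * (x⁻¹ * (q * x))) * x⁻¹ := by group
          _ = _ := by rw [← e]; group
      · intro e
        calc x⁻¹ * (q * x) * z = x⁻¹ * (q * (x * z * x⁻¹)) * x := by group
          _ = _ := by rw [← e]; group
    rw [MulAction.mem_fixedPoints, Set.mem_singleton_iff, eq_comm, QuotientGroup.eq, mem_cen,
      inv_one, one_mul, ← mul_inv_eq_iff_eq_mul]
    simp only [key]
    exact ⟨fun a => (E.cen _ (a ⟨z, E.zQ⟩) fun q hq => a ⟨q, hq⟩).resolve_left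
      (by simpa using E.z1), fun a q => by rw [a, E.qz q q.2]⟩
  rw [h2, Nat.card_coe_set_eq, Set.ncard_singleton] at h1
  exact Nat.odd_iff.mpr h1

theorem ES.simple [IsSimpleGroup G] {z : G} {Q : Subgroup G} (E : ES z Q) :
    oddCore G = ⊥ ∧ center G = ⊥ := by
  constructor
  · refine (IsSimpleGroup.eq_bot_or_eq_top_of_normal (pPrimeCore 2 G) inferInstance).resolve_right
      fun k => E.z1 ?_
    have h := H7.coprime_orderOf_of_mem (H7.coprime_card_pPrimeCore 2 G) (k ▸ mem_top z)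
    exact H7.eq_one_of_coprime_of_pow (k := 1) h (by rw [pow_one, pow_two, E.zz])
  · refine (IsSimpleGroup.eq_bot_or_eq_top_of_normal (center G) inferInstance).resolve_right
      fun k => ?_
    have c : ∀ x y : G, x * y = y * x := fun x y => mem_center_iff.mp (k ▸ mem_top y) x
    have h : Q ≤ zpowers z := fun q _ => by
      rcases E.cen q (c _ _) fun p _ => c _ _ with rfl | rfl
      exacts [one_mem _, mem_zpowers _]
    have h1 := card_le_of_le h
    rw [E.card, Nat.card_zpowers] at h1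
    have := orderOf_le_of_pow_eq_one two_pos (by rw [pow_two, E.zz] : z ^ 2 = 1)
    omega

/-- The homomorphism from the model is bijective. -/
theorem fin (M : HM) (X : E.Ex) {z : G} {Q : Subgroup G} {a g : ℕ → G} {Γ : Subgroup (G × Spor.J4)}
    (T : St z Q a Γ g) (Φ : Spor.J4 →* G) (h : ∀ l < 25, Φ (e0 l) = g l) :
    Spor.IsoJ4 G ∧ IsJ4 G ∧ ∃ x y : G, orderOf x = 2 ∧ orderOf y = 2 ∧ ¬ IsConj x y ∧
      ∀ z : G, orderOf z = 2 → IsConj z x ∨ IsConj z y := by
  have := J4.simple
  have : Fact (Nat.Prime 2) := ⟨Nat.prime_two⟩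
  have hE := T.ch.es
  have D := E.mdl M X
  have e1 : Φ (E.ee ⟨1, by norm_num⟩) = z := by
    rw [show E.ee ⟨1, by norm_num⟩ = e0 1 from mul_one _, h 1 (by norm_num), T.gr.fr 1 (by norm_num)]
    rfl
  have e2 : Φ (E.ee ⟨128, by norm_num⟩) = g 20 := by
    rw [show E.ee ⟨128, by norm_num⟩ = e0 20 from mul_one _, h 20 (by norm_num)]
  have hi : Function.Injective Φ := by
    rw [← MonoidHom.ker_eq_bot_iff]
    refine (IsSimpleGroup.eq_bot_or_eq_top_of_normal Φ.ker inferInstance).resolve_right fun k => ?_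
    have : E.ee ⟨1, by norm_num⟩ ∈ Φ.ker := k ▸ mem_top _
    exact hE.z1 (e1.symm.trans this)
  have w : ∀ w : List ℕ, (∀ l ∈ w, l < 25) → evL g w ∈ Φ.range := fun w hw =>
    evL_mem_of_letters fun l hl => ⟨_, h l (hw l hl)⟩
  have hz : z ∈ Φ.range := ⟨_, e1⟩
  have hQ : Q ≤ Φ.range := fun q hq => by
    have k : evL (fa z a) (bw (co a q)) ∈ Φ.range := evL_mem_of_letters fun l hl => by
      obtain ⟨j, hj, rfl⟩ := List.mem_map.mp hl
      have := List.mem_range.mp (List.mem_filter.mp hj).1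
      rw [← T.gr.fr _ (by omega)]
      exact ⟨_, h _ (by omega)⟩
    rcases nf hE T.ch.fr hq with e | e <;> rw [e]
    exacts [k, mul_mem hz k]
  have hs : Function.Surjective Φ := E.surj D Φ hi (fun x hx => by
      rw [e1, mem_cen] at hx
      obtain ⟨u, hu, k⟩ := T.ch.gen x hx
      exact (mul_mem_cancel_right (inv_mem (w u fun l hl => (hu l hl).2))).mp (hQ k))
    (by rw [e1]; exact hE.odd_index) (by rw [e1, e2]; exact T.n2)
  let i := MulEquiv.ofBijective Φ ⟨hi, hs⟩
  have sq : ∀ c, Φ (E.ee c) ^ 2 = 1 := fun c => by rw [← map_pow, pow_two, D.sq, map_one]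
  refine ⟨⟨i.symm⟩, ⟨i.symm.isSimpleGroup, (Nat.card_congr i.symm.toEquiv).trans J4.main.1⟩, z, g 20,
    orderOf_eq_prime (e1 ▸ sq _) hE.z1, orderOf_eq_prime (e2 ▸ sq _) fun k => ?_, T.n2,
    fun x hx => ?_⟩
  · exact absurd (M.inj 128 (by norm_num) (hi ((e2.trans k).trans Φ.map_one.symm))) (by norm_num)
  · obtain ⟨x, rfl⟩ := hs x
    have x2 := pow_orderOf_eq_one (Φ x)
    rw [hx, ← map_pow, pow_two, ← Φ.map_one, hi.eq_iff] at x2
    obtain ⟨c, k⟩ := D.inv x x2
    rcases D.cls c with rfl | l | l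
    · rw [D.zero, isConj_one_left] at k
      rw [k, map_one, orderOf_one] at hx
      exact absurd hx (by norm_num)
    · exact Or.inl (e1 ▸ Φ.map_isConj (k.trans l.symm))
    · exact Or.inr (e2 ▸ Φ.map_isConj (k.trans l.symm))

end Cfsg.J4R
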