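import Cfsg.Agent.J4R.HA
import Cfsg.Agent.J4R.M1

/-! The facts on the model. -/

set_option autoImplicit false
set_option maxRecDepth 100000
set_option Elab.async false

namespace Cfsg.J4R

open Cfsg.H6

namespace HA

theorem c1 : ∀ i < 11, ∀ j < 11, eqw [VL.getD i 0, VL.getD j 0] [VL.getD j 0, VL.getD i 0] = true := by
  decide +kernel

theorem c2 : allR (fun x => ne1 (vw x)) 1 1023 = true := by decide +kernel

theorem c2' : allR (fun x => ne1 (vw x)) 1024 1024 = true := by decide +kernel

theorem c3 : ∀ l < 26, l ≠ 24 → ∀ j < 11,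
    eqw ([l] ++ vw (2 ^ j) ++ [l].reverse) (vw (ac l (2 ^ j))) = true := by decide +kernel

end HA

theorem hm : HM :=
  HA.hm_of sq_e0 (fun i hi j hj => by
      have := eqw_spec (HA.c1 i hi j hj)
      simp only [evL_cons, evL_nil, mul_one] at this
      exact this)
    (fun x hx e => by_contra fun h => by
      rcases lt_or_ge x 1024 with k | k
      · exact ne1_spec (allR_spec HA.c2 x (by omega) (by omega)) e
      · exact ne1_spec (allR_spec HA.c2' x k (by omega)) e)
    (fun l h1 h2 j hj => by
      have := eqw_conj (HA.c3 l h1 h2 j hj)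
      rwa [evL_singleton] at this)
    xw_spec yw_spec

end Cfsg.J4R
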