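import Cfsg.Agent.J4R.H2
import Cfsg.Agent.H8.Syl

/-! The normaliser of the elementary abelian group of order `2 ^ 11` induces `M₂₄`. -/

set_option autoImplicit false
set_option maxRecDepth 100000
set_option synthInstance.maxSize 100000
set_option linter.unusedSectionVars false

namespace Cfsg.J4R

open Subgroup Cfsg.H6 Cfsg.H4.Golay
open Cfsg.Co.Rc (mem_cen)

/-- A subset of a finite group closed under products is a subgroup. -/
def finSub {M : Type*} [Group M] [Finite M] (P : M → Prop) (h1 : P 1)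
    (hm : ∀ x y, P x → P y → P (x * y)) : Subgroup M where
  carrier := {x | P x}
  one_mem' := h1
  mul_mem' := hm _ _
  inv_mem' := fun {x} hx => by
    have k : ∀ n : ℕ, P (x ^ n) := fun n => by
      induction n with
      | zero => rwa [pow_zero]
      | succ n ih => exact pow_succ x n ▸ hm _ _ ih hx
    rw [inv_eq_of_mul_eq_one_right (show x * x ^ (orderOf x - 1) = 1 by
      rw [← pow_succ', Nat.sub_add_cancel (orderOf_pos x), pow_orderOf_eq_one])]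
    exact k _

instance finiteN : Finite J4.N.Grp := J4.N.finite

theorem HM.nrm (M : HM) (m : J4.N.Grp) : ∀ v < 2048, ∃ u < 2048,
    th m * vv e0 v * (th m)⁻¹ = vv e0 u :=
  span_du (fun x hx y hy ⟨u, hu, e⟩ ⟨w, hw, e'⟩ => ⟨u ^^^ w, xor_lt' hu hw, by
    rw [M.xor x hx y hy, M.xor u hu w hw, ← e, ← e']; group⟩) fun p q => ⟨_, M.du_lt _ _, M.dua m p q⟩

theorem psi_one {m : J4.N.Grp} (h : ∀ p q, du (psi m p) (psi m q) = du p q) : m = 1 := by
  have k : ∀ a < 24, ∀ b < 24, a = b ∨ ∃ c < 24, ∀ d < 24, fp a ^^^ fp d ≠ fp b ^^^ fp c := by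
    decide +kernel
  refine psi_main.2 ((Equiv.ext fun p => ?_).trans (map_one psi).symm)
  rcases k _ (idx_lt (psi m p)) _ (idx_lt p) with e | ⟨c, hc, e⟩
  · rw [← pt_idx (psi m p), e, pt_idx]; rfl
  · have := h p (pt c)
    rw [du, du, idx_pt c hc] at this
    exact absurd this (e _ (idx_lt _))

variable {G : Type*} [Group G] {z : G} {Q : Subgroup G} {a g : ℕ → G} {Γ : Subgroup (G × Spor.J4)}

theorem vv_zero (g : ℕ → G) : vv g 0 = 1 := rfl

theorem vv_pow (g : ℕ → G) : ∀ l ∈ VL, ∃ i < 11, g l = vv g (2 ^ i) := fun l hl => by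
  have : ∀ l ∈ VL, ∃ i < 11, vw (2 ^ i) = [l] := by decide +kernel
  obtain ⟨i, hi, e⟩ := this l hl
  exact ⟨i, hi, by rw [vv, e, evL_singleton]⟩

theorem vv_mem (g : ℕ → G) (v : ℕ) : vv g v ∈ VV g := evL_mem_of_letters fun l hl => by
  obtain ⟨i, hi, rfl⟩ := List.mem_map.mp hl
  have : ∀ i ∈ List.range 11, VL.getD i 0 ∈ VL := by decide
  exact subset_closure ⟨_, this i (List.mem_filter.mp hi).1, rfl⟩

theorem Nm.mul {x y : G} {x0 y0 : Spor.J4} (h : Nm g x x0) (k : Nm g y y0) :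
    Nm g (x * y) (x0 * y0) := fun v hv => by
  obtain ⟨u, hu, e1, e2⟩ := k v hv
  obtain ⟨w, hw, e3, e4⟩ := h u hu
  exact ⟨w, hw, by rw [← e3, ← e1]; group, by rw [← e4, ← e2]; group⟩

variable [Finite G] (M : HM)
include M

theorem Gr.mem_VV (K : Gr z a Γ g) {x : G} (h : x ∈ VV g) : ∃ u < 2048, x = vv g u :=
  (closure_le (finSub (fun x => ∃ u < 2048, x = vv g u) ⟨0, by norm_num, rfl⟩
    fun _ _ ⟨u, hu, e⟩ ⟨w, hw, e'⟩ => ⟨_, xor_lt' hu hw, by rw [K.xor M hu hw, e, e']⟩)).mpr (by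
    rintro _ ⟨l, hl, rfl⟩
    obtain ⟨i, hi, e⟩ := vv_pow g l hl
    exact ⟨_, Nat.pow_lt_pow_right (by norm_num) hi, e⟩) h

theorem Gr.nrm (K : Gr z a Γ g) {x : G}
    (h : ∀ v < 2048, ∃ u < 2048, x * vv g v * x⁻¹ = vv g u) : x ∈ normalizer (VV g : Set G) :=
  mem_normalizer_fintype fun y hy => by
    obtain ⟨v, hv, rfl⟩ := K.mem_VV M hy
    obtain ⟨u, -, e⟩ := h v hv
    exact e ▸ vv_mem g u

theorem Gr.code (K : Gr z a Γ g) {n : G} (hn : n ∈ normalizer (VV g : Set G)) :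
    ∃ f : ℕ → ℕ, (∀ x < 2048, f x < 2048) ∧ (∀ x < 2048, n * vv g x * n⁻¹ = vv g (f x)) ∧
      (∀ x < 2048, ∀ y < 2048, f (x ^^^ y) = f x ^^^ f y) ∧
      ∀ x < 2048, ∀ y < 2048, f x = f y → x = y := by
  choose f h1 h2 using fun x => K.mem_VV M ((mem_normalizer_iff.mp hn _).mp (vv_mem g x))
  refine ⟨f, fun x _ => h1 x, fun x _ => h2 x, fun x hx y hy => K.veq M (h1 _)
    (xor_lt' (h1 _) (h1 _)) ?_, fun x hx y hy e => K.veq M hx hy ?_⟩
  · rw [K.xor M (h1 _) (h1 _), ← h2, ← h2, ← h2, K.xor M hx hy]; group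
  · have := h2 x
    rw [e, ← h2] at this
    simpa using this

/-- The codes of the conjugates of `z` under the normaliser. -/
def Ob (g : ℕ → G) (v : ℕ) : Prop := ∃ n ∈ normalizer (VV g : Set G), n * vv g 1 * n⁻¹ = vv g v

omit M in
theorem Ob.cj {n : G} (hn : n ∈ normalizer (VV g : Set G)) {u v : ℕ}
    (e : n * vv g u * n⁻¹ = vv g v) : Ob g u ↔ Ob g v :=
  ⟨fun ⟨k, hk, h⟩ => ⟨n * k, mul_mem hn hk, by rw [← e, ← h]; group⟩,
    fun ⟨k, hk, h⟩ => ⟨n⁻¹ * k, mul_mem (inv_mem hn) hk, by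
      rw [← e] at h
      calc _ = n⁻¹ * (k * vv g 1 * k⁻¹) * n := by group
        _ = _ := by rw [h]; group⟩⟩

theorem Gr.ob_ct (K : Gr z a Γ g) {v : ℕ} (hv : v < 2048) : Ob g v ↔ Ob g (ct v) := by
  have k : ∀ n, ∀ v < 2048, Ob g v ↔ Ob g ((fun v => ac (pl v) v)^[n] v) := fun n => by
    induction n with
    | zero => exact fun _ _ => Iff.rfl
    | succ n ih =>
      intro v hv
      have hl : pl v < 24 := Nat.mod_lt _ (by norm_num)
      have l := fun x hx => (M.act _ (hl.trans (by norm_num)) hl.ne x hx).1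
      exact (Ob.cj (K.nrm M fun x hx => ⟨_, l x hx, K.act M hl hx⟩) (K.act M hl hv)).trans
        (ih _ (l v hv))
  exact cl_eq v (List.mem_range.mpr hv) ▸ k 10 v hv

theorem St.ob (T : St z Q a Γ g) : ∀ v < 2048, Ob g v ↔ v ≠ 0 ∧ isD v = false := by
  have K := T.gr
  have z1 : vv g 1 = z := (evL_singleton g 1).trans (K.fr 1 (by norm_num))
  have nc : ∀ v, ¬ IsConj z (vv g v) → ¬ Ob g v := fun v h ⟨n, _, e⟩ =>
    h (isConj_iff.mpr ⟨n, z1 ▸ e⟩)
  have o0 : ¬ Ob g 0 := nc 0 fun h => T.ch.es.z1 (isConj_one_left.mp h)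
  have o34 : ¬ Ob g 34 := nc 34 fun h => T.n1 (by rwa [← evL_singleton g 6, ← evL_cons])
  have o128 : ¬ Ob g 128 := nc 128 fun h => T.n2 (by rwa [← evL_singleton g 20])
  have o1 : Ob g 1 := ⟨1, one_mem _, by simp⟩
  obtain ⟨n, hn, e⟩ := T.mv
  rw [← z1, ← evL_singleton g 2] at e
  have o2 : Ob g 2 := ⟨n, hn, e⟩
  obtain ⟨f, f1, f2, f3, f4⟩ := K.code M (inv_mem hn)
  have fo : ∀ x < 2048, Ob g x ↔ Ob g (f x) := fun x hx => Ob.cj (inv_mem hn) (f2 x hx)
  have e2 : f 2 = 1 := K.veq M (f1 2 (by norm_num)) (by norm_num) (by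
    rw [← f2 2 (by norm_num), show vv g 2 = evL g [2] from rfl, ← e]; group)
  have cs := fun v hv => ct_cases v (List.mem_range.mpr hv)
  have oc := fun v (hv : v < 2048) => K.ob_ct M hv
  have fx : ∀ x < 2048, f (x ^^^ 2) = f x ^^^ 1 := fun x hx => e2 ▸ f3 x hx 2 (by norm_num)
  have ob2 : ∀ x < 2048, ct x = 2 → Ob g (f x) := fun x hx h => (fo x hx).mp ((oc x hx).mpr (h ▸ o2))
  have l32 := f1 32 (by norm_num)
  have c1 : Ob g (f 32) := ob2 32 (by norm_num) (by decide +kernel)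
  have c2 : ¬ Ob g (f 32 ^^^ 1) := fun h => o34 ((fo 34 (by norm_num)).mpr (fx 32 (by norm_num) ▸ h))
  have c3 : ct (f 32) = 129 ∧ 128 ≤ f 32 := by
    have h1 := (oc _ l32).mp c1
    have h2 := mt (oc _ (xor_lt' l32 (by norm_num : 1 < 2048))).mpr c2
    rcases cs _ l32 with ⟨h | h | h | h | h, -⟩ | ⟨h | h, -⟩
    · exact absurd (h.1 ▸ h1) o0
    · exact absurd (f4 32 (by norm_num) 2 (by norm_num) (h.2.trans e2.symm)) (by norm_num)
    · exact absurd (h.2.1 ▸ o2) h2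
    · exact absurd (h.2 ▸ h.1 ▸ h1) h2
    · exact ⟨h.1, h.2.2⟩
    · exact absurd (h ▸ h1) o34
    · exact absurd (h ▸ h1) o128
  have o129 : Ob g 129 := c3.1 ▸ (oc _ l32).mp c1
  have o136 : Ob g 136 := by
    by_contra n136
    have sm : ∀ x < 2048, ct x = 2 → ct (x ^^^ 2) = 2 → f x < 128 := fun x hx h1 h2 => by
      have l := f1 x hx
      have k1 := (oc _ l).mp (ob2 x hx h1)
      have k2 := (oc _ (xor_lt' l (by norm_num : 1 < 2048))).mp
        (fx x hx ▸ ob2 _ (xor_lt' hx (by norm_num)) h2)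
      rcases cs _ l with ⟨h | h | h | h | h, -⟩ | ⟨h | h, -⟩
      · omega
      · omega
      · exact h.2.2
      · exact absurd (h.1 ▸ k1) n136
      · exact absurd (h.2.1 ▸ k2) o128
      · exact absurd (h ▸ k1) o34
      · exact absurd (h ▸ k1) o128
    have := Nat.xor_lt_two_pow (n := 7) (sm 8 (by norm_num) (by decide +kernel) (by decide +kernel))
      (sm 40 (by norm_num) (by decide +kernel) (by decide +kernel))
    rw [← f3 8 (by norm_num) 40 (by norm_num)] at this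
    exact absurd c3.2 (not_le.mpr this)
  intro v hv
  rw [oc v hv]
  rcases cs v hv with ⟨h | h | h | h | h, d⟩ | ⟨h | h, d⟩
  · exact iff_of_false (h.1 ▸ o0) fun k => k.1 h.2
  · exact iff_of_true (h.1 ▸ o1) ⟨by omega, d⟩
  · exact iff_of_true (h.1 ▸ o2) ⟨fun e => absurd (e ▸ h.1) (by decide +kernel), d⟩
  · exact iff_of_true (h.1 ▸ o136) ⟨fun e => absurd (e ▸ h.1) (by decide +kernel), d⟩
  · exact iff_of_true (h.1 ▸ o129) ⟨by omega, d⟩
  · exact iff_of_false (h ▸ o34) fun k => by simp [d] at k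
  · exact iff_of_false (h ▸ o128) fun k => by simp [d] at k

theorem St.nm (T : St z Q a Γ g) {n : G} (hn : n ∈ normalizer (VV g : Set G)) :
    ∃ m, Nm g n (th m) := by
  obtain ⟨f, f1, f2, f3, f4⟩ := T.gr.code M hn
  have f0 : f 0 = 0 := by simpa using f3 0 (by norm_num) 0 (by norm_num)
  obtain ⟨m, hm⟩ := exists_m f3 f1 f4 fun x hx h => by
    have := Ob.cj hn (f2 x hx)
    rw [T.ob M x hx, T.ob M _ (f1 x hx), h] at this
    by_contra k
    exact absurd (this.mpr ⟨fun e => absurd (f4 x hx 0 (by norm_num) (e.trans f0.symm) ▸ h)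
      (by decide +kernel), by simpa using k⟩).2 (by simp)
  refine ⟨m, fun v hv => ⟨_, f1 v hv, f2 v hv, span_du
    (P := fun v => th m * vv e0 v * (th m)⁻¹ = vv e0 (f v)) (fun x hx y hy e e' => ?_)
    (fun p q => hm p q ▸ M.dua m p q) v hv⟩⟩
  beta_reduce at e e' ⊢
  rw [f3 x hx y hy, M.xor x hx y hy, M.xor _ (f1 x hx) _ (f1 y hy), ← e, ← e']; group

omit [Finite G] in
theorem HM.fixz {m : J4.N.Grp} (h : m ∈ Sb) : th m * vv e0 1 * (th m)⁻¹ = vv e0 1 :=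
  (closure_le (finSub (fun m => th m * vv e0 1 * (th m)⁻¹ = vv e0 1) (by simp) fun x y e e' => by
    calc _ = th x * (th y * vv e0 1 * (th y)⁻¹) * (th x)⁻¹ := by rw [map_mul]; group
      _ = _ := by rw [e', e])).mpr (by
    rintro _ ⟨l, h1, h2, rfl⟩
    have : ∀ l < 20, ac l 1 = 1 := by decide +kernel
    show _ = _
    rw [M.ml l (.inl ⟨h1, h2⟩), (M.act l (by omega) (by omega) 1 (by norm_num)).2, this l h2]) h

theorem St.onto (T : St z Q a Γ g) (m : J4.N.Grp) : ∃ x : G, Nm g x (th m) := by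
  let X := finSub (fun m => ∃ x : G, Nm g x (th m)) ⟨1, fun v hv => ⟨v, hv, by simp, by simp⟩⟩
    fun _ _ ⟨x, hx⟩ ⟨y, hy⟩ => ⟨x * y, map_mul th _ _ ▸ hx.mul hy⟩
  have hS : Sb ≤ X := (closure_le X).mpr (by
    rintro _ ⟨l, h1, h2, rfl⟩
    refine ⟨g l, fun v hv => ?_⟩
    have := M.act l (by omega) (by omega) v hv
    exact ⟨_, this.1, T.gr.act M (by omega) hv, M.ml l (.inl ⟨h1, h2⟩) ▸ this.2⟩)
  let F := (Finset.range 2048).filter fun v => v ≠ 0 ∧ isD v = false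
  have cF : F.card = 1771 := by decide +kernel
  have ex : ∀ v : F, ∃ m ∈ X, th m * vv e0 1 * (th m)⁻¹ = vv e0 v := fun ⟨v, hv⟩ => by
    obtain ⟨h1, h2⟩ := Finset.mem_filter.mp hv
    obtain ⟨n, hn, e⟩ := (T.ob M v (Finset.mem_range.mp h1)).mpr h2
    obtain ⟨m, hm⟩ := T.nm M hn
    obtain ⟨u, hu, e1, e2⟩ := hm 1 (by norm_num)
    exact ⟨m, ⟨n, hm⟩, T.gr.veq M hu (Finset.mem_range.mp h1) (e1.symm.trans e) ▸ e2⟩
  choose μ h1 h2 using ex
  have lt : ∀ v : F, (v : ℕ) < 2048 := fun v => Finset.mem_range.mp (Finset.mem_filter.mp v.2).1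
  have inj : Function.Injective fun d : F × Sb => (⟨μ d.1 * d.2, mul_mem (h1 _) (hS d.2.2)⟩ : X) := by
    rintro ⟨v, s⟩ ⟨w, t⟩ e
    have e' : μ v * s = μ w * t := congrArg Subtype.val e
    have k : ∀ (v : F) (s : Sb), th (μ v * s) * vv e0 1 * (th (μ v * s))⁻¹ = vv e0 v := fun v s => by
      rw [← h2, map_mul]; nth_rw 2 [← M.fixz s.2]; group
    obtain rfl : v = w := Subtype.ext (M.eq (lt v) (lt w) (by rw [← k v s, e', k]))
    rw [Subtype.ext (mul_left_cancel e')]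
  have c := Nat.card_le_card_of_injective _ inj
  rw [Nat.card_prod, Nat.card_eq_fintype_card, Fintype.card_coe, cF] at c
  have d := Nat.le_of_dvd Nat.card_pos Sb_dv
  have : X = ⊤ := Subgroup.eq_top_of_le_card _ (by rw [J4.N.card]; omega)
  exact (this ▸ mem_top m : m ∈ X)

omit M in
theorem St.pgrp (T : St z Q a Γ g) : IsPGroup 2 (centralizer (VV g : Set G)) := by
  have E := T.ch.es
  have F := T.ch.fr
  rintro ⟨x, hx⟩
  have c : ∀ l, 1 ≤ l → l < 8 → fa z a l * x = x * fa z a l := fun l h1 h2 =>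
    T.gr.fr l (by omega) ▸ mem_centralizer_iff.mp hx _ (subset_closure ⟨l, by
      interval_cases l <;> decide, rfl⟩)
  have xz : x * z = z * x := (c 1 le_rfl (by norm_num)).symm
  have ca : ∀ j < 6, Commute (a j) x := fun j hj => by
    have := c (j + 2) (by omega) (by omega)
    rwa [fa, if_neg (by omega), if_pos (by omega), Nat.add_sub_cancel] at this
  have key : ∀ q ∈ Q, x ^ 4 * q * (x ^ 4)⁻¹ = q := fun q hq => by
    have h1 := E.nrm x xz q hq
    have hr : x * q * x⁻¹ * q⁻¹ ∈ Q := mul_mem h1 (inv_mem hq)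
    have lt : co a (x * q * x⁻¹ * q⁻¹) < 2 ^ 6 := Nat.lt_pow_two_of_testBit _ fun i hi => by
      by_cases h : i < 12
      · have k := ca (pr i) (by unfold pr; omega)
        have e : ∀ y : G, a (pr i) * (x * y * x⁻¹) = x * (a (pr i) * y) * x⁻¹ := fun y => by
          rw [← mul_assoc, ← mul_assoc, k.eq]; group
        have e' : ∀ y : G, x * y * x⁻¹ * a (pr i) = x * (y * a (pr i)) * x⁻¹ := fun y => by
          rw [mul_assoc, ← k.inv_right.eq]; group
        rw [co_mul E F h1 (inv_mem hq), co_inv E F hq, Nat.testBit_xor]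
        have : (co a (x * q * x⁻¹)).testBit i = (co a q).testBit i := by
          rw [Bool.eq_iff_iff, co_bit _ _ h, co_bit _ _ h, e, e']
          simp
        rw [this, Bool.xor_self]
      · exact Nat.testBit_lt_two_pow ((co_lt _ _).trans_le
          (Nat.pow_le_pow_right (n := 2) (i := 12) (by norm_num) (by omega)))
    have bl : ∀ v < 64, ∀ l ∈ bw v, 1 ≤ l ∧ l < 8 := by decide +kernel
    have cw : evL (fa z a) (bw (co a (x * q * x⁻¹ * q⁻¹))) ∈ centralizer {x} :=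
      evL_mem_of_letters fun l hl => mem_cen.mpr (c l (bl _ lt l hl).1 (bl _ lt l hl).2)
    have cr : x * q * x⁻¹ * q⁻¹ ∈ centralizer {x} := by
      rcases nf E F hr with e | e <;> rw [e]
      exacts [cw, mul_mem (mem_cen.mpr xz.symm) cw]
    have sq := E.sq _ hr
    have rz := E.qz _ hr
    obtain ⟨r, hr⟩ : ∃ r, r = x * q * x⁻¹ * q⁻¹ := ⟨_, rfl⟩
    rw [← hr] at cr sq rz
    have cx : Commute r x := mem_cen.mp cr
    have st : ∀ n : ℕ, x ^ n * q * (x ^ n)⁻¹ = r ^ n * q := fun n => by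
      induction n with
      | zero => simp
      | succ n ih =>
        calc _ = x * (x ^ n * q * (x ^ n)⁻¹) * x⁻¹ := by group
          _ = r ^ n * (x * q * x⁻¹ * q⁻¹) * q := by
            rw [ih, ← mul_assoc, ← (cx.pow_left n).eq]; group
          _ = _ := by rw [← hr, pow_succ]
    rw [st, show r ^ 4 = r * r * (r * r) by
      rw [show (4 : ℕ) = 2 + 2 from rfl, pow_add, pow_two]]
    rcases sq with e | e <;> rw [e]
    · simp
    · rw [E.zz, one_mul]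
  refine ⟨3, Subtype.ext ?_⟩
  show x ^ 2 ^ 3 = 1
  rw [show x ^ 2 ^ 3 = x ^ 4 * x ^ 4 by group]
  rcases E.cen _ ((Commute.pow_left xz 4).eq) fun q hq => mul_inv_eq_iff_eq_mul.mp (key q hq) with
    e | e <;> rw [e]
  exacts [one_mul 1, E.zz]

theorem St.cen (T : St z Q a Γ g) (x : G) (hx : ∀ v < 2048, x * vv g v * x⁻¹ = vv g v) :
    ∃ u < 2048, x = vv g u := by
  have K := T.gr
  have : Fact (Nat.Prime 2) := ⟨Nat.prime_two⟩
  have cj : ∀ {y : G} {y0 : Spor.J4} {v u : ℕ}, (y, y0) ∈ Γ →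
      (y * vv g v * y⁻¹ = vv g u ↔ y0 * vv e0 v * y0⁻¹ = vv e0 u) := fun {y y0 v u} h =>
    have k : (y * vv g v * y⁻¹, y0 * vv e0 v * y0⁻¹) ∈ Γ :=
      Γ.mul_mem (Γ.mul_mem h (K.pv v)) (Γ.inv_mem h)
    ⟨fun e => K.eq2 (e ▸ k) (K.pv u), fun e => K.eq1 (e ▸ k) (K.pv u)⟩
  have vc : ∀ u < 2048, ∀ w < 2048, vv e0 u * vv e0 w * (vv e0 u)⁻¹ = vv e0 w := fun u hu w hw => by
    rw [← M.xor u hu w hw, Nat.xor_comm, M.xor w hw u hu, mul_inv_cancel_right]
  let S := finSub (fun y => ∃ m ∈ Sb, ∃ u < 2048, (y, vv e0 u * th m) ∈ Γ)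
    ⟨1, one_mem _, 0, by norm_num, by rw [vv_zero, map_one, one_mul]; exact Γ.one_mem⟩
    fun _ _ ⟨m, hm, u, hu, e⟩ ⟨k, hk, w, hw, e'⟩ => by
      obtain ⟨t, ht, h⟩ := M.nrm m w hw
      refine ⟨m * k, mul_mem hm hk, u ^^^ t, xor_lt' hu ht, ?_⟩
      rw [M.xor u hu t ht, ← h, map_mul, show vv e0 u * (th m * vv e0 w * (th m)⁻¹) *
        (th m * th k) = vv e0 u * th m * (vv e0 w * th k) by group]
      exact Γ.mul_mem e e'
  have ex : ∀ m : Sb, ∃ y, (y, th m) ∈ Γ := fun m =>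
    (closure_le (finSub (fun m => ∃ y, (y, th m) ∈ Γ) ⟨1, map_one th ▸ Γ.one_mem⟩
      fun _ _ ⟨y, h⟩ ⟨y', h'⟩ => ⟨y * y', map_mul th _ _ ▸ Γ.mul_mem h h'⟩)).mpr (by
      rintro _ ⟨l, h1, h2, rfl⟩
      exact ⟨g l, M.ml l (.inl ⟨h1, h2⟩) ▸ K.mem l (by omega)⟩) m.2
  choose ν hν using ex
  have pr : ∀ d : Fin 2048 × Sb, (vv g d.1 * ν d.2, vv e0 d.1 * th d.2) ∈ Γ := fun d =>
    Γ.mul_mem (K.pv _) (hν _)
  have bij : Function.Bijective fun d : Fin 2048 × Sb =>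
      (⟨vv g d.1 * ν d.2, d.2, d.2.2, d.1, d.1.2, pr d⟩ : S) := by
    refine ⟨fun ⟨u, s⟩ ⟨w, t⟩ e => ?_, fun ⟨y, m, hm, u, hu, e⟩ =>
      ⟨(⟨u, hu⟩, ⟨m, hm⟩), Subtype.ext (K.eq1 (pr _) e)⟩⟩
    have e1 : vv g u * ν s = vv g w * ν t := congrArg Subtype.val e
    have e2 : vv e0 u * th s = vv e0 w * th t := K.eq2 (pr (u, s)) (e1 ▸ pr (w, t))
    have e3 : (t : J4.N.Grp) * (s : J4.N.Grp)⁻¹ = 1 := M.cen _ _ (xor_lt' w.2 u.2) (by
      have w2 := M.xor w w.2 w w.2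
      rw [Nat.xor_self, vv_zero] at w2
      rw [M.xor _ w.2 _ u.2, map_mul, map_inv, eq_mul_inv_of_mul_eq e2, mul_assoc, ← mul_assoc,
        ← w2, one_mul])
    obtain rfl : t = s := Subtype.ext (mul_inv_eq_one.mp e3)
    rw [Fin.ext (M.eq u.2 w.2 (mul_right_cancel e2))]
  have cS := Nat.card_congr (Equiv.ofBijective _ bij)
  rw [Nat.card_prod, Nat.card_eq_fintype_card, Fintype.card_fin] at cS
  have hC : S ≤ centralizer {z} := fun y ⟨m, _, u, _, e⟩ =>
    K.gen ((centralizer {z}).comap (MonoidHom.fst _ _)) (fun l _ => mem_cen.mpr (T.ch.cz l)) e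
  have odd : ¬ 2 ∣ S.relIndex (centralizer {z}) := fun h => by
    have h1 := Nat.mul_dvd_mul (Nat.mul_dvd_mul_left 2048 Sb_dv) h
    rw [cS, ← Nat.card_congr (subgroupOfEquivOfLe hC).toEquiv, relIndex, card_mul_index,
      T.ch.es.cardC] at h1
    omega
  have hN : S ≤ normalizer (VV g : Set G) := fun y ⟨m, _, u, hu, e⟩ => K.nrm M fun v hv => by
    obtain ⟨t, ht, h⟩ := M.nrm m v hv
    refine ⟨t, ht, (cj e).mpr ?_⟩
    rw [← vc u hu t ht, ← h]; group
  obtain ⟨P, hP, -⟩ := H8.exists_isSyl_ge (p := 2) IsPGroup.of_bot (bot_le : ⊥ ≤ S)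
  have cz : centralizer (VV g : Set G) ≤ centralizer {z} := centralizer_le (by
    rintro _ rfl
    exact subset_closure ⟨1, by decide, (K.fr 1 (by norm_num)).symm⟩)
  have := (hP.trans hC odd).eq_of_le (hP.isPGroup.to_sup_of_normal_right' T.pgrp
    (hP.le.trans (hN.trans (L0.le_normalizer_centralizer le_rfl)))) le_sup_left
    (sup_le (hP.le.trans hC) cz)
  obtain ⟨m, -, u, hu, e⟩ := hP.le (this ▸ mem_sup_right (mem_centralizer_iff.mpr fun y hy => by
    obtain ⟨v, hv, rfl⟩ := K.mem_VV M hy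
    exact (mul_inv_eq_iff_eq_mul.mp (hx v hv)).symm) : x ∈ P)
  obtain rfl : m = 1 := psi_one fun p q => M.eq (du_lt _ _) (du_lt _ _) (by
    have h := (cj e).mp (hx _ (du_lt p q))
    rw [← vc u hu _ (du_lt (psi m p) (psi m q)), ← M.dua]
    exact Eq.trans (by group) h)
  exact ⟨u, hu, K.eq1 (by simpa using e) (K.pv u)⟩

theorem St.hi (T : St z Q a Γ g) : HI g := ⟨T.cen M, T.onto M⟩

end Cfsg.J4R
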