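import Cfsg.Agent.J4R.K2
import Cfsg.Agent.J4R.D1

/-! The twist by the sign and the final amalgam. -/

set_option autoImplicit false
set_option maxRecDepth 100000

namespace Cfsg.J4R.K

open Subgroup Cfsg.H6

variable {G : Type*} [Group G] {z : G} {Q : Subgroup G} {a g : ℕ → G}
  {Γ : Subgroup (G × Spor.J4)} {φ : J4.N.Grp →* G}

/-- The twisted letters. -/
def tw (z : G) (g : ℕ → G) (l : ℕ) : G := if 14 ≤ l ∧ l < 20 then z * g l else g l

/-- The action of the element of order three. -/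
noncomputable def dm (v : ℕ) : ℕ := im 14 (im 19 v)

theorem dm_chk : ∀ v < 4096, dm v < 4096 ∧ dm (dm (dm v)) = v := by decide +kernel

theorem dm_xor (u v : ℕ) : dm (u ^^^ v) = dm u ^^^ dm v := by rw [dm, im_xor, im_xor]; rfl

theorem dm_b : ∀ l < 25, 14 ≤ l → ∀ j < 12,
    im l (dm (2 ^ j)) ^^^ (if l < 20 then dm (dm (im l (2 ^ j))) else dm (im l (2 ^ j))) = 0 := by
  decide +kernel

theorem dm_im {l : ℕ} (h1 : 14 ≤ l) (h2 : l < 25) {v : ℕ} (hv : v < 4096) :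
    im l (dm v) = if l < 20 then dm (dm (im l v)) else dm (im l v) :=
  Nat.eq_of_xor_eq_zero (lin_zero
    (f := fun v => im l (dm v) ^^^ (if l < 20 then dm (dm (im l v)) else dm (im l v)))
    (fun a b => by simp only [dm_xor, im_xor]; split_ifs <;> ac_rfl) 12 (dm_b l h2 h1) v hv)

theorem vv_tw (u : ℕ) : vv (tw z g) u = vv g u := evL_congr fun l hl => by
  obtain ⟨i, hi, rfl⟩ := List.mem_map.mp hl
  have : ∀ i ∈ List.range 11, ¬ (14 ≤ VL.getD i 0 ∧ VL.getD i 0 < 20) := by decide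
  exact if_neg (this i (List.mem_filter.mp hi).1)

theorem twist [Finite G] (T : St z Q a Γ g) : ∃ Γ', St z Q a Γ' (tw z g) := by
  have E := T.ch.es
  have F := T.ch.fr
  have zz : z * z = z * z := rfl
  have cm : ∀ {x y : G}, x * z = z * x → y * z = z * y → x * y * z = z * (x * y) := fun h k => by
    rw [mul_assoc, k, ← mul_assoc, h, mul_assoc]
  have rz : ∀ {x : G}, x * z = z * x → ∀ v, rc z a (z * x) v = rc z a x v := fun h v => by
    rw [rc_mul E F zz h]; exact rc_Q E F E.zQ (co_lt _ _)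
  have cz : ∀ l, tw z g l * z = z * tw z g l := fun l => by
    unfold tw; split_ifs
    exacts [cm zz (T.ch.cz l), T.ch.cz l]
  have act : ∀ l, 14 ≤ l → l < 25 → ∀ v < 4096, rc z a (tw z g l) v = im l v := fun l h1 h2 v hv => by
    unfold tw; split_ifs
    exacts [(rz (T.ch.cz l) v).trans (T.ch.act l h1 h2 v hv), T.ch.act l h1 h2 v hv]
  have wd : ∀ w, evL g w * z = z * evL g w ∧
      (evL (tw z g) w = evL g w ∨ evL (tw z g) w = z * evL g w) := fun w => by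
    induction w with
    | nil => simp [evL_nil]
    | cons l w ih =>
      refine ⟨evL_cons g l w ▸ cm (T.ch.cz l) ih.1, ?_⟩
      have c := T.ch.cz l
      rw [evL_cons, evL_cons, tw]
      split_ifs <;> rcases ih.2 with e | e <;> rw [e]
      · exact Or.inr (mul_assoc _ _ _)
      · exact Or.inl (by rw [← c, mul_assoc, E.zzm])
      · exact Or.inl rfl
      · exact Or.inr (by rw [← mul_assoc, c, mul_assoc])
  have vq : VV (tw z g) = VV g := by
    have : ∀ l ∈ VL, tw z g l = g l := fun l hl => if_neg ((by decide :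
      ∀ l ∈ VL, ¬ (14 ≤ l ∧ l < 20)) l hl)
    unfold VV
    congr 1
    ext x
    exact ⟨fun ⟨l, h, e⟩ => ⟨l, h, this l h ▸ e⟩, fun ⟨l, h, e⟩ => ⟨l, h, (this l h).symm ▸ e⟩⟩
  let P0 : G → Prop := fun x => ∀ v < 4096, rc z a x (dm v) = dm (rc z a x v)
  let P1 : G → Prop := fun x => ∀ v < 4096, rc z a x (dm v) = dm (dm (rc z a x v))
  let R : G × Spor.J4 → Prop := fun p => p.1 * z = z * p.1 ∧
    (p ∈ Γ ∧ P0 p.1 ∨ (z * p.1, p.2) ∈ Γ ∧ P1 p.1)
  have q0 : ∀ x ∈ Q, P0 x := fun x hx v hv => by rw [rc_Q E F hx hv, rc_Q E F hx (dm_chk v hv).1]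
  have q1 : ∀ x ∈ Q, ¬ P1 x := fun x hx h => by
    have := h 1 (by norm_num)
    rw [rc_Q E F hx (v := 1) (by norm_num), rc_Q E F hx (dm_chk 1 (by norm_num)).1] at this
    exact absurd this (by decide +kernel)
  have rl : ∀ x v, rc z a x v < 4096 := fun _ _ => co_lt _ _
  have rm : ∀ p q, R p → R q → R (p * q) := by
    rintro ⟨x, x0⟩ ⟨y, y0⟩ ⟨c1, h1⟩ ⟨c2, h2⟩
    have m := rc_mul E F c1 c2
    refine ⟨cm c1 c2, ?_⟩
    rcases h1 with ⟨h1, p1⟩ | ⟨h1, p1⟩ <;> rcases h2 with ⟨h2, p2⟩ | ⟨h2, p2⟩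
    · exact Or.inl ⟨mul_mem h1 h2, fun v hv => by
        simp only [Prod.fst_mul, m]; rw [p2 v hv, p1 _ (rl _ _)]⟩
    · refine Or.inr ⟨?_, fun v hv => by
        simp only [Prod.fst_mul, m]; rw [p2 v hv, p1 _ (dm_chk _ (rl _ _)).1, p1 _ (rl _ _)]⟩
      have := mul_mem h1 h2
      rwa [Prod.mk_mul_mk, ← mul_assoc, show x * z = z * x from c1, mul_assoc] at this
    · refine Or.inr ⟨?_, fun v hv => by
        simp only [Prod.fst_mul, m]; rw [p2 v hv, p1 _ (rl _ _)]⟩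
      have := mul_mem h1 h2
      rwa [Prod.mk_mul_mk, mul_assoc] at this
    · refine Or.inl ⟨?_, fun v hv => by
        simp only [Prod.fst_mul, m]
        rw [p2 v hv, p1 _ (dm_chk _ (rl _ _)).1, p1 _ (rl _ _), (dm_chk _ (dm_chk _ (rl _ _)).1).2]⟩
      have := mul_mem h1 h2
      rwa [Prod.mk_mul_mk, ← show x * z = z * x from c1, mul_assoc, E.zzm] at this
  have rg : ∀ l < 25, R (tw z g l, e0 l) := fun l hl => by
    refine ⟨cz l, ?_⟩
    by_cases h : 14 ≤ l ∧ l < 20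
    · refine Or.inr ⟨?_, fun v hv => ?_⟩
      · rw [tw, if_pos h, E.zzm]; exact T.gr.mem l hl
      · rw [act l h.1 hl v hv, act l h.1 hl _ (dm_chk v hv).1, dm_im h.1 hl hv, if_pos h.2]
    · refine Or.inl ⟨by rw [tw, if_neg h]; exact T.gr.mem l hl, ?_⟩
      by_cases h1 : 14 ≤ l
      · intro v hv
        rw [act l h1 hl v hv, act l h1 hl _ (dm_chk v hv).1, dm_im h1 hl hv, if_neg (by omega)]
      · rw [tw, if_neg h, T.gr.fr l (by omega)]
        exact q0 _ (fa_mem E F l)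
  have key : ∀ p ∈ closure {p | ∃ l < 25, p = (tw z g l, e0 l)}, R p := fun p hp => by
    have r1 : R 1 := ⟨by simp, Or.inl ⟨one_mem _, q0 _ (one_mem _)⟩⟩
    induction hp using closure_induction with
    | mem p hp => obtain ⟨l, hl, rfl⟩ := hp; exact rg l hl
    | one => exact r1
    | mul p q _ _ h k => exact rm p q h k
    | inv p _ h =>
      obtain ⟨x, x0⟩ := p
      obtain ⟨c1, h⟩ := h
      have c2 : x⁻¹ * z = z * x⁻¹ := (show Commute x z from c1).inv_left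
      have i1 : ∀ v < 4096, rc z a x (rc z a x⁻¹ v) = v := fun v hv => by
        rw [← rc_mul E F c1 c2, mul_inv_cancel, rc_Q E F (one_mem _) hv]
      have i2 : ∀ v < 4096, rc z a x⁻¹ (rc z a x v) = v := fun v hv => by
        rw [← rc_mul E F c2 c1, inv_mul_cancel, rc_Q E F (one_mem _) hv]
      refine ⟨c2, h.imp (fun h => ⟨inv_mem h.1, fun v hv => ?_⟩) fun h => ⟨?_, fun v hv => ?_⟩⟩
      · have := h.2 _ (rl x⁻¹ v)
        rw [i1 v hv] at this
        exact this ▸ i2 _ (dm_chk _ (rl _ _)).1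
      · have := inv_mem h.1
        rwa [Prod.inv_mk, mul_inv_rev, E.zinv, c2] at this
      · have := h.2 _ (dm_chk _ (rl x⁻¹ v)).1
        rw [h.2 _ (rl x⁻¹ v), i1 v hv, (dm_chk _ (dm_chk _ hv).1).2] at this
        exact this ▸ i2 _ (dm_chk _ (dm_chk _ (rl _ _)).1).1
  refine ⟨closure {p | ∃ l < 25, p = (tw z g l, e0 l)}, ⟨E, F, cz, act, fun x hx => ?_⟩,
    ⟨fun x hx => ?_, fun x hx => ?_, fun l hl => subset_closure ⟨l, hl, rfl⟩, fun K hK => ?_,
      fun l hl => ?_⟩, vq ▸ T.mv, T.n1, T.n2⟩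
  · obtain ⟨w, h1, h2⟩ := T.ch.gen x hx
    refine ⟨w, h1, ?_⟩
    rcases (wd w).2 with e | e <;> rw [e]
    · exact h2
    · rw [mul_inv_rev, ← mul_assoc]; exact mul_mem h2 (inv_mem E.zQ)
  · rcases (key _ hx).2 with h | h
    · exact T.gr.fst x h.1
    · exact (q1 x (by
        rw [show x = z⁻¹ from eq_inv_of_mul_eq_one_right (T.gr.fst _ h.1)]; exact inv_mem E.zQ) h.2).elim
  · rcases (key _ hx).2 with h | h
    · exact T.gr.snd x h.1
    · exact (q1 1 (one_mem _) h.2).elim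
  · rw [closure_le]; rintro _ ⟨l, hl, rfl⟩; exact hK l hl
  · rw [tw, if_neg (by omega)]; exact T.gr.fr l hl

theorem am_of (M : HM) (T : St z Q a Γ g) (h : Sec g φ)
    (e : ∀ l, 8 ≤ l → l < 20 → φ (ml l) = g l) : ∃ Λ, Am2 z Q a Γ Λ g (φ (ml 25)) := by
  have K := T.gr
  have i0 : ∀ u < 2048, (vv e0 u)⁻¹ = vv e0 u := fun u hu => inv_eq_of_mul_eq_one_right (by
    rw [← M.xor u hu u hu, Nat.xor_self, vv_zero])
  let Λ : Subgroup (G × Spor.J4) :=
    { carrier := {p | ∃ u < 2048, ∃ m, p = (vv g u * φ m, vv e0 u * th m)}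
      one_mem' := ⟨0, by norm_num, 1, by simp [vv_zero, Prod.ext_iff]⟩
      mul_mem' := by
        rintro _ _ ⟨u, hu, m, rfl⟩ ⟨v, hv, n, rfl⟩
        obtain ⟨w, hw, e1, e2⟩ := h m v hv
        refine ⟨u ^^^ w, xor_lt' hu hw, m * n, Prod.ext ?_ ?_⟩
        · show _ * _ * (_ * _) = _
          rw [K.xor M hu hw, ← e1, map_mul]; group
        · show _ * _ * (_ * _) = _
          rw [M.xor u hu w hw, ← e2, map_mul th]; group
      inv_mem' := by
        rintro _ ⟨u, hu, m, rfl⟩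
        obtain ⟨w, hw, e1, e2⟩ := h m⁻¹ u hu
        refine ⟨w, hw, m⁻¹, Prod.ext ?_ ?_⟩
        · show (_ * _)⁻¹ = _
          rw [← e1, mul_inv_rev, vv_inv K M hu, map_inv]; group
        · show (_ * _)⁻¹ = _
          rw [← e2, mul_inv_rev, i0 u hu, map_inv th]; group }
  have m1 : ∀ m, (φ m, th m) ∈ Λ := fun m => ⟨0, by norm_num, m, by simp [vv_zero]⟩
  refine ⟨Λ, T, ?_, fun l hl => ?_, M.ml 25 (Or.inr rfl) ▸ m1 _⟩
  · rintro x ⟨u, hu, m, e1⟩
    obtain ⟨rfl, e2⟩ := Prod.mk.inj e1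
    have e3 := M.cen m u hu (by rw [eq_inv_of_mul_eq_one_right e2.symm, i0 u hu])
    rw [e3, map_one, mul_one] at e2 ⊢
    rw [M.inj u hu e2.symm, vv_zero]
  · by_cases h1 : 8 ≤ l ∧ l < 20
    · rw [← e l h1.1 h1.2, ← M.ml l (Or.inl h1)]; exact m1 _
    · rcases eq_or_ne l 0 with rfl | h0
      · rw [K.fr 0 (by norm_num)]; exact Λ.one_mem
      · obtain ⟨u, hu, e1⟩ := (by decide +kernel : ∀ l < 24, l ≠ 0 → ¬ (8 ≤ l ∧ l < 20) →
          ∃ i < 11, vw (2 ^ i) = [l]) l hl h0 h1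
        exact ⟨2 ^ u, Nat.pow_lt_pow_right (a := 2) (by norm_num) hu, 1, by
          simp [vv, e1, evL_singleton]⟩

end Cfsg.J4R.K

namespace Cfsg.J4R

variable {G : Type*} [Group G] {z : G} {Q : Subgroup G} {a g : ℕ → G}
  {Γ : Subgroup (G × Spor.J4)}

theorem exists_am_of [Finite G] (M : HM) (T : St z Q a Γ g) (I : HI g) :
    ∃ Γ' Λ g' h, Am2 z Q a Γ' Λ g' h := by
  obtain ⟨φ, b, hb, h, e⟩ := K.adjust T.gr M I
  interval_cases b
  · obtain ⟨Λ, A⟩ := K.am_of M T h fun l h1 h2 => by rw [e l h1 h2, zero_mul, K.vv_zero, one_mul]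
    exact ⟨_, _, _, _, A⟩
  · obtain ⟨Γ', T'⟩ := K.twist T
    obtain ⟨Λ, A⟩ := K.am_of (φ := φ) M T' (fun m v hv => by simpa only [K.vv_tw] using h m v hv)
      fun l h1 h2 => by
        rw [e l h1 h2, one_mul, K.eps, K.tw]
        split_ifs
        · rw [show vv g 1 = g 1 from H6.evL_singleton g 1, T.gr.fr 1 (by norm_num)]; rfl
        · rw [K.vv_zero, one_mul]
    exact ⟨_, _, _, _, A⟩

end Cfsg.J4R
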