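import Cfsg.Agent.J4R.H1
import Cfsg.Agent.J4R.H3
import Cfsg.Agent.J4R.K3

/-! The amalgam of the centraliser and the normaliser of the group of order `2 ^ 11`. -/

set_option autoImplicit false

namespace Cfsg.J4R

variable {G : Type*} [Group G] [Finite G] {z : G} {Q : Subgroup G} {a g : ℕ → G}
  {Γ : Subgroup (G × Spor.J4)}

theorem exists_am2 (T : St z Q a Γ g) : ∃ Γ' Λ g' h, Am2 z Q a Γ' Λ g' h :=
  exists_am_of hm T (T.hi hm)

end Cfsg.J4R
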