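import Cfsg.Agent.J4R.H0

/-! The facts on the model, from a short list of relations. -/

set_option autoImplicit false
set_option maxRecDepth 100000

namespace Cfsg.J4R.HA

open Subgroup Cfsg.H6 Cfsg.H4.Golay

theorem prod_xor {G : Type*} [Group G] {f : ℕ → G} (n : ℕ) (h1 : ∀ i < n, f i * f i = 1)
    (h2 : ∀ i < n, ∀ j < n, Commute (f i) (f j)) (x y : ℕ) :
    (((List.range n).filter (x ^^^ y).testBit).map f).prod =
      (((List.range n).filter x.testBit).map f).prod *
        (((List.range n).filter y.testBit).map f).prod := by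
  induction n with
  | zero => simp
  | succ n ih =>
    have c : Commute (f n) (((List.range n).filter y.testBit).map f).prod :=
      Commute.list_prod_right _ _ fun a ha => by
        obtain ⟨i, hi, rfl⟩ := List.mem_map.mp ha
        exact h2 n (by omega) i (by have := List.mem_range.mp (List.mem_filter.mp hi).1; omega)
    simp only [List.range_succ, List.filter_append, List.map_append, List.prod_append,
      ih (fun i hi => h1 i (by omega)) fun i hi j hj => h2 i (by omega) j (by omega),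
      List.filter_singleton, Nat.testBit_xor]
    cases x.testBit n <;> cases y.testBit n <;> simp [mul_assoc, c.eq]
    rw [← mul_assoc, c.eq, mul_assoc, h1 n (by omega), mul_one]

theorem xor_ind {P : ℕ → Prop} (h0 : P 0) (hx : ∀ a b, P a → P b → P (a ^^^ b)) (n : ℕ)
    (h : ∀ j < n, P (2 ^ j)) : ∀ x < 2 ^ n, P x := by
  induction n with
  | zero =>
    intro x hx
    obtain rfl : x = 0 := by omega
    exact h0
  | succ n ih =>
    intro x hx'
    have b : ∀ i, n < i → x.testBit i = false := fun i hi =>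
      Nat.testBit_lt_two_pow (hx'.trans_le (Nat.pow_le_pow_right two_pos hi))
    have ih := ih fun j hj => h j (by omega)
    cases e : x.testBit n with
    | false =>
      exact ih x (Nat.lt_pow_two_of_testBit x fun i hi => hi.eq_or_lt.elim (· ▸ e) (b i))
    | true =>
      have := hx _ _ (ih (x ^^^ 2 ^ n) (Nat.lt_pow_two_of_testBit _ fun i hi => by
        rw [Nat.testBit_xor, Nat.testBit_two_pow]
        rcases hi.eq_or_lt with rfl | hi
        · simp [e]
        · simp [b i hi, hi.ne])) (h n (by omega))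
      rwa [Nat.xor_assoc, Nat.xor_self, Nat.xor_zero] at this

theorem psi_ev (w : List ℕ) : psi (evL J4.N.ev w) = evL (evS M24.ev M24.sg) w := by
  rw [map_evL, funext hpsi]

theorem pinj : Function.Injective psi := by
  have := J4.N.finite
  have h2 : gen M24.ev M24.Ws ≤ psi.range := by
    rw [show M24.Ws = M24.Ws.map (subst M24.sg) by decide +kernel, ← gen_evS]
    exact gen_le fun w _ => ⟨evL J4.N.ev w, psi_ev w⟩
  have h3 := (Nat.le_of_dvd Nat.card_pos M24.dv).trans (Subgroup.card_le_of_le h2)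
  have h5 := (UB.range psi J4.N.card).2
  exact injective_of_card_range psi (by rw [J4.N.card]; omega)

/-- The letters of the stabiliser of the sextet. -/
def mv (l : ℕ) : J4.N.Grp := if 8 ≤ l ∧ l < 20 then ml l else 1

/-- Their action on the points. -/
noncomputable def tab (l p : ℕ) : ℕ := if 8 ≤ l then trF M24.img (WD l) p else p

theorem wd_ok : ∀ l < 26, (8 ≤ l ∧ l < 20 ∨ l = 25) →
    inR 15 (WD l) = true ∧ subst M24.sg (WD l) = WD l ∧ subst sgN (WD l) = WD l := by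
  decide +kernel

theorem lab : Lab psi mv pt tab 24 20 := by
  refine ⟨fun l _ h2 p hp => ?_, M24.lab.inj⟩
  unfold mv tab
  by_cases h : 8 ≤ l
  · have := wd_ok l (by omega) (Or.inl ⟨h, h2⟩)
    rw [if_pos ⟨h, h2⟩, if_pos h, ml, psi_ev, evL_subst, this.2.1]
    exact M24.lab.tr this.1 hp
  · rw [if_neg fun k => h k.1, if_neg h]
    exact ⟨by simp, hp⟩

theorem d0 : dvChk tab 24 20 1 [[8, 15, 14, 19, 13, 16, 15]] [] [1, 12] [256] = true := by
  decide +kernel

theorem d1 : dvChk tab 24 20 4 [[12, 17, 12], [14, 13, 19]] [[8, 15, 14, 19, 13, 16, 15]] [4, 7, 8, 9, 10, 16, 17, 18, 19] [1024, 1025, 4865, 4866, 4096, 4097, 2306, 4353] = true := by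
  decide +kernel

theorem d2 : dvChk tab 24 20 3 [[8, 10, 13], [8, 11, 18]] [[12, 17, 12], [14, 13, 19], [8, 15, 14, 19, 13, 16, 15]] [3, 4, 7, 8, 9, 10, 11, 14, 16, 17, 18, 19, 20, 21, 22, 23] [768, 769, 5633, 5634, 5635, 1026, 1027, 5122, 5377, 4864, 4867, 4868, 2820, 1796, 2308] = true := by
  decide +kernel

theorem d3 : dvChk tab 24 20 2 [[16]] [[8, 10, 13], [8, 11, 18], [12, 17, 12], [14, 13, 19], [8, 15, 14, 19, 13, 16, 15]] [2, 3, 4, 5, 6, 7, 8, 9, 10, 11, 13, 14, 16, 17, 18, 19, 20, 21, 22, 23] [512, 2305, 2307, 2308, 2309, 2816, 2819, 2821, 4609, 4610, 4612, 1792, 1793, 1797, 2052, 5122, 4098, 1026, 1538] = true := by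
  decide +kernel

theorem d4 : dvChk tab 24 20 0 [[8], [14]] [[16], [8, 10, 13], [8, 11, 18], [12, 17, 12], [14, 13, 19], [8, 15, 14, 19, 13, 16, 15]] [0, 1, 2, 3, 4, 5, 6, 7, 8, 9, 10, 11, 12, 13, 14, 15, 16, 17, 18, 19, 20, 21, 22, 23] [0, 1, 3841, 3845, 3591, 2053, 2054, 2055, 3072, 2818, 2821, 2567, 4359, 2306, 2309, 1286, 5120, 5123, 5124, 4866, 4612, 4100, 1028] = true := by
  decide +kernel

theorem dv : 1024 ∣ Nat.card (gen mv [[8], [14], [16], [8, 10, 13], [8, 11, 18], [12, 17, 12], [14, 13, 19], [8, 15, 14, 19, 13, 16, 15]]) :=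
  Dvd.dvd.trans (by decide +kernel) (lab.dvd d4 (lab.dvd d3 (lab.dvd d2 (lab.dvd d1 (lab.dvd d0 (one_dvd _))))))

theorem odd : ¬ 2 ∣ Sb.index := fun h => by
  have h1 : 1024 ∣ Nat.card Sb := dv.trans (card_dvd_of_le (gen_le fun w _ =>
    evL_mem_of_letters fun l _ => by
      unfold mv; split_ifs with k
      exacts [subset_closure ⟨l, k.1, k.2, rfl⟩, one_mem _]))
  have h2 := mul_dvd_mul h1 h
  rw [card_mul_index, J4.N.card] at h2
  exact absurd h2 (by norm_num)

theorem th_ml (l : ℕ) (h : 8 ≤ l ∧ l < 20 ∨ l = 25) : th (ml l) = e0 l := by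
  rw [ml, map_evL, funext hth, evL_subst, (wd_ok l (by omega) h).2.2, e0]

theorem fp_lt : ∀ i < 24, ∀ j < 24, fp i ^^^ fp j < 2048 := by decide +kernel

theorem fp_pt : ∀ p < 24, ∀ i < 24, (∃ j < 24, fp i ^^^ fp j = fp p ^^^ fp ((p + 1) % 24)) →
    (∃ j < 24, fp i ^^^ fp j = fp p ^^^ fp ((p + 2) % 24)) → i = p := by decide +kernel

/-- The action of a word on the codes. -/
noncomputable def acw (w : List ℕ) (x : ℕ) : ℕ := trF ac w.reverse x

theorem acw_cons (l : ℕ) (w : List ℕ) (x : ℕ) : acw (l :: w) x = ac l (acw w x) := by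
  rw [acw, acw, trF_eq, trF_eq, List.reverse_cons, tr_append]; rfl

theorem gx : ∀ i < 24, ∀ j < 24, acw [13, 8, 25, 17, 16, 9, 18, 17]
    (fp (M24.img 1 i) ^^^ fp (M24.img 1 j)) = fp i ^^^ fp j := by decide +kernel

theorem gy : ∀ i < 24, ∀ j < 24, acw [13, 17, 18, 15, 25, 15, 18, 13]
    (fp (M24.img 2 i) ^^^ fp (M24.img 2 j)) = fp i ^^^ fp j := by decide +kernel

theorem ac_lt : ∀ l < 26, ∀ j < 11, ac l (2 ^ j) < 2048 := by decide +kernel

theorem hm_of (sq : ∀ l, e0 l * e0 l = 1)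
    (cm : ∀ i < 11, ∀ j < 11, Commute (e0 (VL.getD i 0)) (e0 (VL.getD j 0)))
    (ne : ∀ x < 2048, vv e0 x = 1 → x = 0)
    (act : ∀ l < 26, l ≠ 24 → ∀ j < 11, e0 l * vv e0 (2 ^ j) * (e0 l)⁻¹ = vv e0 (ac l (2 ^ j)))
    (hx : evL e0 [13, 8, 25, 17, 16, 9, 18, 17] = J4.ev 1)
    (hy : evL e0 [13, 17, 18, 15, 25, 15, 18, 13] = J4.ev 2) : HM := by
  have xo : ∀ x y, vv e0 (x ^^^ y) = vv e0 x * vv e0 y := fun x y => by
    simp only [vv, vw, evL, List.map_map]
    exact prod_xor 11 (fun i _ => sq _) cm x y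
  have eq : ∀ x < 2048, ∀ y < 2048, vv e0 x = vv e0 y → x = y := fun x hx y hy e =>
    Nat.eq_of_xor_eq_zero (ne _ (xor_lt' hx hy) (by rw [xo, e, ← xo, Nat.xor_self]; rfl))
  have ac1 : ∀ l < 26, l ≠ 24 → ∀ x < 2048,
      ac l x < 2048 ∧ e0 l * vv e0 x * (e0 l)⁻¹ = vv e0 (ac l x) := fun l h1 h2 => by
    have z : ac l 0 = 0 := by simpa using ac_xor l 0 0
    refine xor_ind (P := fun x => ac l x < 2048 ∧ e0 l * vv e0 x * (e0 l)⁻¹ = vv e0 (ac l x))
      ⟨by rw [z]; norm_num, by rw [z]; simp [show vv e0 0 = 1 from rfl]⟩ (fun a b ha hb => ?_) 11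
      fun j hj => ⟨ac_lt l h1 j hj, act l h1 h2 j hj⟩
    rw [ac_xor, xo, xo, ← ha.2, ← hb.2]
    exact ⟨xor_lt' ha.1 hb.1, by group⟩
  have acw1 : ∀ w : List ℕ, (∀ l ∈ w, l < 26 ∧ l ≠ 24) → ∀ x < 2048,
      acw w x < 2048 ∧ evL e0 w * vv e0 x * (evL e0 w)⁻¹ = vv e0 (acw w x) := fun w hw x hx => by
    induction w with
    | nil => exact ⟨hx, by simp [evL_nil, show acw [] x = x from rfl]⟩
    | cons l w ih =>
      obtain ⟨i1, i2⟩ := ih fun k hk => hw k (List.mem_cons_of_mem _ hk)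
      obtain ⟨h1, h2⟩ := hw l List.mem_cons_self
      rw [acw_cons, evL_cons, ← (ac1 l h1 h2 _ i1).2, ← i2]
      exact ⟨(ac1 l h1 h2 _ i1).1, by group⟩
  have dl : ∀ p q, du p q < 2048 := fun p q => fp_lt _ (idx_lt p) _ (idx_lt q)
  let K : Subgroup J4.N.Grp :=
    { carrier := {m | ∀ p q, th m * vv e0 (du p q) * (th m)⁻¹ = vv e0 (du (psi m p) (psi m q))}
      one_mem' := fun p q => by simp
      mul_mem' := fun {a b} ha hb p q => by
        rw [map_mul psi, Equiv.Perm.mul_apply, Equiv.Perm.mul_apply, ← ha, ← hb, map_mul]; group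
      inv_mem' := fun {a} ha p q => by
        have := ha (psi a⁻¹ p) (psi a⁻¹ q)
        rw [← Equiv.Perm.mul_apply, ← Equiv.Perm.mul_apply, ← map_mul, mul_inv_cancel, map_one,
          Equiv.Perm.one_apply, Equiv.Perm.one_apply] at this
        rw [← this, map_inv th]; group }
  have gn : ∀ (k : ℕ) (w : List ℕ), k = 1 ∨ k = 2 → evL e0 w = J4.ev k →
      (∀ l ∈ w, l < 26 ∧ l ≠ 24) → (∀ i < 24, ∀ j < 24,
        acw w (fp (M24.img k i) ^^^ fp (M24.img k j)) = fp i ^^^ fp j) → J4.N.ev k ∈ K := by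
    intro k w hk e hw hc p q
    have e1 : th (J4.N.ev k) = evL e0 w := by
      rw [hth, e]; rcases hk with rfl | rfl <;> exact evL_singleton _ _
    have e2 : psi (J4.N.ev k) = M24.ev k := by
      rw [hpsi]; rcases hk with rfl | rfl <;> exact evL_singleton _ _
    have e3 : ∀ p, idx p = M24.img k (idx (M24.ev k p)) := fun p => by
      have := M24.lab.act k (by omega) (by omega) _ (idx_lt (M24.ev k p))
      rw [pt_idx] at this
      rw [← idx_pt _ this.2, ← this.1]
      simp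
    rw [e1, e2, (acw1 w hw _ (dl p q)).2, du, e3 p, e3 q, hc _ (idx_lt _) _ (idx_lt _)]
    rfl
  have dua : ∀ m, m ∈ K := fun m => (J4.N.hX2.ge.trans (gen_le fun w hw => by
    simp only [List.mem_cons, List.not_mem_nil, or_false] at hw
    rcases hw with rfl | rfl <;> rw [evL_singleton]
    exacts [gn 1 _ (Or.inl rfl) hx (by decide) gx, gn 2 _ (Or.inr rfl) hy (by decide) gy]))
    (mem_top m)
  refine ⟨fun x _ y _ => xo x y, ne, ac1, th_ml, dl, dua, pinj, odd, fun m x _ e => pinj ?_⟩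
  rw [map_one]
  ext1 p
  have k : ∀ q, du (psi m p) (psi m q) = du p q := fun q => eq _ (dl _ _) _ (dl _ _) (by
    rw [← dua m p q, e, ← xo, Nat.xor_comm, xo, mul_inv_cancel_right])
  have := fp_pt _ (idx_lt p) _ (idx_lt (psi m p))
    ⟨_, idx_lt _, (k (pt ((idx p + 1) % 24))).trans (by rw [du, idx_pt _ (Nat.mod_lt _ (by norm_num))])⟩
    ⟨_, idx_lt _, (k (pt ((idx p + 2) % 24))).trans (by rw [du, idx_pt _ (Nat.mod_lt _ (by norm_num))])⟩
  rw [← pt_idx (psi m p), this, pt_idx]; rfl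

end Cfsg.J4R.HA
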