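import Mathlib

/-! A complement to an elementary abelian normal `2`-subgroup in a subgroup of odd index gives a
complement in the whole group. -/

namespace Cfsg.J4R

open Subgroup

theorem gasch {N : Type*} [Group N] [Finite N] {V S X : Subgroup N} [V.Normal]
    (h2 : ∀ v ∈ V, v * v = 1) (VS : V ≤ S) (hX : X ≤ S) (h1 : ∀ x ∈ X, x ∈ V → x = 1)
    (h3 : ∀ s ∈ S, ∃ x ∈ X, s * x⁻¹ ∈ V) (odd : Odd S.index) :
    ∃ Y : Subgroup N, (∀ y ∈ Y, y ∈ V → y = 1) ∧ ∀ g, ∃ y ∈ Y, g * y⁻¹ ∈ V := by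
  classical
  have hi : ∀ v ∈ V, v⁻¹ = v := fun v hv => inv_eq_of_mul_eq_one_right (h2 v hv)
  have hc : ∀ a ∈ V, ∀ b ∈ V, a * b = b * a := fun a ha b hb => by
    rw [← hi _ (mul_mem ha hb), mul_inv_rev, hi a ha, hi b hb]
  let _ : CommGroup V := { (inferInstance : Group V) with
    mul_comm := fun a b => Subtype.ext (hc _ a.2 _ b.2) }
  have _ := Fintype.ofFinite (N ⧸ S)
  choose! x x1 x2 using h3
  let c : N →* MulAut V := MulAut.conjNormal
  have cV : ∀ v ∈ V, ∀ w : V, c v w = w := fun v hv w => Subtype.ext (by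
    show v * w * v⁻¹ = w
    rw [hc v hv w w.2, mul_inv_cancel_right])
  let f : N → V := fun s => if h : s ∈ S then ⟨s * (x s)⁻¹, x2 s h⟩ else 1
  have f0 : ∀ s ∈ S, (f s : N) = s * (x s)⁻¹ := fun s hs => by simp [f, hs]
  have xu : ∀ s ∈ S, ∀ y ∈ X, s * y⁻¹ ∈ V → x s = y := fun s hs y hy h => by
    have := h1 (x s * y⁻¹) (mul_mem (x1 s hs) (inv_mem hy))
      (by simpa [mul_assoc] using mul_mem (inv_mem (x2 s hs)) h)
    exact mul_inv_eq_one.mp this
  have f1 : ∀ s ∈ S, ∀ t ∈ S, f (s * t) = f s * c s (f t) := fun s hs t ht => Subtype.ext (by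
    have e : s * t * (x s * x t)⁻¹ = s * (t * (x t)⁻¹) * s⁻¹ * (s * (x s)⁻¹) := by group
    have m := Normal.conj_mem ‹_› _ (x2 t ht) s
    show (f (s * t) : N) = f s * (s * f t * s⁻¹)
    rw [f0 _ (mul_mem hs ht), f0 s hs, f0 t ht, xu _ (mul_mem hs ht) _ (mul_mem (x1 s hs) (x1 t ht))
      (e ▸ mul_mem m (x2 s hs)), e, hc _ m _ (x2 s hs)])
  have f2 : ∀ v : V, f v = v := fun v => Subtype.ext (by
    rw [f0 _ (VS v.2), xu _ (VS v.2) 1 (one_mem _) (by simp), inv_one, mul_one])
  have m : ∀ (g : N) (q : N ⧸ S), (g • q).out⁻¹ * g * q.out ∈ S := fun g q => by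
    rw [mul_assoc, ← QuotientGroup.eq, QuotientGroup.out_eq']
    exact (MulAction.Quotient.mk_smul_out S g q).symm
  let F : N → V := fun g => ∏ q : N ⧸ S, c (g • q).out (f ((g • q).out⁻¹ * g * q.out))
  have F1 : ∀ g h, F (g * h) = F g * c g (F h) := fun g h => by
    have e := Equiv.prod_comp (MulAction.toPerm h)
      fun q : N ⧸ S => c (g • q).out (f ((g • q).out⁻¹ * g * q.out))
    simp only [F, map_prod]
    rw [← e, ← Finset.prod_mul_distrib]
    refine Finset.prod_congr rfl fun q _ => ?_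
    simp only [MulAction.toPerm_apply, mul_smul]
    rw [show (g • h • q).out⁻¹ * (g * h) * q.out = ((g • h • q).out⁻¹ * g * (h • q).out) *
      ((h • q).out⁻¹ * h * q.out) by group, f1 _ (m g _) _ (m h q), map_mul, ← MulAut.mul_apply,
      ← map_mul, ← MulAut.mul_apply, ← map_mul,
      show (g • h • q).out * ((g • h • q).out⁻¹ * g * (h • q).out) = g * (h • q).out by group]
  have F2 : ∀ v : V, F v = v := fun v => by
    have e : ∀ q : N ⧸ S, (v : N) • q = q := fun q => by
      rw [← MulAction.Quotient.mk_smul_out, eq_comm, ← QuotientGroup.out_eq' q, QuotientGroup.eq,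
        QuotientGroup.out_eq', smul_eq_mul, ← mul_assoc]
      exact VS (Normal.conj_mem' ‹_› _ v.2 _)
    have e2 : ∀ q : N ⧸ S, c q.out (f (q.out⁻¹ * v * q.out)) = v := fun q => by
      rw [f2 ⟨_, Normal.conj_mem' ‹_› _ v.2 q.out⟩]
      exact Subtype.ext (show q.out * (q.out⁻¹ * v * q.out) * q.out⁻¹ = v by group)
    simp only [F, e, e2, Finset.prod_const, Finset.card_univ]
    obtain ⟨k, hk⟩ := odd
    rw [← Nat.card_eq_fintype_card, ← index_eq_card, hk, pow_succ, pow_mul, pow_two,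
      show v * v = 1 from Subtype.ext (h2 v v.2), one_pow, one_mul]
  have F0 : F 1 = 1 := F2 1
  refine ⟨{ carrier := {g | F g = 1}
            one_mem' := F0
            mul_mem' := fun {a b} ha hb => by
              show F _ = 1
              rw [F1, ha, hb, map_one, one_mul]
            inv_mem' := fun {a} ha => by
              have := F1 a⁻¹ a
              rw [inv_mul_cancel, F0, ha, map_one, mul_one] at this
              exact this.symm }, fun y hy hv => ?_, fun g => ⟨((F g)⁻¹ : V) * g, ?_, by simp⟩⟩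
  · exact congrArg Subtype.val ((F2 ⟨y, hv⟩).symm.trans hy)
  · show F _ = 1
    rw [F1, F2, cV _ (F g)⁻¹.2, inv_mul_cancel]

end Cfsg.J4R
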