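import Cfsg.Agent.J4R.M1
import Cfsg.Agent.J4R.D1

/-! Rewriting of words in the amalgam. -/

set_option autoImplicit false
set_option maxRecDepth 100000

namespace Cfsg.J4R.J

open Subgroup Cfsg.H6

variable {G : Type*} [Group G] {f : ℕ → G}

def frs (l : ℕ) : List ℕ → List ℕ
  | [] => [l]
  | m :: r => if l = m then r else l :: m :: r

/-- cancellation of equal neighbours -/
def fr (w : List ℕ) : List ℕ := w.foldr frs []

theorem evL_fr (sq : ∀ l, f l * f l = 1) (w : List ℕ) : evL f (fr w) = evL f w := by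
  induction w with
  | nil => rfl
  | cons l w ih =>
    rw [evL_cons, ← ih]
    change evL f (frs l (fr w)) = _
    cases fr w with
    | nil => rfl
    | cons m r =>
      rw [frs]
      split_ifs with e
      · rw [evL_cons, e, ← mul_assoc, sq, one_mul]
      · rw [evL_cons]

theorem pair {K : Subgroup (G × Spor.J4)} {w : List ℕ} (h : ∀ l ∈ w, (f l, e0 l) ∈ K) :
    (evL f w, evL e0 w) ∈ K := by
  induction w with
  | nil => exact one_mem K
  | cons l w ih =>
    rw [evL_cons, evL_cons]
    exact mul_mem (h l List.mem_cons_self) (ih fun m hm => h m (List.mem_cons_of_mem _ hm))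

theorem eq_of_pair {K : Subgroup (G × Spor.J4)} (hK : ∀ x, (x, 1) ∈ K → x = 1) {x y : G}
    {c : Spor.J4} (hx : (x, c) ∈ K) (hy : (y, c) ∈ K) : x = y :=
  mul_inv_eq_one.1 (hK _ (by simpa using mul_mem hx (inv_mem hy)))

/-- relations of the model without the letter `25`, or without the letter `24`, hold -/
structure Eng (f : ℕ → G) : Prop where
  c : ∀ u v, 25 ∉ u → 25 ∉ v → evL e0 u = evL e0 v → evL f u = evL f v
  h : ∀ u v, 24 ∉ u → 24 ∉ v → evL e0 u = evL e0 v → evL f u = evL f v

theorem Eng.sq (E : Eng f) (l : ℕ) : f l * f l = 1 := by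
  have k : evL e0 [l, l] = evL e0 [] := by
    rw [evL_cons, evL_singleton, sq_e0, evL_nil]
  have : evL f [l, l] = evL f [] := by
    by_cases e : l = 25
    · exact E.h _ _ (by simp [e]) (by simp) k
    · exact E.c _ _ (by simpa using fun q => e q.symm) (by simp) k
  rwa [evL_cons, evL_singleton, evL_nil] at this

abbrev Tri : Type := List ℕ × List ℕ × ℕ

noncomputable def okT (X : List (List ℕ × List ℕ)) (s : Tri) : Bool :=
  if s.2.2 = 0 then s.1 == s.2.1
  else if s.2.2 = 1 then !s.1.elem 25 && !s.2.1.elem 25 && eqw s.1 s.2.1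
  else if s.2.2 = 2 then !s.1.elem 24 && !s.2.1.elem 24 && eqw s.1 s.2.1
  else X.elem (s.1, s.2.1)

noncomputable def run (X : List (List ℕ × List ℕ)) : List ℕ → List (List Tri) → List ℕ → Bool
  | w, [], v => fr w == fr v
  | w, s :: r, v => fr w == fr (s.flatMap (·.1)) && s.all (okT X) && run X (s.flatMap (·.2.1)) r v

theorem okT_spec (E : Eng f) {X : List (List ℕ × List ℕ)} (hX : ∀ p ∈ X, evL f p.1 = evL f p.2)
    {s : Tri} (h : okT X s = true) : evL f s.1 = evL f s.2.1 := by
  unfold okT at h
  split_ifs at h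
  · rw [beq_iff_eq.1 h]
  · simp only [Bool.and_eq_true, Bool.not_eq_true', List.elem_eq_mem, decide_eq_false_iff_not] at h
    exact E.c _ _ h.1.1 h.1.2 (eqw_spec h.2)
  · simp only [Bool.and_eq_true, Bool.not_eq_true', List.elem_eq_mem, decide_eq_false_iff_not] at h
    exact E.h _ _ h.1.1 h.1.2 (eqw_spec h.2)
  · exact hX _ (List.mem_of_elem_eq_true h)

theorem run_spec (E : Eng f) {X : List (List ℕ × List ℕ)} (hX : ∀ p ∈ X, evL f p.1 = evL f p.2) :
    ∀ (S : List (List Tri)) (w v : List ℕ), run X w S v = true → evL f w = evL f v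
  | [], w, v, h => by
    rw [← evL_fr E.sq w, beq_iff_eq.1 h, evL_fr E.sq]
  | s :: r, w, v, h => by
    rw [run, Bool.and_eq_true, Bool.and_eq_true, List.all_eq_true] at h
    rw [← run_spec E hX r _ v h.2, ← evL_fr E.sq w, beq_iff_eq.1 h.1.1, evL_fr E.sq]
    have k := h.1.2
    clear h
    induction s with
    | nil => rfl
    | cons t s ih =>
      rw [List.flatMap_cons, List.flatMap_cons, evL_append, evL_append,
        okT_spec E hX (k t List.mem_cons_self), ih fun x hx => k x (List.mem_cons_of_mem _ hx)]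

/-- an element centralizing the centraliser of `a 0` in `Q` -/
theorem four [Finite G] {z : G} {Q : Subgroup G} {a : ℕ → G} (E : ES z Q) (F : Fr z Q false a)
    {y : G} (hz : y * z = z * y) (h : ∀ i < 12, i ≠ 6 → y * a i * y⁻¹ = a i) :
    y = 1 ∨ y = z ∨ y = a 0 ∨ y = z * a 0 := by
  have sq : ∀ i < 12, a i * a i = 1 := fun i hi => by simpa using F.sq i hi
  have m6 := F.mem 6 (by norm_num)
  have hq := E.nrm y hz _ m6
  have c6 : co a (a 6) = 2 ^ 6 := co_a E F (by norm_num)
  have b : ∀ i < 12, i ≠ 0 → ((co a (y * a 6 * y⁻¹)).testBit i = true ↔ (2 ^ 6).testBit i = true) :=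
    fun i hi h0 => by
      have p6 : pr i ≠ 6 := by unfold pr; omega
      rw [← c6, co_bit a _ hi, co_bit a _ hi, not_iff_not]
      nth_rewrite 1 2 [← h _ (pr_lt i) p6]
      rw [conj_mul, conj_mul, mul_left_inj, mul_right_inj]
  have e : co a (y * a 6 * y⁻¹) = co a (a 6) := by
    have s := sq_co E F hq
    rw [conj_mul, sq 6 (by norm_num), mul_one, mul_inv_cancel] at s
    rw [c6]
    by_cases b0 : (co a (y * a 6 * y⁻¹)).testBit 0 = true
    · have : co a (y * a 6 * y⁻¹) = 65 := eq_of_bits (co_lt _ _) (by norm_num) fun i hi => by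
        by_cases h0 : i = 0
        · rw [h0, b0]; decide
        · rw [b i hi h0]; revert i; decide
      rw [this, if_pos (by decide +kernel)] at s
      exact absurd s.symm E.z1
    · exact eq_of_bits (co_lt _ _) (by norm_num) fun i hi => by
        by_cases h0 : i = 0
        · rw [h0]; simpa using b0
        · exact b i hi h0
  rcases eq_of_co E F hq m6 e with k | k
  · rcases cen_a E F hz (fun j hj => by
      by_cases e : j = 6
      · rw [e, k]
      · exact h j hj e) with q | q
    exacts [Or.inl q, Or.inr (Or.inl q)]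
  · have z0 := E.qz _ (F.mem 0 (by norm_num))
    have i0 : (a 0)⁻¹ = a 0 := inv_eq_of_mul_eq_one_right (sq 0 (by norm_num))
    rcases cen_a E F (c := y * a 0) (by rw [mul_assoc, z0, ← mul_assoc, hz, mul_assoc]) (fun j hj => by
      have c := F.cm j hj 0 (by norm_num)
      have : y * a 0 * a j * (y * a 0)⁻¹ = y * (a 0 * a j * (a 0)⁻¹) * y⁻¹ := by group
      rw [this, c]
      by_cases e : j = 6
      · subst e
        rw [if_pos (by decide), mul_assoc z, mul_inv_cancel_right, ← mul_assoc, hz, mul_assoc z,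
          mul_assoc z, k, E.zzm]
      · rw [if_neg (by unfold pr; omega), mul_inv_cancel_right, h j hj e]) with q | q
    · exact Or.inr (Or.inr (Or.inl (by rw [eq_inv_of_mul_eq_one_left q, i0])))
    · exact Or.inr (Or.inr (Or.inr (by rw [← q, mul_assoc, sq 0 (by norm_num), mul_one])))

end Cfsg.J4R.J
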