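import Cfsg.Agent.J4R.JC

/-! The homomorphism from the presented group. -/

set_option autoImplicit false
set_option maxRecDepth 100000

namespace Cfsg.J4R

open Subgroup Cfsg.H6

variable {G : Type*} [Group G] {z h : G} {Q : Subgroup G} {a g f : ℕ → G}
  {Γ Λ : Subgroup (G × Spor.J4)}

namespace J

/-- all letters -/
def gg (g : ℕ → G) (h : G) (l : ℕ) : G := if l < 25 then g l else if l = 25 then h else 1

theorem gg_lt {l : ℕ} (e : l < 25) : gg g h l = g l := if_pos e

theorem gg_big {l : ℕ} (e : 26 ≤ l) : gg g h l = 1 := by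
  rw [gg, if_neg (by omega), if_neg (by omega)]

theorem memG (A : Am2 z Q a Γ Λ g h) {l : ℕ} (e : l ≠ 25) : (gg g h l, e0 l) ∈ Γ := by
  by_cases q : l < 25
  · rw [gg_lt q]; exact A.st.gr.mem l q
  · rw [gg_big (by omega), e0_big (by omega)]; exact one_mem Γ

theorem memL (A : Am2 z Q a Γ Λ g h) {l : ℕ} (e : l ≠ 24) : (gg g h l, e0 l) ∈ Λ := by
  by_cases q : l < 25
  · rw [gg_lt q]; exact A.mem l (by omega)
  by_cases q' : l = 25
  · subst q'; exact A.m25
  · rw [gg_big (by omega), e0_big (by omega)]; exact one_mem Λ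

theorem eng (A : Am2 z Q a Γ Λ g h) : Eng (gg g h) where
  c u v hu hv e := eq_of_pair A.st.gr.fst (pair fun l hl => memG A fun q => hu (q ▸ hl))
    (e ▸ pair fun l hl => memG A fun q => hv (q ▸ hl))
  h u v hu hv e := eq_of_pair A.fst (pair fun l hl => memL A fun q => hu (q ▸ hl))
    (e ▸ pair fun l hl => memL A fun q => hv (q ▸ hl))

theorem nil_ok : ∀ p ∈ ([] : List (List ℕ × List ℕ)), evL f p.1 = evL f p.2 := by simp

theorem com [Finite G] (E : Eng f) (S : ES z Q) (F : Fr z Q false a) (h1 : f 1 = z)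
    (h2 : ∀ i < 12, f (2 + i) = a i) : ∀ p ∈ X0, evL f p.1 = evL f p.2 := by
  have iv : ∀ l, (f l)⁻¹ = f l := fun l => inv_eq_of_mul_eq_one_right (E.sq l)
  have k : ∀ {b : ℕ} {S : List (List Tri)}, run [] [24, 25, 24, 25, b, 25, 24, 25, 24] S [b] = true →
      evL f [24, 25, 24, 25] * f b * (evL f [24, 25, 24, 25])⁻¹ = f b := fun e => by
    have := run_spec E nil_ok _ _ _ e
    simp only [evL_cons, evL_nil, mul_one, mul_inv_rev, iv, mul_assoc] at this ⊢
    exact this
  have e : ∀ ζ : List ℕ, evL f [24, 25, 24, 25] = evL f ζ → ∀ S : List (List Tri),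
      run [([25, 24, 25], 24 :: ζ)] od S (ζ ++ oc) = true → evL f [24, 25, 24, 25] = 1 := by
    intro ζ e S r
    have := run_spec E (by
      intro p hp
      rw [List.mem_singleton.1 hp, evL_cons f 24 ζ, ← e, evL_cons f 24, ← mul_assoc, E.sq, one_mul])
      _ _ _ r
    rw [run_spec E nil_ok _ _ _ o0, evL_append, eq_comm, mul_eq_right] at this
    rw [e, this]
  have y1 : evL f [24, 25, 24, 25] = 1 := by
    rcases four S F (y := evL f [24, 25, 24, 25]) (mul_inv_eq_iff_eq_mul.1 (h1 ▸ k b1))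
      (fun i hi h6 => by
        rw [← h2 i hi]
        interval_cases i
        exacts [k b2, k b3, k b4, k b5, k b6, k b7, absurd rfl h6, k b9, k b10, k b11, k b12,
          k b13]) with q | q | q | q
    · exact q
    · exact e [1] (by rw [q, evL_singleton, h1]) _ o1
    · exact e [2] (by rw [q, evL_singleton, ← h2 0 (by norm_num)]) _ o2
    · exact e [1, 2] (by rw [q, evL_cons, evL_singleton, h1, ← h2 0 (by norm_num)]) _ o12
  intro p hp
  rw [List.mem_singleton.1 hp]
  rw [evL_cons] at y1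
  rw [evL_singleton, eq_inv_of_mul_eq_one_right y1, iv]

theorem sg_ev {w : List ℕ} (hw : inR 4 w = true) :
    evL e0 (subst sg w) = evL J4.ev w ∧ 24 ∉ subst sg w := by
  have := inR_spec hw
  refine ⟨?_, fun q => ?_⟩
  · rw [← evL_subst]
    refine evL_congr fun l hl => ?_
    obtain ⟨p, q⟩ := this l hl
    interval_cases l
    · exact xw_spec
    · exact yw_spec
    · change evL e0 yw.reverse = _
      rw [e0_rev, yw_spec]
      exact (J4.hev.inv 2).symm
  · obtain ⟨l, hl, q⟩ := List.mem_flatMap.1 q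
    obtain ⟨p, r⟩ := this l hl
    interval_cases l <;> exact absurd q (by decide)

end J

open J in
theorem exists_phi [Finite G] (A : Am2 z Q a Γ Λ g h) :
    ∃ Φ : Spor.J4 →* G, (∀ l < 25, Φ (e0 l) = g l) ∧ Φ (e0 25) = h := by
  have E := eng A
  have hX := com E A.st.ch.es A.st.ch.fr
    (by rw [gg_lt (by norm_num), A.st.gr.fr 1 (by norm_num)]; rfl) fun i hi => by
      rw [gg_lt (by omega), A.st.gr.fr _ (by omega), fa, if_neg (by omega), if_pos (by omega),
        Nat.add_sub_cancel_left]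
  have pl : ∀ w : List ℕ, 24 ∉ w → (evL (gg g h) w, evL e0 w) ∈ Λ := fun w hw =>
    pair fun l hl => memL A fun q => hw (q ▸ hl)
  have pm : ∀ w, inR 4 w = true → (evL (evS (gg g h) sg) w, evL J4.ev w) ∈ Λ := fun w hw => by
    rw [evL_subst, ← (sg_ev hw).1]
    exact pl _ (sg_ev hw).2
  have good : Good (evS (gg g h) sg) 17213620480 := good_of_rels (m := 5) rfl
    (fun l hl => by rw [evS, List.getD_eq_default _ _ hl]; rfl) (by norm_num) (by
      intro r hr
      rw [evL_subst]
      by_cases e : r = [1, 1]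
      · rw [e, ← evL_subst]
        exact A.fst _ (J4.hR [1, 1] (by decide +kernel) ▸ pm [1, 1] (by decide))
      · revert r
        suffices ∀ r ∈ (List.range 5).map fun l => [invL 17213620480 l, l], r ≠ [1, 1] →
            run [] (subst sg r) [] [] = true from
          fun r hr e => run_spec E nil_ok _ _ _ (this r hr e)
        decide +kernel)
  have rels : Rels (evS (gg g h) sg) J4.R := by
    intro r hr
    have : ∀ r ∈ J4.R, inR 4 r = true ∨ r = [4, 4] ∨ r = J4.R.getD 8 [] ∨ r = J4.R.getD 9 [] ∨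
      r = J4.R.getD 10 [] ∨ r = J4.R.getD 11 [] := by decide +kernel
    rcases this r hr with q | q | q | q | q | q
    · exact A.fst _ (J4.hR r hr ▸ pm r q)
    · rw [q, evL_subst]; exact run_spec E nil_ok [] _ [] (by decide +kernel)
    · rw [q, evL_subst]; exact run_spec E hX _ _ _ r8
    · rw [q, evL_subst]; exact run_spec E hX _ _ _ r9
    · rw [q, evL_subst]; exact run_spec E hX _ _ _ r10
    · rw [q, evL_subst]
      refine run_spec E (fun p hp => ?_) _ _ _ r11
      simp only [List.mem_cons, List.not_mem_nil, or_false] at hp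
      rcases hp with rfl | rfl | rfl
      exacts [run_spec E hX _ _ _ w1, run_spec E hX _ _ _ w2, run_spec E hX _ _ _ w3]
  obtain ⟨Φ, hΦ⟩ := J4.lift good rels
  have ev : ∀ l, Φ (e0 l) = evL (evS (gg g h) sg) (WD l) := fun l => by
    rw [e0, map_evL]; exact congrArg (fun k => evL k _) (funext hΦ)
  have m : ∀ l, l = 1 ∨ l = 25 ∨ (8 ≤ l ∧ l < 20) → Φ (e0 l) = gg g h l := fun l hl => by
    by_cases e : l = 1
    · have := run_spec E hX _ _ _ rz
      rw [evL_append, evL_singleton, evL_nil, ← evL_subst] at this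
      rw [e, ev, eq_inv_of_mul_eq_one_left this, inv_eq_of_mul_eq_one_right (E.sq 1)]
    · have : ∀ l < 26, l = 25 ∨ (8 ≤ l ∧ l < 20) → inR 4 (WD l) = true := by decide +kernel
      rw [ev]
      exact eq_of_pair A.fst (pm _ (this l (by omega) (by omega))) (memL A (by omega))
  have v : ∀ p ∈ VW, Φ (e0 p.1) = gg g h p.1 := fun p hp => by
    have := List.all_eq_true.1 vw p hp
    simp only [Bool.and_eq_true, List.all_eq_true, Bool.or_eq_true, beq_iff_eq, Nat.ble_eq,
      Nat.blt_eq] at this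
    have e := eqw_spec this.1
    have n : ∀ p ∈ VW, p.1 ≠ 24 := by decide
    rw [← evL_singleton e0, ← evL_singleton (gg g h), E.h [p.1] p.2 (by simpa using (n p hp).symm)
      (fun q => by have := this.2 _ q; omega) e, e, map_evL]
    exact evL_congr fun l hl => m l (by have := this.2 l hl; omega)
  refine ⟨Φ, fun l hl => ?_, m 25 (by omega)⟩
  rw [← gg_lt (g := g) (h := h) hl]
  have : ∀ l < 25, l = 0 ∨ l = 24 ∨ (l = 1 ∨ l = 25 ∨ (8 ≤ l ∧ l < 20)) ∨ ∃ p ∈ VW, p.1 = l := by
    decide
  rcases this l hl with rfl | rfl | q | ⟨p, hp, rfl⟩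
  · rw [e0_zero, map_one, gg_lt hl, A.st.gr.fr 0 (by norm_num)]; rfl
  · rw [e0_t, hΦ]; exact evL_singleton _ _
  · exact m l q
  · exact v p hp

end Cfsg.J4R
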