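import Cfsg.Agent.J4R.K1
import Cfsg.Agent.J4R.HG

/-! A complement in the normaliser of `V`, adjusted to the letters. -/

set_option autoImplicit false

namespace Cfsg.J4R.K

open Subgroup Cfsg.H6 Cfsg.H4.Golay

variable {G : Type*} [Group G] {z : G} {a g : ℕ → G} {Γ : Subgroup (G × Spor.J4)}
  {x y : G} {x0 y0 : Spor.J4} {φ : J4.N.Grp →* G}

theorem nm_one : Nm g 1 1 := fun v hv => ⟨v, hv, by simp, by simp⟩

theorem nm_mul (h : Nm g x x0) (k : Nm g y y0) : Nm g (x * y) (x0 * y0) := fun v hv => by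
  obtain ⟨u, hu, e1, e2⟩ := k v hv
  obtain ⟨w, hw, e3, e4⟩ := h u hu
  exact ⟨w, hw, by rw [← e3, ← e1]; group, by rw [← e4, ← e2]; group⟩

theorem vv_zero : vv g 0 = 1 := rfl

theorem vv_sq (K : Gr z a Γ g) (M : HM) {u : ℕ} (hu : u < 2048) : vv g u * vv g u = 1 := by
  rw [← K.xor M hu hu, Nat.xor_self, vv_zero]

theorem vv_inv (K : Gr z a Γ g) (M : HM) {u : ℕ} (hu : u < 2048) : (vv g u)⁻¹ = vv g u :=
  inv_eq_of_mul_eq_one_right (vv_sq K M hu)

theorem nm_v (K : Gr z a Γ g) (M : HM) {u : ℕ} (hu : u < 2048) : Nm g (vv g u) 1 := fun v hv =>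
  ⟨v, hv, by rw [← K.xor M hu hv, Nat.xor_comm, K.xor M hv hu, mul_inv_cancel_right], by simp⟩

theorem nm_act (M : HM) (h : Nm g x x0) {v u : ℕ} (hv : v < 2048) (hu : u < 2048)
    (e : x0 * vv e0 v * x0⁻¹ = vv e0 u) : x * vv g v * x⁻¹ = vv g u := by
  obtain ⟨w, hw, e1, e2⟩ := h v hv
  rw [e1, M.eq hw hu (e2.symm.trans e)]

theorem nm_g (K : Gr z a Γ g) (M : HM) {l : ℕ} (hl : l < 24) : Nm g (g l) (e0 l) := fun v hv =>
  ⟨ac l v, (M.act l (by omega) (by omega) v hv).1, K.act M hl hv,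
    (M.act l (by omega) (by omega) v hv).2⟩

/-- A section over the presented group. -/
def Sec (g : ℕ → G) (φ : J4.N.Grp →* G) : Prop := ∀ m, Nm g (φ m) (th m)

theorem exists_sec [Finite G] (K : Gr z a Γ g) (M : HM) (I : HI g) : ∃ φ, Sec g φ := by
  have _ := J4.N.finite
  let E0 : Submonoid (G × J4.N.Grp) :=
    { carrier := {p | Nm g p.1 (th p.2)}
      one_mem' := by simpa using nm_one
      mul_mem' := fun h k => by simpa using nm_mul h k }
  let E : Subgroup (G × J4.N.Grp) :=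
    { E0 with
      inv_mem' := fun {p} h => by
        have : p⁻¹ = p ^ (orderOf p - 1) := inv_eq_of_mul_eq_one_right (by
          rw [← pow_succ', Nat.sub_add_cancel (orderOf_pos p), pow_orderOf_eq_one])
        exact this ▸ E0.pow_mem h _ }
  let π : E →* J4.N.Grp := (MonoidHom.snd _ _).comp E.subtype
  let f : E →* G × Spor.J4 := ((MonoidHom.id G).prodMap th).comp E.subtype
  have hs : Function.Surjective π := fun m => (I.onto m).elim fun x hx => ⟨⟨(x, m), hx⟩, rfl⟩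
  have ext : ∀ p : E, p ∈ π.ker → p.1.1 = 1 → p = 1 := fun p h1 h2 =>
    Subtype.ext (Prod.ext h2 h1)
  obtain ⟨Y, y1, y2⟩ := gasch (V := π.ker) (S := Sb.comap π) (X := Sb.comap π ⊓ Γ.comap f)
    (fun p hp => ext _ (mul_mem hp hp) (by
      have h : Nm g p.1.1 (th p.1.2) := p.2
      rw [show p.1.2 = 1 from hp, map_one] at h
      obtain ⟨u, hu, e⟩ := I.cen _ fun v hv => nm_act M h hv hv (by simp)
      exact (congrArg₂ (· * ·) e e).trans (vv_sq K M hu)))
    (ker_le_comap _ _) inf_le_left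
    (fun p hp h => ext p h (K.fst _ (by
      have : (p.1.1, th p.1.2) ∈ Γ := hp.2
      rwa [show p.1.2 = 1 from h, map_one] at this)))
    (fun s hs => by
      have : Sb ≤ (Sb.comap π ⊓ Γ.comap f).map π := (closure_le _).mpr (by
        rintro _ ⟨l, h1, h2, rfl⟩
        have e := M.ml l (Or.inl ⟨h1, h2⟩)
        exact ⟨⟨(g l, ml l), show Nm g _ (th (ml l)) from e ▸ nm_g K M (by omega)⟩,
          ⟨subset_closure ⟨l, h1, h2, rfl⟩,
            show (g l, th (ml l)) ∈ Γ from e ▸ K.mem l (by omega)⟩, rfl⟩)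
      obtain ⟨x, hx, e⟩ := this hs
      exact ⟨x, hx, by rw [MonoidHom.mem_ker, map_mul, map_inv, e, mul_inv_cancel]⟩)
    (by rw [index_comap_of_surjective _ hs, ← Nat.not_even_iff_odd, even_iff_two_dvd]; exact M.odd)
  have : ∀ m, ∃ y ∈ Y, π y = m := fun m => by
    obtain ⟨p, rfl⟩ := hs m
    obtain ⟨y, hy, e⟩ := y2 p
    rw [MonoidHom.mem_ker, map_mul, map_inv, mul_inv_eq_one] at e
    exact ⟨y, hy, e.symm⟩
  choose y h1 h2 using this
  refine ⟨MonoidHom.mk' (fun m => (y m).1.1) fun m n => ?_, fun m => ?_⟩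
  · have := y1 (y (m * n) * (y m * y n)⁻¹) (mul_mem (h1 _) (inv_mem (mul_mem (h1 _) (h1 _))))
      (by rw [MonoidHom.mem_ker, map_mul, map_inv, map_mul, h2, h2, h2, mul_inv_cancel])
    rw [mul_inv_eq_one.mp this]; rfl
  · have h : Nm g (y m).1.1 (th (π (y m))) := (y m).2
    rwa [h2] at h

theorem Sec.conj (h : Sec g φ) (K : Gr z a Γ g) (M : HM) {v : ℕ} (hv : v < 2048) :
    Sec g ((MulAut.conj (vv g v)).toMonoidHom.comp φ) := fun m => by
  have := nm_mul (nm_mul (nm_v K M hv) (h m)) (nm_v K M hv)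
  rw [one_mul, mul_one] at this
  simpa [vv_inv K M hv] using this

theorem Sec.kap (h : Sec g φ) (K : Gr z a Γ g) (M : HM) (p : GolayPt) :
    ∃ φ', Sec g φ' ∧ ∀ m, φ' m = vv g (du p (psi m p)) * φ m := by
  refine ⟨MonoidHom.mk' (fun m => vv g (du p (psi m p)) * φ m) fun m n => ?_, fun m => ?_,
    fun _ => rfl⟩
  · have e := nm_act M (h m) (M.du_lt _ _) (M.du_lt _ _) (M.dua m p (psi n p))
    have e2 : du p (psi (m * n) p) = du p (psi m p) ^^^ du (psi m p) (psi m (psi n p)) := by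
      rw [map_mul, du, du, du, Nat.xor_assoc, ← Nat.xor_assoc (fp (idx (psi m p))), Nat.xor_self,
        Nat.zero_xor]; rfl
    rw [e2, K.xor M (M.du_lt _ _) (M.du_lt _ _), ← e, map_mul]; group
  · simpa using nm_mul (nm_v K M (M.du_lt _ _)) (h m)

theorem kap_eq (M : HM) {l : ℕ} (h1 : 8 ≤ l) (h2 : l < 20) :
    du (pt 6) (psi (ml l) (pt 6)) = kap l := by
  have e : ∀ q, du (psi (ml l) (pt 6)) (psi (ml l) q) = ac l (du (pt 6) q) := fun q => by
    have := M.act l (by omega) (by omega) _ (M.du_lt (pt 6) q)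
    refine M.eq (M.du_lt _ _) this.1 ?_
    rw [← M.dua, M.ml l (Or.inl ⟨h1, h2⟩), this.2]
  exact kap_chk l h2 h1 _ (idx_lt _) ⟨_, idx_lt _, e (pt 0)⟩ ⟨_, idx_lt _, e (pt 1)⟩

/-- Packing. -/
def pk : List ℕ → ℕ
  | [] => 0
  | x :: xs => x + 2048 * pk xs

theorem pk_lt {xs : List ℕ} (h : ∀ x ∈ xs, x < 2048) : pk xs < 2 ^ (11 * xs.length) := by
  induction xs with
  | nil => simp [pk]
  | cons x xs ih =>
    have := ih fun y hy => h y (List.mem_cons_of_mem _ hy)
    have := h x List.mem_cons_self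
    rw [pk, List.length_cons, Nat.mul_succ, pow_add]; omega

theorem pk_get {xs : List ℕ} (h : ∀ x ∈ xs, x < 2048) (i : ℕ) :
    (pk xs >>> (11 * i)) % 2048 = xs.getD i 0 := by
  induction xs generalizing i with
  | nil => simp [pk]
  | cons x xs ih =>
    have := h x List.mem_cons_self
    cases i with
    | zero => simp [pk]; omega
    | succ i =>
      rw [List.getD_cons_succ, ← ih fun y hy => h y (List.mem_cons_of_mem _ hy), Nat.mul_succ,
        Nat.add_comm, Nat.shiftRight_add, pk, Nat.shiftRight_eq_div_pow _ 11,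
        show (x + 2048 * pk xs) / 2 ^ 11 = pk xs by omega]

theorem kap_lt : ∀ l < 20, kap l < 2048 ∧ eps l < 2048 := by decide

theorem adjust [Finite G] (K : Gr z a Γ g) (M : HM) (I : HI g) :
    ∃ φ, ∃ b < 2, Sec g φ ∧ ∀ l, 8 ≤ l → l < 20 → φ (ml l) = vv g (b * eps l) * g l := by
  obtain ⟨φ, h⟩ := exists_sec K M I
  have : ∀ l, 8 ≤ l → l < 20 → ∃ u < 2048, φ (ml l) = vv g u * g l := fun l h1 h2 => by
    obtain ⟨u, hu, e⟩ := I.cen (φ (ml l) * (g l)⁻¹) fun v hv => by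
      obtain ⟨w, hw, e1, e2⟩ : ∃ w < 2048, ac l w = v ∧ True := by
        have hi : Function.Injective fun w : Fin 2048 =>
            (⟨ac l w, (M.act l (by omega) (by omega) _ w.2).1⟩ : Fin 2048) := fun p q e => by
          have e1 := (M.act l (by omega) (by omega) _ p.2).2
          rw [Fin.mk.inj e, ← (M.act l (by omega) (by omega) _ q.2).2] at e1
          exact Fin.ext (M.eq p.2 q.2 (by simpa using e1))
        obtain ⟨w, e⟩ := Finite.surjective_of_injective hi ⟨v, hv⟩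
        exact ⟨w, w.2, Fin.mk.inj e, trivial⟩
      have e3 := nm_act M (h (ml l)) hw hv (by
        rw [M.ml l (Or.inl ⟨h1, h2⟩), ← e1]; exact (M.act l (by omega) (by omega) _ hw).2)
      have e4 := K.act (l := l) M (by omega) hw
      rw [e1] at e4
      conv_lhs => rw [← e4]
      rw [← e3]; group
    exact ⟨u, hu, by rw [← e]; group⟩
  choose! u u1 u2 using this
  have b : ∀ x ∈ (List.range' 8 12).map u, x < 2048 := fun x hx => by
    obtain ⟨l, hl, rfl⟩ := List.mem_map.mp hx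
    exact u1 l (List.mem_range'_1.mp hl).1 (List.mem_range'_1.mp hl).2
  set U := pk ((List.range' 8 12).map u)
  have e : ∀ l, 8 ≤ l → l < 20 → ul U l = u l := fun l h1 h2 => by
    rw [ul, pk_get b, List.getD_eq_getElem _ _ (by simp; omega)]
    simp [Nat.add_sub_cancel' h1]
  have wd : ∀ w : List ℕ, (∀ l ∈ w, 8 ≤ l ∧ l < 20) →
      cw U w < 2048 ∧ φ (evL ml w) = vv g (cw U w) * evL g w ∧ th (evL ml w) = evL e0 w := by
    intro w hw
    induction w with
    | nil => exact ⟨show 0 < 2048 by decide, by simp [evL_nil, show cw U [] = 0 from rfl, vv_zero], map_one _⟩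
    | cons l w ih =>
      obtain ⟨i1, i2, i3⟩ := ih fun k hk => hw k (List.mem_cons_of_mem _ hk)
      obtain ⟨h1, h2⟩ := hw l List.mem_cons_self
      have c := (M.act l (by omega) (by omega) _ i1).1
      rw [cw_cons, e l h1 h2, evL_cons, evL_cons, evL_cons, map_mul, map_mul, i2, i3, u2 l h1 h2,
        K.xor M (u1 l h1 h2) c, ← K.act M (by omega) i1, M.ml l (Or.inl ⟨h1, h2⟩)]
      exact ⟨xor_lt' (u1 l h1 h2) c, by group, rfl⟩
  obtain ⟨p, hp⟩ := lin (U := U) (by simpa using pk_lt b) fun w hw => by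
    obtain ⟨i1, i2, i3⟩ := wd w (RL_lt w hw)
    have := K.word w fun l hl => (RL_lt w hw l hl).2.trans (by norm_num)
    rw [rel_ml w hw, map_one] at i2 i3
    rw [← i3] at this
    rw [K.fst _ this, mul_one] at i2
    exact K.veq M i1 (by norm_num) i2.symm
  have hv : p % 2048 < 2048 := Nat.mod_lt _ (by norm_num)
  have lt2 : ∀ n, n &&& 1 < 2 := fun n => by rw [Nat.and_one_is_mod]; omega
  obtain ⟨α, β, a1, b1, e2⟩ : ∃ α β, α < 2 ∧ β < 2 ∧ ∀ l, bb l p =
      p % 2048 ^^^ ac l (p % 2048) ^^^ (α * kap l ^^^ β * eps l) :=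
    ⟨_, _, lt2 _, lt2 _, fun l => by
      rw [bb]; congr 1
      show 0 ^^^ ((p >>> 11) >>> 0 &&& 1) * kap l ^^^ ((p >>> 11) >>> 1 &&& 1) * eps l = _
      rw [Nat.zero_xor]⟩
  have k1 : ∀ l < 20, α * kap l < 2048 ∧ β * eps l < 2048 := fun l hl => by
    have := kap_lt l hl
    interval_cases α <;> interval_cases β <;> omega
  have h3 : ∀ l, 8 ≤ l → l < 20 → (MulAut.conj (vv g (p % 2048))).toMonoidHom.comp φ (ml l) =
      vv g (α * kap l) * (vv g (β * eps l) * g l) := fun l h1 h2 => by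
    have c := (M.act l (by omega) (by omega) _ hv).1
    have e3 : α * kap l ^^^ β * eps l = p % 2048 ^^^ u l ^^^ ac l (p % 2048) := by
      rw [← e l h1 h2, hp l h1 h2, e2]
      generalize α * kap l ^^^ β * eps l = c
      rw [← Nat.xor_assoc, ← Nat.xor_assoc, Nat.xor_self, Nat.zero_xor, Nat.xor_comm _ c,
        Nat.xor_assoc, Nat.xor_self, Nat.xor_zero]
    show vv g _ * φ (ml l) * (vv g _)⁻¹ = _
    rw [← mul_assoc, ← K.xor M (k1 l h2).1 (k1 l h2).2, e3, K.xor M (xor_lt' hv (u1 l h1 h2)) c,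
      K.xor M hv (u1 l h1 h2), ← K.act M (by omega) hv, u2 l h1 h2, vv_inv K M hv]
    group
  have h4 := h.conj K M hv
  interval_cases α
  · exact ⟨_, β, b1, h4, fun l h1 h2 => by rw [h3 l h1 h2, zero_mul, vv_zero, one_mul]⟩
  · obtain ⟨φ', h5, h6⟩ := h4.kap K M (pt 6)
    exact ⟨φ', β, b1, h5, fun l h1 h2 => by
      rw [h6, h3 l h1 h2, one_mul, kap_eq M h1 h2, ← mul_assoc, vv_sq K M (kap_lt l h2).1, one_mul]⟩

end Cfsg.J4R.K
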