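import Cfsg.Agent.H6.MRep

/-! Matrices over the field with two elements, one bit for each entry. -/

set_option autoImplicit false

namespace Cfsg.J4R

open Finset Cfsg.H6

/-- The matrix of a code. -/
def xdec (d r p : ℕ) : Matrix (Fin r) (Fin d) (ZMod 2) :=
  fun i j => if p.testBit (d * i + j) then 1 else 0

noncomputable def xacc (d M1 M3 A p n : ℕ) : ℕ :=
  @Nat.rec (fun _ => ℕ) (nat_lit 0)
    (fun k a => Nat.xor a (Nat.mul (Nat.land (Nat.shiftRight p k) M1)
      (Nat.land (Nat.shiftRight A (Nat.mul d k)) M3))) n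

/-- The product of `r` rows by a square matrix. -/
noncomputable def xmul (d r A p : ℕ) : ℕ := xacc d (msk d r 1) (msk 1 d 1) A p d

theorem tb_mod (x : ℕ) : (x % 2 ^ 1).testBit 0 = x.testBit 0 := by
  rw [Nat.testBit_mod_two_pow]; simp

theorem xacc_eq {d : ℕ} (hd : 0 < d) (r A p n : ℕ) (i : Fin r) (j : Fin d) :
    xdec d r (xacc d (msk d r 1) (msk 1 d 1) A p n) i j =
      ∑ k ∈ range n, (if p.testBit (d * i + k) then (1 : ZMod 2) else 0) *
        (if A.testBit (d * k + j) then 1 else 0) := by
  induction n with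
  | zero => simp [xacc, xdec]
  | succ n ih =>
    have e : xacc d (msk d r 1) (msk 1 d 1) A p (n + 1) =
      xacc d (msk d r 1) (msk 1 d 1) A p n ^^^
        ((p >>> n) &&& msk d r 1) * ((A >>> (d * n)) &&& msk 1 d 1) := rfl
    rw [sum_range_succ, ← ih, e]
    have h2 : (d * i + j) / d = i := by
      rw [Nat.mul_add_div hd, Nat.div_eq_of_lt j.2, add_zero]
    have h3 : (d * i + j) % d = j := by
      rw [Nat.mul_add_mod, Nat.mod_eq_of_lt j.2]
    have h4 : d * (i : ℕ) + j < r * d := by
      have := Nat.mul_le_mul_right d (show (i : ℕ) + 1 ≤ r from i.2)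
      have := j.2
      nlinarith
    have k : (((p >>> n) &&& msk d r 1) * ((A >>> (d * n)) &&& msk 1 d 1)).testBit (d * i + j) =
        (p.testBit (d * i + n) && A.testBit (d * n + j)) := by
      rw [msk_eq hd, msk_eq Nat.one_pos, land_pk hd hd, land_pk Nat.one_pos le_rfl]
      have := pk_mul_pk (b := 1) r hd (fun i => (p >>> (d * i + n)) % 2 ^ 1)
        (fun i => (A >>> (1 * i + d * n)) % 2 ^ 1)
      rw [one_mul] at this
      rw [this, testBit_pk Nat.one_pos (fun v _ => by
        have a1 := Nat.mod_lt (p >>> (d * (v / d) + n)) (show 0 < 2 ^ 1 by norm_num)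
        have a2 := Nat.mod_lt (A >>> (1 * (v % d) + d * n)) (show 0 < 2 ^ 1 by norm_num)
        exact lt_of_le_of_lt (Nat.mul_le_mul (Nat.le_of_lt_succ a1) (Nat.le_of_lt_succ a2))
          (by norm_num))]
      simp only [Nat.div_one, Nat.mod_one, h2, h3, h4, decide_true, Bool.true_and, one_mul]
      have b1 : p.testBit (d * i + n) = (p >>> (d * i + n) % 2 ^ 1).testBit 0 := by
        rw [tb_mod, Nat.testBit_shiftRight, add_zero]
      have b2 : A.testBit (d * n + j) = (A >>> (j + d * n) % 2 ^ 1).testBit 0 := by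
        rw [tb_mod, Nat.testBit_shiftRight, add_zero, add_comm]
      rw [b1, b2]
      have a1 := Nat.mod_lt (p >>> (d * i + n)) (show 0 < 2 ^ 1 by norm_num)
      have a2 := Nat.mod_lt (A >>> (j + d * n)) (show 0 < 2 ^ 1 by norm_num)
      generalize p >>> (d * i + n) % 2 ^ 1 = x at *
      generalize A >>> (j + d * n) % 2 ^ 1 = y at *
      interval_cases x <;> interval_cases y <;> rfl
    unfold xdec
    rw [Nat.testBit_xor, k]
    cases (xacc d (msk d r 1) (msk 1 d 1) A p n).testBit (d * i + j) <;>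
      cases p.testBit (d * i + n) <;> cases A.testBit (d * n + j) <;> decide

theorem xdec_mul {d : ℕ} (hd : 0 < d) (r A p : ℕ) :
    xdec d r (xmul d r A p) = xdec d r p * xdec d d A := by
  ext i j
  rw [xmul, xacc_eq hd, Matrix.mul_apply, sum_range]
  rfl

/-- The action of the letters on codes. -/
noncomputable def ximg (d r : ℕ) (code : ℕ → ℕ) (x p : ℕ) : ℕ := xmul d r (code x) p

theorem xdec_tr {d : ℕ} (hd : 0 < d) (r : ℕ) (code : ℕ → ℕ) (w : List ℕ) (p : ℕ) :
    xdec d r (trF (ximg d r code) w p) = xdec d r p * mpr (fun x => xdec d d (code x)) w := by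
  rw [trF_eq]
  induction w generalizing p with
  | nil => rw [tr_nil, mpr_nil, Matrix.mul_one]
  | cons x w ih =>
    rw [tr_cons, ih, mpr_cons, ← Matrix.mul_assoc]
    unfold ximg
    rw [xdec_mul hd]

theorem xdec_inj {d p q : ℕ} (hp : p < 2 ^ d) (hq : q < 2 ^ d) (h : xdec d 1 p = xdec d 1 q) :
    p = q := by
  apply Nat.eq_of_testBit_eq
  intro v
  by_cases hv : v < d
  · have := congrFun (congrFun h 0) ⟨v, hv⟩
    simp only [xdec, Fin.val_zero, mul_zero, zero_add] at this
    revert this
    cases p.testBit v <;> cases q.testBit v <;> decide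
  · rw [Nat.testBit_lt_two_pow (hp.trans_le (Nat.pow_le_pow_right (by norm_num) (by omega))),
      Nat.testBit_lt_two_pow (hq.trans_le (Nat.pow_le_pow_right (by norm_num) (by omega)))]

end Cfsg.J4R
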