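import Cfsg.Agent.J4R.M1

/-! The action of words on vectors. -/

set_option autoImplicit false
set_option maxRecDepth 100000

namespace Cfsg.J4R

open Cfsg.H6

/-- The row vector `p` times the word. -/
noncomputable def app (w : List ℕ) (p : ℕ) : ℕ := trF (ximg 112 1 M.cd) w p

theorem app_nil (p : ℕ) : app [] p = p := rfl

theorem app_append (u v : List ℕ) (p : ℕ) : app (u ++ v) p = app v (app u p) := by
  unfold app
  rw [trF_eq, trF_eq, trF_eq]
  induction u generalizing p with
  | nil => rfl
  | cons x u ih => rw [List.cons_append, tr_cons, tr_cons, ih]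

theorem xacc_lt (A p n : ℕ) : xacc 112 (msk 112 1 1) (msk 1 112 1) A p n < 2 ^ 112 := by
  induction n with
  | zero => exact Nat.two_pow_pos _
  | succ n ih =>
    have e : xacc 112 (msk 112 1 1) (msk 1 112 1) A p (n + 1) =
      xacc 112 (msk 112 1 1) (msk 1 112 1) A p n ^^^
        ((p >>> n) &&& msk 112 1 1) * ((A >>> (112 * n)) &&& msk 1 112 1) := rfl
    rw [e]
    refine Nat.xor_lt_two_pow ih ?_
    have a1 : (p >>> n) &&& msk 112 1 1 ≤ 1 :=
      Nat.and_le_right.trans (le_of_eq (by decide +kernel))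
    have a2 : (A >>> (112 * n)) &&& msk 1 112 1 < 2 ^ 112 :=
      lt_of_le_of_lt Nat.and_le_right (by decide +kernel)
    exact lt_of_le_of_lt ((Nat.mul_le_mul_right _ a1).trans (le_of_eq (one_mul _))) a2

theorem app_lt (w : List ℕ) {p : ℕ} (hp : p < 2 ^ 112) : app w p < 2 ^ 112 := by
  unfold app
  rw [trF_eq]
  induction w generalizing p with
  | nil => exact hp
  | cons x w ih => rw [tr_cons]; exact ih (xacc_lt (M.cd x) p 112)

theorem app_spec {w : List ℕ} (h : ltB 26 w = true) (p : ℕ) :
    xdec 112 1 (app w p) = xdec 112 1 p * mu (evL e0 w) := by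
  rw [M.mu_evL h]
  exact xdec_tr (by norm_num) 1 M.cd w p

theorem app_congr {u v : List ℕ} (hu : ltB 26 u = true) (hv : ltB 26 v = true)
    (e : evL e0 u = evL e0 v) {p : ℕ} (hp : p < 2 ^ 112) : app u p = app v p :=
  xdec_inj (app_lt u hp) (app_lt v hp) (by rw [app_spec hu, app_spec hv, e])

end Cfsg.J4R
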