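import Cfsg.Agent.J4R.D0
import Cfsg.Agent.H6.Perm

/-! Pairs of elements of the group and of the model that act in the same way on the frames. -/

set_option autoImplicit false
set_option maxRecDepth 100000
set_option linter.unusedSectionVars false

namespace Cfsg.J4R

open Subgroup Cfsg.H6
open Cfsg.Co.Rc (mem_cen)

section Words
variable {Γ : Type*} [Group Γ] {ev : ℕ → Γ}

theorem evL_rev' {w : List ℕ} (h : ∀ l ∈ w, ev l * ev l = 1) : evL ev w.reverse = (evL ev w)⁻¹ := by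
  induction w with
  | nil => simp [evL_nil]
  | cons x w ih =>
    rw [List.reverse_cons, evL_append, evL_singleton, evL_cons, mul_inv_rev,
      ih fun l hm => h l (List.mem_cons_of_mem _ hm),
      inv_eq_of_mul_eq_one_right (h x List.mem_cons_self)]

/-- The values of the words in some involutions. -/
def wds (ev : ℕ → Γ) (p : ℕ → Bool) (h : ∀ l, p l = true → ev l * ev l = 1) : Subgroup Γ where
  carrier := {d | ∃ w : List ℕ, w.all p = true ∧ evL ev w = d}
  one_mem' := ⟨[], rfl, rfl⟩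
  mul_mem' := by
    rintro _ _ ⟨u, hu, rfl⟩ ⟨v, hv, rfl⟩
    exact ⟨u ++ v, by rw [List.all_append, hu, hv]; rfl, evL_append _ _ _⟩
  inv_mem' := by
    rintro _ ⟨u, hu, rfl⟩
    exact ⟨u.reverse, by rwa [List.all_reverse],
      evL_rev' fun l hl => h l (List.all_eq_true.mp hu l hl)⟩

/-- The letters below `m`. -/
def rg (m x : ℕ) : Bool := Nat.ble 1 x && Nat.blt x m

theorem rg_iff {m x : ℕ} : rg m x = true ↔ 1 ≤ x ∧ x < m := by simp [rg]

theorem inR_iff {m : ℕ} {w : List ℕ} : inR m w = true ↔ ∀ x ∈ w, 1 ≤ x ∧ x < m :=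
  ⟨inR_spec, fun h => List.all_eq_true.mpr fun x hx => rg_iff.mpr (h x hx)⟩

theorem inR_mono {m n : ℕ} {w : List ℕ} (h : inR m w = true) (e : m ≤ n) : inR n w = true :=
  inR_iff.mpr fun x hx => ⟨(inR_spec h x hx).1, (inR_spec h x hx).2.trans_le e⟩

theorem inR_append {m : ℕ} {u w : List ℕ} (h : inR m u = true) (k : inR m w = true) :
    inR m (u ++ w) = true :=
  inR_iff.mpr fun x hx => (List.mem_append.mp hx).elim (inR_spec h x) (inR_spec k x)

theorem conj_evL {c : Γ} {K : Subgroup Γ} {w : List ℕ} (h : ∀ l ∈ w, c * ev l * c⁻¹ ∈ K) :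
    c * evL ev w * c⁻¹ ∈ K := by
  have : c * evL ev w * c⁻¹ = _ := map_evL (MulAut.conj c).toMonoidHom ev w
  rw [this]
  exact evL_mem_of_letters (ev := fun l => (MulAut.conj c).toMonoidHom (ev l)) h

theorem mem_bw {v x : ℕ} : x ∈ bw v ↔ ∃ j < 12, v.testBit j = true ∧ x = j + 2 := by
  simp only [bw, List.mem_map, List.mem_filter, List.mem_range]
  exact ⟨fun ⟨j, ⟨h1, h2⟩, h3⟩ => ⟨j, h1, h2, h3.symm⟩, fun ⟨j, h1, h2, h3⟩ => ⟨j, ⟨h1, h2⟩, h3.symm⟩⟩

theorem bw_inR (v : ℕ) : inR 14 (bw v) = true := inR_iff.mpr fun x hx => by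
  obtain ⟨j, h1, -, rfl⟩ := mem_bw.mp hx
  omega

theorem bw_nodup (v : ℕ) : (bw v).Nodup :=
  (List.nodup_range.filter _).map fun _ _ h => Nat.add_right_cancel h

theorem bw_perm {v i : ℕ} (hi : i < 12) (h : v.testBit i = false) :
    ((i + 2) :: bw v).Perm (bw (2 ^ i ^^^ v)) := by
  refine (List.perm_ext_iff_of_nodup (List.nodup_cons.mpr ⟨fun k => ?_, bw_nodup v⟩)
    (bw_nodup _)).mpr fun x => ?_
  · obtain ⟨j, -, h2, h3⟩ := mem_bw.mp k
    obtain rfl : i = j := by omega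
    simp [h] at h2
  · rw [List.mem_cons, mem_bw, mem_bw]
    constructor
    · rintro (rfl | ⟨j, h1, h2, rfl⟩)
      · exact ⟨i, hi, by simp [h], rfl⟩
      · refine ⟨j, h1, ?_, rfl⟩
        have : i ≠ j := by rintro rfl; simp [h] at h2
        simp [h2, this]
    · rintro ⟨j, h1, h2, rfl⟩
      by_cases e : i = j
      · exact Or.inl (by rw [e])
      · exact Or.inr ⟨j, h1, by simpa [e] using h2, rfl⟩

theorem perm_sg (zc : ∀ l < 14, ev l * ev 1 = ev 1 * ev l) (zz : ev 1 * ev 1 = 1)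
    (cm : ∀ i < 14, ∀ j < 14, ev j * ev i = ev i * ev j ∨ ev j * ev i = ev 1 * (ev i * ev j))
    {u v : List ℕ} (h : u.Perm v) (hu : ∀ l ∈ u, l < 14) :
    evL ev u = evL ev v ∨ evL ev u = ev 1 * evL ev v := by
  induction h with
  | nil => exact Or.inl rfl
  | cons x _ ih =>
    rw [evL_cons, evL_cons]
    rcases ih fun l hl => hu l (List.mem_cons_of_mem _ hl) with e | e <;> rw [e]
    · exact Or.inl rfl
    · exact Or.inr (by rw [← mul_assoc, zc x (hu x List.mem_cons_self), mul_assoc])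
  | swap x y l =>
    simp only [evL_cons, ← mul_assoc]
    rcases cm x (hu x (by simp)) y (hu y (by simp)) with e | e <;> rw [e]
    · exact Or.inl rfl
    · exact Or.inr (by simp only [mul_assoc])
  | trans h1 _ ih1 ih2 =>
    rcases ih1 hu with e | e <;> rcases ih2 fun l hl => hu l (h1.mem_iff.mpr hl) with f | f <;>
      rw [e, f]
    · exact Or.inl rfl
    · exact Or.inr rfl
    · exact Or.inr rfl
    · exact Or.inl (by rw [← mul_assoc, zz, one_mul])

theorem nf_gen (zc : ∀ l < 14, ev l * ev 1 = ev 1 * ev l) (sq : ∀ l < 14, ev l * ev l = 1)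
    (cm : ∀ i < 14, ∀ j < 14, ev j * ev i = ev i * ev j ∨ ev j * ev i = ev 1 * (ev i * ev j))
    {w : List ℕ} (hw : inR 14 w = true) :
    evL ev w = evL ev (bw (xs w)) ∨ evL ev w = ev 1 * evL ev (bw (xs w)) := by
  have zz := sq 1 (by norm_num)
  induction w with
  | nil => exact Or.inl rfl
  | cons l w ih =>
    have hl := inR_spec hw l List.mem_cons_self
    have k : ev l * evL ev (bw (xs w)) = evL ev (bw (xs (l :: w))) ∨
        ev l * evL ev (bw (xs w)) = ev 1 * evL ev (bw (xs (l :: w))) := by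
      have e : xs (l :: w) = x1 l ^^^ xs w := rfl
      by_cases h1 : l = 1
      · subst h1
        exact Or.inr (by rw [e, show x1 1 = 0 from rfl, Nat.zero_xor])
      obtain ⟨i, rfl⟩ : ∃ i, l = i + 2 := ⟨l - 2, by omega⟩
      have hi : i < 12 := by omega
      rw [e, show x1 (i + 2) = 2 ^ i by simp [x1]; omega]
      generalize xs w = v
      have b : ∀ v, ∀ l ∈ (i + 2) :: bw v, l < 14 := fun v l hl' => by
        rcases List.mem_cons.mp hl' with rfl | hl'
        · omega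
        · exact (inR_spec (bw_inR v) l hl').2
      cases hb : v.testBit i
      · exact perm_sg zc zz cm (bw_perm hi hb) (b v)
      · have := perm_sg zc zz cm (bw_perm (v := 2 ^ i ^^^ v) hi (by simp [hb])) (b _)
        rw [← Nat.xor_assoc, Nat.xor_self, Nat.zero_xor, evL_cons] at this
        rcases this with e | e
        · exact Or.inl (by rw [← e, ← mul_assoc, sq _ hl.2, one_mul])
        · refine Or.inr ?_
          rw [← inv_mul_eq_iff_eq_mul, inv_eq_of_mul_eq_one_right zz] at e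
          rw [← e, ← mul_assoc, zc _ hl.2, mul_assoc, ← mul_assoc (ev (i + 2)), sq _ hl.2, one_mul]
    rw [evL_cons]
    rcases ih (inR_iff.mpr fun x hx => inR_spec hw x (List.mem_cons_of_mem _ hx)) with e | e <;>
      rw [e]
    · exact k
    · rw [← mul_assoc, zc l hl.2, mul_assoc]
      rcases k with k | k <;> rw [k]
      · exact Or.inr rfl
      · exact Or.inl (by rw [← mul_assoc, zz, one_mul])

end Words

/-- The facts on the model that are used. -/
class Md : Prop where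
  fin : Finite Spor.J4
  sq : ∀ l < 26, e0 l * e0 l = 1
  zero : e0 0 = 1
  z1 : e0 1 ≠ 1
  zc : ∀ l < 25, e0 l * e0 1 = e0 1 * e0 l
  cm : ∀ i < 12, ∀ j < 12, e0 (j + 2) * e0 (i + 2) =
    if j = pr i then e0 1 * (e0 (i + 2) * e0 (j + 2)) else e0 (i + 2) * e0 (j + 2)
  cw : ∀ l, 14 ≤ l → l < 25 → ∀ i < 12, e0 l * e0 (2 + i) * e0 l = evL e0 (CW l i)
  cen : ∀ w, inR 25 w = true → (∀ i < 12, evL e0 w * e0 (i + 2) = e0 (i + 2) * evL e0 w) →
    evL e0 w = 1 ∨ evL e0 w = e0 1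

theorem CW_ok : ∀ l < 25, 14 ≤ l → ∀ i < 12, inR 14 (CW l i) = true ∧ xs (CW l i) = im l (2 ^ i) := by
  decide +kernel

variable {G : Type*} [Group G]

/-- Letters in the product with the model. -/
noncomputable def pr2 (f : ℕ → G) (l : ℕ) : G × Spor.J4 := (f l, e0 l)

theorem evL_pr2 (f : ℕ → G) (w : List ℕ) : evL (pr2 f) w = (evL f w, evL e0 w) :=
  Prod.ext (map_evL (MonoidHom.fst G Spor.J4) (pr2 f) w)
    (map_evL (MonoidHom.snd G Spor.J4) (pr2 f) w)

theorem fa_a {z : G} {a : ℕ → G} {i : ℕ} (hi : i < 12) : fa z a (i + 2) = a i := by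
  unfold fa
  rw [if_neg (by omega), if_pos (by omega)]
  rfl

variable [M : Md]

instance Md.finite : Finite Spor.J4 := M.fin

/-- The centraliser of `e0 1` in the model. -/
noncomputable def C0 : Subgroup Spor.J4 :=
  wds e0 (rg 25) fun l h => M.sq l (by have := rg_iff.mp h; omega)

theorem mem_C0 {w : List ℕ} (h : inR 25 w = true) : evL e0 w ∈ C0 := ⟨w, h, rfl⟩

theorem C0_word {x : Spor.J4} (h : x ∈ C0) : ∃ w, inR 25 w = true ∧ evL e0 w = x := h

theorem C0_z {x : Spor.J4} (h : x ∈ C0) : x * e0 1 = e0 1 * x := by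
  obtain ⟨w, hw, rfl⟩ := h
  exact mem_cen.mp (evL_mem_of_letters (K := centralizer {e0 1}) fun l hl =>
    mem_cen.mpr (M.zc l (inR_spec hw l hl).2))

theorem e0_C0 {l : ℕ} (h : l < 25) : e0 l ∈ C0 := by
  rcases Nat.eq_zero_or_pos l with rfl | k
  · rw [M.zero]; exact one_mem _
  · rw [← evL_singleton e0 l]
    exact mem_C0 (inR_iff.mpr (by simp; omega))

variable {z : G} {Q : Subgroup G} {a : ℕ → G} (E : ES z Q) (F : Fr z Q false a)
include E F

omit M in
theorem fa_sq (l : ℕ) : fa z a l * fa z a l = 1 := by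
  unfold fa
  split_ifs with h1 h2
  · exact E.zz
  · simpa using F.sq (l - 2) (by omega)
  · exact one_mul _

/-- The graph of the isomorphism of the extraspecial groups. -/
noncomputable def Qh : Subgroup (G × Spor.J4) :=
  wds (pr2 (fa z a)) (rg 14) fun l h =>
    Prod.ext (fa_sq E F l) (M.sq l (by have := rg_iff.mp h; omega))

theorem mem_Qh {w : List ℕ} (h : inR 14 w = true) : (evL (fa z a) w, evL e0 w) ∈ Qh E F :=
  ⟨w, h, evL_pr2 _ _⟩

theorem Qh_word {d : G × Spor.J4} (h : d ∈ Qh E F) :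
    ∃ w, inR 14 w = true ∧ d = (evL (fa z a) w, evL e0 w) := by
  obtain ⟨w, h1, rfl⟩ := h
  exact ⟨w, h1, evL_pr2 _ _⟩

theorem Qh_mem {d : G × Spor.J4} (h : d ∈ Qh E F) : d.1 ∈ Q := by
  obtain ⟨w, -, rfl⟩ := Qh_word E F h
  exact ev_mem E F w

theorem zh_Qh : (z, e0 1) ∈ Qh E F := by
  have := mem_Qh E F (w := [1]) rfl
  rwa [evL_singleton, evL_singleton] at this

theorem a_Qh {i : ℕ} (hi : i < 12) : (a i, e0 (i + 2)) ∈ Qh E F := by
  have := mem_Qh E F (w := [i + 2]) (inR_iff.mpr (by simp; omega))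
  rwa [evL_singleton, evL_singleton, fa_a hi] at this

/-- The normal form in the graph. -/
theorem Qh_nf {d : G × Spor.J4} (h : d ∈ Qh E F) :
    d = (evL (fa z a) (bw (co a d.1)), evL e0 (bw (co a d.1))) ∨
      d = (z * evL (fa z a) (bw (co a d.1)), e0 1 * evL e0 (bw (co a d.1))) := by
  obtain ⟨w, hw, rfl⟩ := Qh_word E F h
  have := nf_gen (ev := pr2 (fa z a))
    (fun l hl => Prod.ext (E.qz _ (fa_mem E F l)) (M.zc l (by omega)))
    (fun l hl => Prod.ext (fa_sq E F l) (M.sq l (by omega))) (fun i hi j hj => ?_) hw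
  · rw [evL_pr2, evL_pr2] at this
    simp only [co_ev E F]
    exact this
  have z0 : pr2 (fa z a) 0 = 1 := Prod.ext rfl M.zero
  have zc : ∀ l < 14, pr2 (fa z a) l * pr2 (fa z a) 1 = pr2 (fa z a) 1 * pr2 (fa z a) l :=
    fun l hl => Prod.ext (E.qz _ (fa_mem E F l)) (M.zc l (by omega))
  rcases i with _ | _ | i
  · exact Or.inl (by rw [z0, one_mul, mul_one])
  · exact Or.inl (zc j hj)
  rcases j with _ | _ | j
  · exact Or.inl (by rw [z0, one_mul, mul_one])
  · exact Or.inl (zc _ hi).symm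
  have h1 := F.cm i (by omega) j (by omega)
  have h2 := M.cm i (by omega) j (by omega)
  rw [← fa_a (z := z) (a := a) (i := i) (by omega), ← fa_a (z := z) (a := a) (i := j) (by omega)] at h1
  by_cases e : j = pr i
  · rw [if_pos e] at h1 h2
    exact Or.inr (Prod.ext h1 h2)
  · rw [if_neg e] at h1 h2
    exact Or.inl (Prod.ext h1 h2)

theorem Qh_fst {c0 : Spor.J4} (h : (1, c0) ∈ Qh E F) : c0 = 1 := by
  have := Qh_nf E F h
  simp only [co_one] at this
  rcases this with e | e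
  · exact congrArg Prod.snd e
  · exact absurd ((mul_one z).symm.trans (congrArg Prod.fst e).symm) E.z1

theorem z_not_Qh : (z, (1 : Spor.J4)) ∉ Qh E F := fun h => by
  have := mul_mem h (zh_Qh E F)
  rw [Prod.mk_mul_mk, E.zz, one_mul] at this
  exact M.z1 (Qh_fst E F this)

theorem Qh_C0 {d : G × Spor.J4} (h : d ∈ Qh E F) : d.2 ∈ C0 := by
  obtain ⟨w, hw, rfl⟩ := Qh_word E F h
  exact mem_C0 (inR_mono hw (by norm_num))

variable [Finite G]

theorem exists_Qh {q : G} (hq : q ∈ Q) : ∃ q0, (q, q0) ∈ Qh E F := by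
  rcases nf E F hq with e | e
  · exact ⟨_, e ▸ mem_Qh E F (bw_inR _)⟩
  · have := mul_mem (zh_Qh E F) (mem_Qh E F (bw_inR (co a q)))
    rw [Prod.mk_mul_mk, ← e] at this
    exact ⟨_, this⟩

theorem Qh_snd {q : G} (h : (q, 1) ∈ Qh E F) : q = 1 := by
  have hq : q ∈ Q := Qh_mem E F h
  refine (cen_a E F (E.qz q hq) fun j hj => ?_).resolve_right fun e => z_not_Qh E F (e ▸ h)
  rcases E.comm _ (F.mem j hj) q hq with e | e
  · rw [e, mul_inv_cancel_right]
  · have := mul_mem (mul_mem (mul_mem h (a_Qh E F hj)) (inv_mem h)) (inv_mem (a_Qh E F hj))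
    simp only [Prod.inv_mk, Prod.mk_mul_mk, inv_one, one_mul, mul_one, mul_inv_cancel] at this
    rw [e, show z * (a j * q) * q⁻¹ * (a j)⁻¹ = z by group] at this
    exact absurd this (z_not_Qh E F)

theorem Qh_eq {p q : G} {c0 : Spor.J4} (h : (p, c0) ∈ Qh E F) (k : (q, c0) ∈ Qh E F) : p = q := by
  have := mul_mem h (inv_mem k)
  rw [Prod.inv_mk, Prod.mk_mul_mk, mul_inv_cancel] at this
  exact mul_inv_eq_one.mp (Qh_snd E F this)

theorem Qh_eq' {p : G} {c0 d0 : Spor.J4} (h : (p, c0) ∈ Qh E F) (k : (p, d0) ∈ Qh E F) :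
    c0 = d0 := by
  have := mul_mem h (inv_mem k)
  rw [Prod.inv_mk, Prod.mk_mul_mk, mul_inv_cancel] at this
  exact mul_inv_eq_one.mp (Qh_fst E F this)

theorem fa_eq {u v : List ℕ} (hu : inR 14 u = true) (hv : inR 14 v = true)
    (h : evL e0 u = evL e0 v) : evL (fa z a) u = evL (fa z a) v :=
  Qh_eq E F (mem_Qh E F hu) (h ▸ mem_Qh E F hv)

/-- The pairs that act in the same way on the frames. -/
noncomputable def NN : Subgroup (G × Spor.J4) :=
  normalizer (Qh E F : Set (G × Spor.J4)) ⊓ (centralizer {z}).prod C0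

theorem NN_cen {d : G × Spor.J4} (h : d ∈ NN E F) : d.1 * z = z * d.1 := mem_cen.mp h.2.1

theorem NN_C0 {d : G × Spor.J4} (h : d ∈ NN E F) : d.2 ∈ C0 := h.2.2

theorem NN_nrm {d q : G × Spor.J4} (h : d ∈ NN E F) (hq : q ∈ Qh E F) :
    d * q * d⁻¹ ∈ Qh E F := (mem_normalizer_iff.mp h.1 q).mp hq

theorem Qh_le : Qh E F ≤ NN E F := fun _ h =>
  ⟨le_normalizer h, mem_cen.mpr (E.qz _ (Qh_mem E F h)), Qh_C0 E F h⟩

theorem mem_NN {c : G} {c0 : Spor.J4} (hc : c * z = z * c) (h0 : c0 ∈ C0)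
    (h : ∀ i < 12, ∃ w, inR 14 w = true ∧ c * a i * c⁻¹ = evL (fa z a) w ∧
      c0 * e0 (i + 2) * c0⁻¹ = evL e0 w) : (c, c0) ∈ NN E F := by
  refine ⟨mem_normalizer_fintype ?_, mem_cen.mpr hc, h0⟩
  rintro _ ⟨u, hu, rfl⟩
  refine conj_evL fun l hl => ?_
  have hl' := inR_spec hu l hl
  by_cases e : l = 1
  · subst e
    have : (c, c0) * pr2 (fa z a) 1 * (c, c0)⁻¹ = (z, e0 1) :=
      Prod.ext (mul_inv_eq_iff_eq_mul.mpr hc) (mul_inv_eq_iff_eq_mul.mpr (C0_z h0))
    rw [this]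
    exact zh_Qh E F
  obtain ⟨i, rfl⟩ : ∃ i, l = i + 2 := ⟨l - 2, by omega⟩
  obtain ⟨w, h1, h2, h3⟩ := h i (by omega)
  have := mem_Qh E F h1
  rw [← h2, ← h3, ← fa_a (z := z) (a := a) (show i < 12 by omega)] at this
  exact this

theorem NN_conj {d : G × Spor.J4} (hd : d ∈ NN E F) {u v : List ℕ} (hu : inR 14 u = true)
    (hv : inR 14 v = true) (h : d.2 * evL e0 u * d.2⁻¹ = evL e0 v) :
    d.1 * evL (fa z a) u * d.1⁻¹ = evL (fa z a) v :=
  Qh_eq E F (NN_nrm E F hd (mem_Qh E F hu)) (h ▸ mem_Qh E F hv)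

theorem NN_K {c : G} (h : (c, 1) ∈ NN E F) : c = 1 ∨ c = z := by
  refine cen_a E F (NN_cen E F h) fun j hj => ?_
  refine Qh_eq E F (c0 := e0 (j + 2)) ?_ (a_Qh E F hj)
  simpa using NN_nrm E F h (a_Qh E F hj)

theorem NN_snd {c0 : Spor.J4} (h : (1, c0) ∈ NN E F) : c0 = 1 ∨ c0 = e0 1 := by
  obtain ⟨w, hw, rfl⟩ := C0_word (NN_C0 E F h)
  refine M.cen w hw fun j hj => mul_inv_eq_iff_eq_mul.mp ?_
  refine Qh_eq' E F (p := a j) ?_ (a_Qh E F hj)
  simpa using NN_nrm E F h (a_Qh E F hj)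

theorem NN_eq {c d : G} {c0 : Spor.J4} (h : (c, c0) ∈ NN E F) (k : (d, c0) ∈ NN E F) :
    c = d ∨ c = z * d := by
  have := mul_mem h (inv_mem k)
  rw [Prod.inv_mk, Prod.mk_mul_mk, mul_inv_cancel] at this
  exact (NN_K E F this).imp mul_inv_eq_one.mp mul_inv_eq_iff_eq_mul.mp

theorem NN_eq' {c : G} {c0 d0 : Spor.J4} (h : (c, c0) ∈ NN E F) (k : (c, d0) ∈ NN E F) :
    c0 = d0 ∨ c0 = e0 1 * d0 := by
  have := mul_mem h (inv_mem k)
  rw [Prod.inv_mk, Prod.mk_mul_mk, mul_inv_cancel] at this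
  exact (NN_snd E F this).imp mul_inv_eq_one.mp mul_inv_eq_iff_eq_mul.mp

theorem z_NN : (z, (1 : Spor.J4)) ∈ NN E F :=
  mem_NN E F rfl (one_mem _) fun i hi => ⟨[i + 2], inR_iff.mpr (by simp; omega), by
    rw [evL_singleton, fa_a hi, ← E.qz _ (F.mem i hi), mul_inv_cancel_right],
    by simp [evL_singleton]⟩

theorem z0_NN : ((1 : G), e0 1) ∈ NN E F := by
  have := mul_mem (z_NN E F) (Qh_le E F (zh_Qh E F))
  rwa [Prod.mk_mul_mk, E.zz, one_mul] at this

/-- A pair over an element of `Q` lies in the graph up to `(z, 1)`. -/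
theorem NN_Q {d : G × Spor.J4} (h : d ∈ NN E F) (hq : d.1 ∈ Q) :
    d ∈ Qh E F ∨ (z, 1) * d ∈ Qh E F := by
  obtain ⟨q0, k⟩ := exists_Qh E F hq
  rcases NN_eq' E F (c := d.1) (c0 := d.2) h (Qh_le E F k) with e | e
  · exact Or.inl (by rw [← e] at k; exact k)
  · refine Or.inr ?_
    have := mul_mem (zh_Qh E F) k
    rw [Prod.mk_mul_mk, ← e] at this
    rwa [show (z, 1) * d = (z * d.1, d.2) from Prod.ext rfl (one_mul _)]

theorem exists_lift {c : G} {l : ℕ} (h1 : 14 ≤ l) (h2 : l < 25) (hc : c * z = z * c)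
    (h : ∀ v < 4096, rc z a c v = im l v) : ∃ p ∈ Q, (c * p, e0 l) ∈ NN E F := by
  obtain ⟨p, hp, k⟩ := adj E F hc (t := fun j => evL (fa z a) (CW l j)) fun j hj =>
    eq_of_co E F (E.nrm c hc _ (F.mem j hj)) (ev_mem E F _) (by
      rw [co_conj E F hc (F.mem j hj), co_a E F hj, co_ev E F, (CW_ok l h2 h1 j hj).2]
      exact h _ (Nat.pow_lt_pow_right (by norm_num) hj))
  refine ⟨p, hp, mem_NN E F (by rw [mul_assoc, E.qz p hp, ← mul_assoc, hc, mul_assoc])
    (e0_C0 h2) fun i hi => ⟨CW l i, (CW_ok l h2 h1 i hi).1, k i hi, ?_⟩⟩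
  rw [inv_eq_of_mul_eq_one_right (M.sq l (by omega)), add_comm, M.cw l h1 h2 i hi]

omit E F

/-- A chart whose letters are partners of the letters of the model. -/
structure Pre0 (z : G) (Q : Subgroup G) (a g : ℕ → G) : Prop where
  ch : Ch z Q a g
  fr : ∀ l < 14, g l = fa z a l
  nn : ∀ l < 25, (g l, e0 l) ∈ NN ch.es ch.fr

/-- The data for the construction of the graph. -/
structure Pre (z : G) (Q : Subgroup G) (a g : ℕ → G) : Prop extends Pre0 z Q a g where
  sq : ∀ d ∈ NN ch.es ch.fr, d.2 * d.2 = 1 → d.1 * d.1 = 1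
  mv : ∃ n ∈ normalizer (VV g : Set G), n * z * n⁻¹ = g 2
  n1 : ¬ IsConj z (g 2 * g 6)

theorem evL_adj (E : ES z Q) {c g : ℕ → G} (hc : ∀ l, c l * z = z * c l) {w : List ℕ}
    (h : ∀ l ∈ w, ∃ p ∈ Q, g l = c l * p) : evL c w * (evL g w)⁻¹ ∈ Q := by
  induction w with
  | nil => simp [evL_nil, one_mem]
  | cons l w ih =>
    obtain ⟨p, hp, e⟩ := h l List.mem_cons_self
    have := E.nrm _ (hc l) _ (mul_mem (ih fun x hx => h x (List.mem_cons_of_mem _ hx)) (inv_mem hp))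
    rw [evL_cons, evL_cons, e]
    convert this using 1
    group

theorem exists_pre0 {c : ℕ → G} (h : Ch z Q a c) : ∃ g, Pre0 z Q a g := by
  have k : ∀ l, ∃ p ∈ Q, 14 ≤ l → l < 25 → (c l * p, e0 l) ∈ NN h.es h.fr := fun l => by
    by_cases e : 14 ≤ l ∧ l < 25
    · obtain ⟨p, hp, k⟩ := exists_lift h.es h.fr e.1 e.2 (h.cz l) (h.act l e.1 e.2)
      exact ⟨p, hp, fun _ _ => k⟩
    · exact ⟨1, one_mem _, fun h1 h2 => absurd ⟨h1, h2⟩ e⟩
  choose p hp k using k
  have cz : ∀ l, c l * p l * z = z * (c l * p l) := fun l => by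
    rw [mul_assoc, h.es.qz _ (hp l), ← mul_assoc, h.cz, mul_assoc]
  refine ⟨fun l => if l < 14 then fa z a l else c l * p l,
    ⟨h.es, h.fr, fun l => ?_, fun l h1 h2 v hv => ?_, fun x hx => ?_⟩, fun l hl => if_pos hl,
    fun l hl => ?_⟩
  · split_ifs
    · exact h.es.qz _ (fa_mem h.es h.fr l)
    · exact cz l
  · rw [if_neg (by omega), rc_mul h.es h.fr (h.cz l) (h.es.qz _ (hp l)), rc_Q h.es h.fr (hp l) hv,
      h.act l h1 h2 v hv]
  · obtain ⟨w, hw, hx⟩ := h.gen x hx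
    refine ⟨w, hw, ?_⟩
    have := mul_mem hx (evL_adj h.es h.cz (w := w)
      (g := fun l => if l < 14 then fa z a l else c l * p l) fun l hl =>
        ⟨p l, hp l, if_neg (by have := hw l hl; omega)⟩)
    rwa [mul_assoc, inv_mul_cancel_left] at this
  · by_cases e : l < 14
    · simp only [if_pos e]
      rcases Nat.eq_zero_or_pos l with rfl | e1
      · rw [M.zero]; exact one_mem _
      · have := mem_Qh h.es h.fr (w := [l]) (inR_iff.mpr (by simp; omega))
        rw [evL_singleton, evL_singleton] at this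
        exact Qh_le _ _ this
    · simp only [if_neg e]
      exact k l (by omega) hl

variable {g : ℕ → G}

theorem Pre0.word (P : Pre0 z Q a g) {w : List ℕ} (h : ∀ l ∈ w, l < 25) :
    (evL g w, evL e0 w) ∈ NN P.ch.es P.ch.fr := by
  rw [← evL_pr2]
  exact evL_mem_of_letters fun l hl => P.nn l (h l hl)

theorem Pre0.fa_word (P : Pre0 z Q a g) {w : List ℕ} (h : ∀ l ∈ w, l < 14) :
    evL g w = evL (fa z a) w := evL_congr fun l hl => P.fr l (h l hl)

theorem Pre0.g1 (P : Pre0 z Q a g) : g 1 = z := P.fr 1 (by norm_num)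

theorem Pre0.ga (P : Pre0 z Q a g) {i : ℕ} (hi : i < 12) : g (i + 2) = a i :=
  (P.fr _ (by omega)).trans (fa_a hi)

/-- Every element of the centraliser has a partner. -/
theorem Pre0.part (P : Pre0 z Q a g) {x : G} (hx : x * z = z * x) :
    ∃ x0, (x, x0) ∈ NN P.ch.es P.ch.fr := by
  obtain ⟨w, hw, h⟩ := P.ch.gen x hx
  obtain ⟨q0, k⟩ := exists_Qh P.ch.es P.ch.fr h
  have := mul_mem (Qh_le _ _ k) (P.word (w := w) fun l hl => (hw l hl).2)
  rw [Prod.mk_mul_mk, inv_mul_cancel_right] at this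
  exact ⟨_, this⟩

/-- Every element of the centraliser in the model has a partner. -/
theorem Pre0.part0 (P : Pre0 z Q a g) {x0 : Spor.J4} (hx : x0 ∈ C0) :
    ∃ x, (x, x0) ∈ NN P.ch.es P.ch.fr := by
  obtain ⟨w, hw, rfl⟩ := C0_word hx
  exact ⟨_, P.word fun l hl => (inR_spec hw l hl).2⟩

/-- The pairs are words in the letters up to `(z, 1)`. -/
theorem Pre0.nn_word (P : Pre0 z Q a g) {d : G × Spor.J4} (hd : d ∈ NN P.ch.es P.ch.fr) :
    ∃ w, inR 25 w = true ∧ d.2 = evL e0 w ∧ (d.1 = evL g w ∨ d.1 = z * evL g w) := by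
  obtain ⟨w, hw, e⟩ := C0_word (NN_C0 _ _ hd)
  exact ⟨w, hw, e.symm, NN_eq _ _ (c0 := d.2) hd
    (e ▸ P.word fun l hl => (inR_spec hw l hl).2)⟩

end Cfsg.J4R
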