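import Cfsg.Agent.J4R.M2
import Cfsg.Agent.J4R.V0

/-! Coset tables for subgroups generated by letters of the model. -/

set_option autoImplicit false
set_option maxRecDepth 100000

namespace Cfsg.J4R.M

open Cfsg.H6 Subgroup

/-- The subgroup generated by some letters. -/
noncomputable def wd (X : List ℕ) : Subgroup Spor.J4 := wds e0 X.elem fun l _ => sq_e0 l

theorem mem_wd {X w : List ℕ} (h : w.all X.elem = true) : evL e0 w ∈ wd X := ⟨w, h, rfl⟩

/-- A row of the coset table. -/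
noncomputable def rowOK (X Y : List ℕ) (Rs : List (List ℕ)) (T : List (List (ℕ × List ℕ)))
    (j : ℕ) : Bool :=
  Nat.ble X.length (T.getD j []).length && (X.zip (T.getD j [])).all fun e =>
    e.2.2.all Y.elem && Nat.blt e.2.1 Rs.length &&
      eqw (Rs.getD j [] ++ [e.1]) (e.2.2 ++ Rs.getD e.2.1 [])

theorem mem_zip_of {α β : Type} {X : List α} {T : List β} (h : X.length ≤ T.length) {x : α}
    (hx : x ∈ X) : ∃ t, (x, t) ∈ X.zip T := by
  obtain ⟨i, hi, rfl⟩ := List.getElem_of_mem hx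
  exact ⟨T[i]'(by omega), List.mem_iff_getElem.mpr ⟨i, by rw [List.length_zip]; omega, by simp⟩⟩

/-- The words `Rs` represent the cosets. -/
def Cv (X Y : List ℕ) (Rs : List (List ℕ)) : Prop :=
  ∀ y ∈ wd X, ∃ j < Rs.length, y * (evL e0 (Rs.getD j []))⁻¹ ∈ wd Y

theorem cv_of {X Y : List ℕ} {Rs : List (List ℕ)} {T : List (List (ℕ × List ℕ))}
    (h : ∀ j, 0 ≤ j → j < ([] :: Rs).length → rowOK X Y ([] :: Rs) T j = true) :
    Cv X Y ([] :: Rs) := by
  have k : ∀ w : List ℕ, w.all X.elem = true → ∀ j < ([] :: Rs).length, ∃ j' < ([] :: Rs).length,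
      evL e0 (([] :: Rs).getD j []) * evL e0 w * (evL e0 (([] :: Rs).getD j' []))⁻¹ ∈ wd Y := by
    intro w
    induction w with
    | nil => exact fun _ j hj => ⟨j, hj, by rw [evL_nil, mul_one, mul_inv_cancel]; exact one_mem _⟩
    | cons x w ih =>
      intro hw j hj
      rw [List.all_cons, Bool.and_eq_true] at hw
      have h1 := h j (Nat.zero_le _) hj
      simp only [rowOK, Bool.and_eq_true, Nat.ble_eq, List.all_eq_true (l := List.zip _ _),
        Nat.blt_eq] at h1
      obtain ⟨t, ht⟩ := mem_zip_of h1.1 (List.mem_of_elem_eq_true hw.1)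
      obtain ⟨⟨a1, a2⟩, a3⟩ := h1.2 _ ht
      obtain ⟨j', b1, b2⟩ := ih hw.2 _ a2
      have a4 := eqw_spec a3
      rw [evL_append, evL_append, evL_singleton] at a4
      refine ⟨j', b1, ?_⟩
      rw [evL_cons, ← mul_assoc, a4, mul_assoc, mul_assoc, ← mul_assoc (evL e0 (List.getD _ _ _))]
      exact mul_mem (mem_wd a1) b2
  rintro _ ⟨w, hw, rfl⟩
  obtain ⟨j, h1, h2⟩ := k w hw 0 (Nat.succ_pos _)
  exact ⟨j, h1, by simpa only [List.getD_cons_zero, evL_nil, one_mul] using h2⟩

theorem Cv.cover {X Y : List ℕ} {Rs : List (List ℕ)} (h : Cv X Y Rs) :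
    Cover (wd Y) (wd X) Rs.length := ⟨_, h⟩

/-- The set `F` is invariant under the letters of `Y`. -/
noncomputable def invOK (Y : List ℕ) (e : List (List ℕ) × List (List ℕ)) : Bool :=
  e.1.all (inR 14) && Nat.ble Y.length e.2.length && (Y.zip e.2).all fun u =>
    Nat.ble e.1.length u.2.length && (e.1.zip u.2).all fun f =>
      Nat.blt f.2 e.1.length && eqw ([u.1] ++ f.1 ++ [u.1].reverse) (e.1.getD f.2 [])

theorem inv_of {Y : List ℕ} {e : List (List ℕ) × List (List ℕ)} (h : invOK Y e = true)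
    {y : Spor.J4} (hy : y ∈ wd Y) :
    ∀ f ∈ e.1, ∃ f' ∈ e.1, y * evL e0 f * y⁻¹ = evL e0 f' := by
  obtain ⟨w, hw, rfl⟩ := hy
  simp only [invOK, Bool.and_eq_true, Nat.ble_eq, List.all_eq_true (l := List.zip _ _),
    Nat.blt_eq] at h
  induction w with
  | nil => exact fun f hf => ⟨f, hf, by simp [evL_nil]⟩
  | cons x w ih =>
    intro f hf
    rw [List.all_cons, Bool.and_eq_true] at hw
    obtain ⟨f', h1, h2⟩ := ih hw.2 f hf
    obtain ⟨t, ht⟩ := mem_zip_of h.1.2 (List.mem_of_elem_eq_true hw.1)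
    obtain ⟨a1, a2⟩ := h.2 _ ht
    obtain ⟨i, hi⟩ := mem_zip_of a1 h1
    obtain ⟨a3, a4⟩ := a2 _ hi
    refine ⟨e.1.getD i [], by rw [List.getD_eq_getElem _ _ a3]; exact List.getElem_mem a3, ?_⟩
    rw [← eqw_conj a4, ← h2, evL_cons, evL_singleton]
    group

/-- The element commutes with the first letters. -/
def Cn (c : Spor.J4) : Prop := ∀ l, 1 ≤ l → l < 14 → c * e0 l = e0 l * c

theorem Cn.word {c : Spor.J4} (h : Cn c) {f : List ℕ} (hf : inR 14 f = true) :
    c * evL e0 f = evL e0 f * c :=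
  (Cfsg.Co.Rc.mem_cen.mp (evL_mem_of_letters (K := centralizer {c}) fun l hl =>
    Cfsg.Co.Rc.mem_cen.mpr (h l (inR_spec hf l hl).1 (inR_spec hf l hl).2).symm)).symm

/-- The representative moves one of the invariant sets. -/
noncomputable def kilOK (Rs : List (List ℕ)) (E : List (List (List ℕ) × List (List ℕ)))
    (K : List (ℕ × ℕ)) (j : ℕ) : Bool :=
  Nat.blt (K.getD j (0, 0)).1 E.length &&
  Nat.blt (K.getD j (0, 0)).2 (E.getD (K.getD j (0, 0)).1 ([], [])).1.length &&
  ltB 26 (Rs.getD j []) &&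
  frcB (fun p => (E.getD (K.getD j (0, 0)).1 ([], [])).1.all fun f' => !Nat.beq p (app f' v0))
    (app (Rs.getD j [] ++ (E.getD (K.getD j (0, 0)).1 ([], [])).1.getD (K.getD j (0, 0)).2 [] ++
      (Rs.getD j []).reverse) v0)

theorem ltB_of_inR {f : List ℕ} (h : inR 14 f = true) : ltB 26 f = true :=
  List.all_eq_true.mpr fun x hx => Nat.blt_eq.mpr (by have := inR_spec h x hx; omega)

theorem Cv.sift {X Y : List ℕ} {Rs : List (List ℕ)} (h : Cv X Y ([] :: Rs))
    (E : List (List (List ℕ) × List (List ℕ))) (K : List (ℕ × ℕ))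
    (h1 : E.all (invOK Y) = true)
    (h2 : ((List.range ([] :: Rs).length).all fun j => Nat.beq j 0 || kilOK ([] :: Rs) E K j) = true)
    {c : Spor.J4} (hc : Cn c) (hX : c ∈ wd X) : c ∈ wd Y := by
  obtain ⟨j, hj, hm⟩ := h c hX
  have h3 := List.all_eq_true.mp h2 j (List.mem_range.mpr hj)
  rw [Bool.or_eq_true, Nat.beq_eq] at h3
  rcases h3 with rfl | h3
  · simpa only [List.getD_cons_zero, evL_nil, inv_one, mul_one] using hm
  exfalso
  simp only [kilOK, Bool.and_eq_true, Nat.blt_eq, frcB_eq, List.all_eq_true, Bool.not_eq_true'] at h3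
  obtain ⟨⟨⟨a1, a2⟩, a3⟩, a4⟩ := h3
  generalize ([] :: Rs).getD j [] = r at *
  have b1 : E.getD (K.getD j (0, 0)).1 ([], []) ∈ E := by
    rw [List.getD_eq_getElem _ _ a1]; exact List.getElem_mem a1
  generalize E.getD (K.getD j (0, 0)).1 ([], []) = e at *
  have b2 : e.1.getD (K.getD j (0, 0)).2 [] ∈ e.1 := by
    rw [List.getD_eq_getElem _ _ a2]; exact List.getElem_mem a2
  generalize e.1.getD (K.getD j (0, 0)).2 [] = f at *
  have b3 := List.all_eq_true.mp h1 e b1
  obtain ⟨f', c1, c2⟩ := inv_of b3 (inv_mem hm) f b2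
  have b4 : ∀ u ∈ e.1, inR 14 u = true := by
    simp only [invOK, Bool.and_eq_true] at b3
    exact List.all_eq_true.mp b3.1.1
  refine Nat.ne_of_beq_eq_false (a4 f' c1) (app_congr ?_ (ltB_of_inR (b4 f' c1)) ?_
    (by decide +kernel))
  · have := ltB_of_inR (b4 f b2)
    unfold ltB at *
    rw [List.all_append, List.all_append, List.all_reverse, a3, this]
    rfl
  · have e1 : evL e0 f = c⁻¹ * evL e0 f * c := by
      rw [mul_assoc, ← hc.word (b4 f b2), inv_mul_cancel_left]
    rw [evL_append, evL_append, e0_rev, ← c2]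
    conv_lhs => rw [e1]
    group

end Cfsg.J4R.M
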