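import Cfsg.Agent.J4R.MT0
import Cfsg.Agent.J4R.MT1
import Cfsg.Agent.J4R.MT2
import Cfsg.Agent.J4R.MS

/-! The centraliser of the central involution in the model. -/

set_option autoImplicit false
set_option maxRecDepth 100000
set_option Elab.async false

namespace Cfsg.J4R

open Cfsg.H6 Subgroup

namespace M

theorem cv0 : Cv X0 X1 ([] :: R0) :=
  cv_of (T := T0) (range_join (range_join (allR_range rows0 rfl) (allR_range rows1 rfl))
    (allR_range rows2 rfl))

theorem wd_eq {X : List ℕ} {m : ℕ} (h : X = List.range' 1 (m - 1)) {x : Spor.J4} :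
    x ∈ wd X ↔ ∃ w, inR m w = true ∧ evL e0 w = x := by
  have : X.elem = rg m := funext fun l => by
    rw [h, Bool.eq_iff_iff, rg_iff, List.elem_iff, List.mem_range'_1]
    omega
  change (∃ w : List ℕ, w.all X.elem = true ∧ evL e0 w = x) ↔ _
  rw [this]
  rfl

theorem wd_closure (X : List ℕ) : wd X = closure (e0 '' {l | l ∈ X}) := by
  apply le_antisymm
  · rintro _ ⟨w, hw, rfl⟩
    exact evL_mem_of_letters fun l hl =>
      subset_closure ⟨l, List.mem_of_elem_eq_true (List.all_eq_true.mp hw l hl), rfl⟩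
  · rw [closure_le]
    rintro _ ⟨l, hl, rfl⟩
    have := mem_wd (X := X) (w := [l]) (by simpa using hl)
    rwa [evL_singleton] at this

theorem last {c : Spor.J4} (h : c ∈ wd X22) : c = 1 ∨ c = e0 1 := by
  obtain ⟨w, hw, rfl⟩ := h
  induction w with
  | nil => exact Or.inl rfl
  | cons x w ih =>
    rw [List.all_cons, Bool.and_eq_true] at hw
    have e : x = 1 := List.mem_singleton.mp (List.mem_of_elem_eq_true hw.1)
    rw [evL_cons, e]
    rcases ih hw.2 with h | h <;> rw [h]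
    · exact Or.inr (mul_one _)
    · exact Or.inl (sq_e0 1)

theorem cen0 {c : Spor.J4} (hc : Cn c) (h : c ∈ wd X0) : c = 1 ∨ c = e0 1 :=
  last (sf21 cv21 hc (sf20 cv20 hc (sf19 cv19 hc (sf18 cv18 hc (sf17 cv17 hc (sf16 cv16 hc (sf15 cv15 hc (sf14 cv14 hc (sf13 cv13 hc (sf12 cv12 hc (sf11 cv11 hc (sf10 cv10 hc (sf9 cv9 hc (sf8 cv8 hc (sf7 cv7 hc (sf6 cv6 hc (sf5 cv5 hc (sf4 cv4 hc (sf3 cv3 hc (sf2 cv2 hc (sf1 cv1 hc (sf0 cv0 hc (h)))))))))))))))))))))))

theorem ub22 : UB (wd X22) 2 := by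
  have : Cover ⊥ (wd X22) 2 := ⟨fun j => if j = 0 then 1 else e0 1, fun y hy => by
    rcases last hy with rfl | rfl
    · exact ⟨0, by norm_num, by simp⟩
    · exact ⟨1, by norm_num, by simp⟩⟩
  exact (gen_nil e0 ▸ UB.bot : UB ⊥ 1).cover this

theorem ub_cast {K : Subgroup Spor.J4} {k N n N' : ℕ} (h : UB K (k * N)) (e : k = n)
    (e' : n * N = N') : UB K N' := e' ▸ e ▸ h

theorem ub21 : UB (wd X21) 4 :=
  ub_cast (ub22.cover cv21.cover) (n := 2) rfl (by norm_num)

theorem ub20 : UB (wd X20) 8 :=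
  ub_cast (ub21.cover cv20.cover) (n := 2) rfl (by norm_num)

theorem ub19 : UB (wd X19) 16 :=
  ub_cast (ub20.cover cv19.cover) (n := 2) rfl (by norm_num)

theorem ub18 : UB (wd X18) 32 :=
  ub_cast (ub19.cover cv18.cover) (n := 2) rfl (by norm_num)

theorem ub17 : UB (wd X17) 64 :=
  ub_cast (ub18.cover cv17.cover) (n := 2) rfl (by norm_num)

theorem ub16 : UB (wd X16) 128 :=
  ub_cast (ub17.cover cv16.cover) (n := 2) rfl (by norm_num)

theorem ub15 : UB (wd X15) 256 :=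
  ub_cast (ub16.cover cv15.cover) (n := 2) rfl (by norm_num)

theorem ub14 : UB (wd X14) 512 :=
  ub_cast (ub15.cover cv14.cover) (n := 2) rfl (by norm_num)

theorem ub13 : UB (wd X13) 1024 :=
  ub_cast (ub14.cover cv13.cover) (n := 2) rfl (by norm_num)

theorem ub12 : UB (wd X12) 2048 :=
  ub_cast (ub13.cover cv12.cover) (n := 2) rfl (by norm_num)

theorem ub11 : UB (wd X11) 4096 :=
  ub_cast (ub12.cover cv11.cover) (n := 2) rfl (by norm_num)

theorem ub10 : UB (wd X10) 8192 :=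
  ub_cast (ub11.cover cv10.cover) (n := 2) rfl (by norm_num)

theorem ub9 : UB (wd X9) 16384 :=
  ub_cast (ub10.cover cv9.cover) (n := 2) rfl (by norm_num)

theorem ub8 : UB (wd X8) 32768 :=
  ub_cast (ub9.cover cv8.cover) (n := 2) rfl (by norm_num)

theorem ub7 : UB (wd X7) 65536 :=
  ub_cast (ub8.cover cv7.cover) (n := 2) rfl (by norm_num)

theorem ub6 : UB (wd X6) 131072 :=
  ub_cast (ub7.cover cv6.cover) (n := 2) rfl (by norm_num)

theorem ub5 : UB (wd X5) 786432 :=
  ub_cast (ub6.cover cv5.cover) (n := 6) rfl (by norm_num)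

theorem ub4 : UB (wd X4) 2359296 :=
  ub_cast (ub5.cover cv4.cover) (n := 3) rfl (by norm_num)

theorem ub3 : UB (wd X3) 9437184 :=
  ub_cast (ub4.cover cv3.cover) (n := 4) rfl (by norm_num)

theorem ub2 : UB (wd X2) 47185920 :=
  ub_cast (ub3.cover cv2.cover) (n := 5) rfl (by norm_num)

theorem ub1 : UB (wd X1) 283115520 :=
  ub_cast (ub2.cover cv1.cover) (n := 6) rfl (by norm_num)

theorem ub0 : UB (wd X0) 21799895040 :=
  ub_cast (ub1.cover cv0.cover) (n := 77) rfl (by norm_num)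

end M

theorem zc0 : ∀ l < 25, eqw [l, 1] [1, l] = true := by decide +kernel

theorem e0_zc (l : ℕ) (h : l < 25) : e0 l * e0 1 = e0 1 * e0 l := by
  simpa only [evL_cons, evL_nil, mul_one] using eqw_spec (zc0 l h)

theorem cm0 : ∀ i < 12, ∀ j < 12, eqw [j + 2, i + 2]
    (if j = pr i then [1, i + 2, j + 2] else [i + 2, j + 2]) = true := by decide +kernel

/-- An element of the centraliser that commutes with the frame is central. -/
theorem cenQ0 (w : List ℕ) (hw : inR 25 w = true)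
    (h : ∀ i < 12, evL e0 w * e0 (i + 2) = e0 (i + 2) * evL e0 w) :
    evL e0 w = 1 ∨ evL e0 w = e0 1 := by
  refine M.cen0 (fun l h1 h2 => ?_) ((M.wd_eq (m := 25) rfl).mpr ⟨w, hw, rfl⟩)
  by_cases e : l = 1
  · rw [e]
    exact Cfsg.Co.Rc.mem_cen.mp (evL_mem_of_letters (K := centralizer {e0 1}) fun x hx =>
      Cfsg.Co.Rc.mem_cen.mpr (e0_zc x (inR_spec hw x hx).2))
  · have := h (l - 2) (by omega)
    rwa [show l - 2 + 2 = l by omega] at this

instance md : Md where
  fin := finiteJ4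
  sq l _ := sq_e0 l
  zero := e0_zero
  z1 := fun e => ne1_spec (w := [1]) (by decide +kernel) ((evL_singleton _ _).trans e)
  zc := e0_zc
  cm i hi j hj := by
    have := eqw_spec (cm0 i hi j hj)
    split_ifs at this ⊢ <;> simpa only [evL_cons, evL_nil, mul_one] using this
  cw := hCW
  cen := cenQ0

/-- The representatives of the 77 cosets. -/
def R77 (j : ℕ) : List ℕ := ([] :: M.R0).getD j []

theorem R77_inR : ∀ j < 77, inR 25 (R77 j) = true := by decide +kernel

theorem cover77w (w : List ℕ) (hw : inR 25 w = true) :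
    ∃ j < 77, ∃ u, inR 24 u = true ∧ evL e0 w = evL e0 u * evL e0 (R77 j) := by
  obtain ⟨j, hj, h⟩ := M.cv0 _ ((M.wd_eq (m := 25) rfl).mpr ⟨w, hw, rfl⟩)
  obtain ⟨u, h1, h2⟩ := (M.wd_eq (m := 24) rfl).mp h
  exact ⟨j, hj, u, h1, by rw [h2]; exact (inv_mul_cancel_right _ _).symm⟩

theorem X0_eq : M.wd M.X0 = closure (e0 '' Set.Icc 1 24) := by
  rw [M.wd_closure]
  congr 2
  ext l
  rw [Set.mem_Icc, show M.X0 = List.range' 1 24 from rfl, Set.mem_ofPred_eq, List.mem_range'_1]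
  omega

theorem X1_eq : M.wd M.X1 = closure (e0 '' Set.Icc 1 23) := by
  rw [M.wd_closure]
  congr 2
  ext l
  rw [Set.mem_Icc, show M.X1 = List.range' 1 23 from rfl, Set.mem_ofPred_eq, List.mem_range'_1]
  omega

theorem cover77 : Cover (closure (e0 '' Set.Icc 1 23)) (closure (e0 '' Set.Icc 1 24)) 77 :=
  X0_eq ▸ X1_eq ▸ M.cv0.cover

theorem C0_eq : C0 = closure (e0 '' Set.Icc 1 24) := by
  rw [← X0_eq]
  ext x
  exact (M.wd_eq (m := 25) rfl).symm

theorem card_U0 : Nat.card (closure (e0 '' Set.Icc 1 23)) ≤ 2048 * 138240 := (X1_eq ▸ M.ub1.2 :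
  Nat.card (closure (e0 '' Set.Icc 1 23)) ≤ 283115520)

theorem card_C0 : Nat.card (closure (e0 '' Set.Icc 1 24)) ≤ 8192 * 2661120 := (X0_eq ▸ M.ub0.2 :
  Nat.card (closure (e0 '' Set.Icc 1 24)) ≤ 21799895040)

end Cfsg.J4R
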