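import Cfsg.Agent.J4R.MT

set_option autoImplicit false
set_option maxRecDepth 100000
set_option Elab.async false

namespace Cfsg.J4R.M

open Cfsg.H6

theorem rows0 : allR (rowOK X0 X1 ([] :: R0) T0) 0 26 = true := by decide +kernel

end Cfsg.J4R.M
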