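import Cfsg.Agent.Co.C1
import Cfsg.Agent.H6.Leech2

/-! Generators `a b f j i` of `M₂₂`. -/

set_option autoImplicit false
set_option maxRecDepth 100000

namespace Cfsg.J4R.R

open Cfsg.H6 Cfsg.H4.Golay Cfsg.Co

noncomputable def ta : ℕ → ℕ := nthN [984818244535754528103549039458486304, 976531636853126291160407323722221600, 974428684320632006772068527414316064, 974338656214362718975024378963690560, 981975010775793189536846778427846688, 976280372515949150171239634345173024]

noncomputable def ti : ℕ → ℕ := nthN [984818244535754528103549039458486304, 972606645568131968584696805283956768, 980920017121645750808446692546908192, 974338656214362718975024378963690560, 980317993400365693420486004593373216, 973734613281564086962922452701323296]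

theorem hta : ∀ x < 6, Inverse (ta x) (ti x) ∧ okM (ta x) = true ∧ tb (ta x) 23 = 23 ∧
    tb (ta x) 0 = 0 := by decide +kernel

theorem prm_fix {τ σ : ℕ} (h : Inverse τ σ) {i : ℕ} (hi : i < 24) (e : tb τ i = i) :
    prm τ σ h (pt i) = pt i := by
  rw [← pt_idx (prm τ σ h _), idx_prm, idx_pt i hi, e]

theorem pt0 : pt 0 = some 0 := by decide

theorem pt23 : pt 23 = none := by decide

/-- The letters. -/
noncomputable def ev (x : ℕ) : Spor.M22 :=
  if h : x < 6 then ⟨prm _ _ (hta x h).1, ⟨okM_spec _ (hta x h).2.1,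
    pt23 ▸ prm_fix (hta x h).1 (by norm_num) (hta x h).2.2.1⟩,
    pt0 ▸ prm_fix (hta x h).1 (by norm_num) (hta x h).2.2.2⟩ else 1

noncomputable def img (x p : ℕ) : ℕ := tb (ti x) p

theorem lab : Lab Spor.M22.subtype ev pt img 24 6 := by
  refine ⟨fun x _ h p hp => ⟨?_, ((hta x h).1 p hp).2.1⟩,
    fun p hp q hq e => by rw [← idx_pt p hp, e, idx_pt q hq]⟩
  unfold ev
  rw [dif_pos h]
  change pt (tb (ti x) (idx (pt p))) = _
  rw [idx_pt p hp]
  rfl

theorem act : ∃ φ : Spor.M22 →* Equiv.Perm ℕ, IsAct φ ev img 24 6 :=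
  isAct_of_lab lab fun _ _ _ => ⟨_, idx_lt _, (pt_idx _).symm⟩

theorem l0 : lvlChk img 24 6 [] (1, [[3], [4], [5], [1, 1]], unp 21 (nat_lit 0x1401000005010000050000001100000013030000130200001301000004000000150300000b0300000703000007020000070100001203000008030000080000000c0300000c02000002020000020100000100)) = true := by
  decide +kernel

theorem l1 : lvlChk img 24 6 [1] (2, [[2], [4], [5], [3, 4, 3, 4, 3]], unp 20 (nat_lit 0xe0200000e0000000d0200000d000000050200000f030000060300001503000009030000090100000a020000030200000c0200000c00000004020000040100000400000002020000020100000200)) = true := by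
  decide +kernel

theorem l2 : lvlChk img 24 6 [2, 1] (3, [[4, 4], [3, 4, 3, 4, 3, 4], [1, 3, 4, 3, 4, 3, 4], [4, 5, 3, 4, 3, 4, 3, 5]], unp 19 (nat_lit 0x150200000f01000009020000090100000900000006020000060100000600000013020000110200000703000007020000160200000a030000040300000401000003030000030100000300)) = true := by
  decide +kernel

theorem l3 : lvlChk img 24 6 [3, 2, 1] (5, [[1]], unp 2 (nat_lit 0x110000000500)) = true := by
  decide +kernel

theorem l4 : lvlChk img 24 6 [5, 3, 2, 1] (4, [[4, 4, 2, 3, 4, 3, 4, 3, 2], [2, 2, 3, 4, 5, 3, 5, 4, 3, 2], [1, 2, 2, 3, 4, 3, 4, 3, 4, 2, 4], [3, 2, 3, 4, 5, 3, 5, 4, 2, 3, 2]], unp 15 (nat_lit 0x13030000100300000c03000008030000080200000a0300000f0300000f0200000703000007020000070100000403000004020000040100000400)) = true := by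
  decide +kernel


theorem card_le : Nat.card Spor.M22 ≤ 443520 := by
  have h : (fixS Cfsg.M24.subtype ([0, 23].map pt)).map Cfsg.M24.subtype = Spor.M22 := by
    ext g
    refine ⟨?_, fun a => ⟨⟨g, a.1.1⟩, fun b hb => ?_, rfl⟩⟩
    · rintro ⟨x, a, rfl⟩
      exact ⟨⟨x.2, pt23 ▸ a (pt 23) (by simp)⟩, pt0 ▸ a (pt 0) (by simp)⟩
    · simp only [List.map_cons, List.map_nil, List.mem_cons, List.not_mem_nil, or_false, pt0,
        pt23] at hb
      rcases hb with rfl | rfl
      exacts [a.2, a.1.2]
  rw [← h, Subgroup.card_map_of_injective Cfsg.M24.subtype_injective]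
  exact Leech.card_M22_le

def X5 : List (List ℕ) := [[1], [2], [3], [4], [5]]

theorem main : gen ev X5 = ⊤ ∧ Nat.card Spor.M22 = 443520 ∧ Oracle ev img 6 [4, 5, 3, 2, 1] := by
  obtain ⟨φ, hφ⟩ := act
  have lb : LBn φ (gen ev X5) 24 [4, 5, 3, 2, 1] 443520 :=
    LBn.cast ((((((LBn.nil φ _ 24).stepU hφ (mem_of_letChk (Ws := X5) (by decide +kernel)) l0).stepU hφ
      (mem_of_letChk (Ws := X5) (by decide +kernel)) l1).stepU hφ
      (mem_of_letChk (Ws := X5) (by decide +kernel)) l2).stepU hφ
      (mem_of_letChk (Ws := X5) (by decide +kernel)) l3).stepU hφ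
      (mem_of_letChk (Ws := X5) (by decide +kernel)) l4) (by norm_num)
  have hX : gen ev X5 = ⊤ := Subgroup.eq_top_of_le_card _ (card_le.trans lb.1.le_card)
  have := (hX ▸ lb : LBn φ ⊤ 24 _ _).oracle hφ card_le
  exact ⟨hX, this.1, this.2.2⟩

/-- The word is trivial. -/
noncomputable def chk (w : List ℕ) : Bool := fixB img 6 [4, 5, 3, 2, 1] w

theorem og {w : List ℕ} (h : chk w = true) : evL ev w = 1 := main.2.2 w h

end Cfsg.J4R.R
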