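import Cfsg.Agent.J4R.A1

/-! Coordinates on a module with 4096 vectors. -/

set_option autoImplicit false
set_option maxRecDepth 100000
set_option linter.unusedSectionVars false

namespace Cfsg.J4R.R

open Cfsg.H6 Finset

variable {X : Type*} [Group X] {V : Type*} [AddCommGroup V] [Module (ZMod 2) V]
  [DistribMulAction X V]

theorem vadd (v : V) : v + v = 0 := by
  rw [← two_smul (ZMod 2) v, show (2 : ZMod 2) = 0 from rfl, zero_smul]

theorem vadd' (u v : V) : u + (u + v) = v := by rw [← add_assoc, vadd, zero_add]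

theorem veq {u v : V} : u + v = 0 ↔ u = v :=
  ⟨fun h => by rw [← vadd' v u, add_comm v u, h, add_zero], fun h => h ▸ vadd u⟩

/-- The vector with given coordinates. -/
def vec (b : ℕ → V) (c : ℕ) : V := ∑ k ∈ range 12, if c.testBit k then b k else 0

theorem vec_xor (b : ℕ → V) (a c : ℕ) : vec b (a ^^^ c) = vec b a + vec b c := by
  rw [vec, vec, vec, ← sum_add_distrib]
  refine sum_congr rfl fun k _ => ?_
  rw [Nat.testBit_xor]
  cases a.testBit k <;> cases c.testBit k <;> simp [vadd]

theorem vec_zero (b : ℕ → V) : vec b 0 = 0 := by simp [vec]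

theorem vec_pow (b : ℕ → V) {k : ℕ} (hk : k < 12) : vec b (2 ^ k) = b k := by
  rw [vec, sum_eq_single k (fun j _ h => by simp [h.symm])
    (fun h => absurd (mem_range.mpr hk) h)]
  simp

theorem map_vec {W : Type*} [AddCommGroup W] {f : V → W} (h : ∀ u v, f (u + v) = f u + f v)
    (b : ℕ → V) (c : ℕ) : f (vec b c) = ∑ k ∈ range 12, if c.testBit k then f (b k) else 0 := by
  have e := map_sum (AddMonoidHom.mk' f h) (fun k => if c.testBit k then b k else 0) (range 12)
  refine e.trans (sum_congr rfl fun k _ => ?_)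
  split_ifs
  · rfl
  · exact map_zero _

/-- A row of a packed matrix. -/
noncomputable def row (M k : ℕ) : ℕ := Nat.land (Nat.shiftRight M (Nat.mul 12 k)) 4095

theorem row_lt (M k : ℕ) : row M k < 4096 := Nat.lt_succ_of_le Nat.and_le_right

theorem ap12_lt (M c : ℕ) : ap12 M c < 4096 := by
  change xv (row M) c 12 < 4096
  generalize 12 = n
  induction n with
  | zero => exact Nat.succ_pos _
  | succ n ih =>
    refine xor_lt ih ?_
    change Nat.land (Nat.shiftRight c n) 1 * row M n < 4096
    rw [land_one_testBit]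
    have := row_lt M n
    split_ifs <;> omega

theorem vec_ap (b : ℕ → V) (M c : ℕ) :
    vec b (ap12 M c) = ∑ k ∈ range 12, if c.testBit k then vec b (row M k) else 0 :=
  additive_xv (vec_xor b) _ _ _

/-- The element acts on coordinates as the matrix. -/
def Act (b : ℕ → V) (x : X) (M : ℕ) : Prop := ∀ c, x • vec b c = vec b (ap12 M c)

theorem act_of_basis {b : ℕ → V} {x : X} {M : ℕ} (h : ∀ k < 12, x • b k = vec b (row M k)) :
    Act b x M := fun c => by
  rw [vec_ap, map_vec (f := fun v => x • v) (smul_add x)]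
  exact sum_congr rfl fun k hk => by rw [h k (mem_range.mp hk)]

/-- A word applied to coordinates. -/
noncomputable def apw (Ms w : List ℕ) (c : ℕ) : ℕ :=
  @List.rec ℕ (fun _ => ℕ) c (fun l _ ih => frc (fun A => frc (ap12 A) ih) (nthN Ms l)) w

theorem apw_cons (Ms : List ℕ) (l : ℕ) (w : List ℕ) (c : ℕ) :
    apw Ms (l :: w) c = ap12 (nthN Ms l) (apw Ms w c) :=
  (frc_eq (fun A => frc (ap12 A) (apw Ms w c)) _).trans (frc_eq _ _)

theorem apw_lt (Ms w : List ℕ) {c : ℕ} (hc : c < 4096) : apw Ms w c < 4096 := by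
  cases w with
  | nil => exact hc
  | cons l w => rw [apw_cons]; exact ap12_lt _ _

/-- The letters act as the matrices. -/
def AL (b : ℕ → V) (g : ℕ → X) (Ms ls : List ℕ) : Prop := ∀ l ∈ ls, Act b (g l) (nthN Ms l)

variable {b : ℕ → V} {g : ℕ → X} {Ms ls : List ℕ}

theorem AL.w (h : AL b g Ms ls) {w : List ℕ} (hw : w.all ls.contains = true) (c : ℕ) :
    evL g w • vec b c = vec b (apw Ms w c) := by
  induction w with
  | nil => exact one_smul _ _
  | cons l w ih =>
    simp only [List.all_cons, Bool.and_eq_true, List.contains_iff_mem] at hw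
    rw [evL_cons, mul_smul, ih hw.2, h l hw.1, apw_cons]

/-- A basis. -/
structure Bs (b : ℕ → V) : Prop where
  inj : ∀ c < 4096, vec b c = 0 → c = 0
  surj : ∀ v, ∃ c < 4096, vec b c = v

theorem eq_of_inj (h : ∀ c < 4096, vec b c = 0 → c = 0) {a c : ℕ} (ha : a < 4096) (hc : c < 4096)
    (e : vec b a = vec b c) : a = c :=
  Nat.xor_eq_zero_iff.mp (h _ (xor_lt ha hc) (by rw [vec_xor, e, vadd]))

theorem Bs.eq (h : Bs b) {a c : ℕ} (ha : a < 4096) (hc : c < 4096) (e : vec b a = vec b c) : a = c :=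
  eq_of_inj h.inj ha hc e

theorem bs_of_inj (hc : Nat.card V = 4096) (h : ∀ c < 4096, vec b c = 0 → c = 0) : Bs b := by
  refine ⟨h, fun v => ?_⟩
  have : Finite V := Nat.finite_of_card_ne_zero (by omega)
  obtain ⟨c, e⟩ := ((Nat.bijective_iff_injective_and_card fun c : Fin 4096 => vec b c).mpr
    ⟨fun a c e => Fin.ext (eq_of_inj h a.2 c.2 e), by simp [hc]⟩).2 v
  exact ⟨c, c.2, e⟩

theorem p12 : ∀ k < 12, 2 ^ k < 4096 := by decide

/-- The two words act in the same way. -/
noncomputable def eqw (Ms u w : List ℕ) : Bool :=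
  [1, 2, 4, 8, 16, 32, 64, 128, 256, 512, 1024, 2048].all fun v => Nat.beq (apw Ms u v) (apw Ms w v)

theorem eqw_of (B : Bs b) (h : AL b g Ms ls) {u w : List ℕ}
    (hw : (u.all ls.contains && w.all ls.contains) = true) (e : evL g u = evL g w) :
    eqw Ms u w = true := by
  rw [Bool.and_eq_true] at hw
  refine List.all_eq_true.mpr fun v hv => Nat.beq_eq ▸ ?_
  have hv' : v < 4096 := by revert v; decide
  exact B.eq (apw_lt _ _ hv') (apw_lt _ _ hv') (by rw [← h.w hw.1, ← h.w hw.2, e])

/-- The action is faithful. -/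
def Fa (X V : Type*) [Group X] [AddCommGroup V] [DistribMulAction X V] : Prop :=
  ∀ x : X, (∀ v : V, x • v = v) → x = 1

theorem eq_of_basis (F : Fa X V) (B : Bs b) {x y : X} (h : ∀ k < 12, x • b k = y • b k) : x = y := by
  refine (inv_mul_eq_one.mp (F (y⁻¹ * x) fun v => ?_)).symm
  obtain ⟨c, -, rfl⟩ := B.surj v
  rw [mul_smul, inv_smul_eq_iff, map_vec (f := fun v => x • v) (smul_add x),
    map_vec (f := fun v => y • v) (smul_add y)]
  exact sum_congr rfl fun k hk => by rw [h k (mem_range.mp hk)]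

theorem eq_of_eqw (F : Fa X V) (B : Bs b) (h : AL b g Ms ls) {u w : List ℕ}
    (hw : (u.all ls.contains && w.all ls.contains) = true) (e : eqw Ms u w = true) :
    evL g u = evL g w := by
  rw [Bool.and_eq_true] at hw
  refine eq_of_basis F B fun k hk => ?_
  have := List.all_eq_true.mp e (2 ^ k) (by revert k; decide)
  rw [← vec_pow b hk, h.w hw.1, h.w hw.2, Nat.eq_of_beq_eq_true this]

/-- Packing a list of rows. -/
noncomputable def pk (L : List ℕ) : ℕ :=
  @List.rec ℕ (fun _ => ℕ) 0 (fun x _ ih => Nat.add x (Nat.mul 4096 ih)) L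

theorem row_pk (L : List ℕ) (h : ∀ x ∈ L, x < 4096) (k : ℕ) : row (pk L) k = L.getD k 0 := by
  have e : ∀ M k, row M k = M / 2 ^ (12 * k) % 4096 := fun M k => by
    rw [← Nat.shiftRight_eq_div_pow]
    exact Nat.and_two_pow_sub_one_eq_mod _ 12
  rw [e]
  induction L generalizing k with
  | nil => simp [show pk [] = 0 from rfl]
  | cons x L ih =>
    obtain ⟨h1, h2⟩ := List.forall_mem_cons.mp h
    rw [show pk (x :: L) = x + 4096 * pk L from rfl]
    cases k with
    | zero => simp; omega
    | succ k =>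
      rw [List.getD_cons_succ, ← ih h2, Nat.mul_succ, pow_add, mul_comm (2 ^ (12 * k)),
        ← Nat.div_div_eq_div_mul]
      congr 2
      omega

/-- The matrix with the given rows. -/
noncomputable def mat (r : ℕ → ℕ) : ℕ := pk ([0, 1, 2, 3, 4, 5, 6, 7, 8, 9, 10, 11].map r)

theorem act_mat {x : X} {r : ℕ → ℕ} (h1 : ∀ k, r k < 4096) (h : ∀ k < 12, x • b k = vec b (r k)) :
    Act b x (mat r) := act_of_basis fun k hk => by
  rw [h k hk, mat, row_pk _ (fun x hx => by obtain ⟨k, -, rfl⟩ := List.mem_map.mp hx; exact h1 k)]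
  interval_cases k <;> rfl

/-- The change of basis intertwines the two matrices. -/
noncomputable def cj (T M N : ℕ) : Bool :=
  allR (fun k => Nat.beq (ap12 M (row T k)) (ap12 T (row N k))) 0 12

theorem vec_ch (b : ℕ → V) (T c : ℕ) : vec (fun k => vec b (row T k)) c = vec b (ap12 T c) :=
  (vec_ap b T c).symm

theorem Act.ch {x : X} {T M N : ℕ} (h : Act b x M) (e : cj T M N = true) :
    Act (fun k => vec b (row T k)) x N := act_of_basis fun k hk => by
  rw [vec_ch, h, Nat.eq_of_beq_eq_true (allR_range e rfl k (Nat.zero_le _) hk)]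

/-- The matrix is injective. -/
noncomputable def injB (T : ℕ) : Bool := allR (fun c => !Nat.beq (ap12 T c) 0) 1 4095

theorem Bs.ch (hc : Nat.card V = 4096) (B : Bs b) {T : ℕ} (e : injB T = true) :
    Bs fun k => vec b (row T k) := bs_of_inj hc fun c h1 h2 => by
  by_contra h
  have := allR_range e rfl c (by omega) h1
  rw [vec_ch] at h2
  simp [B.inj _ (ap12_lt _ _) h2] at this

end Cfsg.J4R.R
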