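import Cfsg.Agent.J4R.R0
import Mathlib.GroupTheory.Transfer

/-! Generators and relations of a perfect central extension of `M₂₂` by a group of order three. -/

set_option autoImplicit false
set_option maxRecDepth 100000

namespace Cfsg.J4R.R

open Cfsg.H6 Subgroup

/-- A positive word for the inverse. -/
def iw (w : List ℕ) : List ℕ := w.reverse.flatMap fun l => List.replicate ([0, 2, 2, 1, 3, 3].getD l 2) l

theorem og2 {u w : List ℕ} (h : (chk (u ++ iw w) && chk (w ++ iw w)) = true) :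
    evL ev u = evL ev w := by
  rw [Bool.and_eq_true] at h
  have h1 := og h.1
  have h2 := og h.2
  rw [evL_append] at h1 h2
  exact mul_right_cancel (h1.trans h2.symm)

theorem evL_rep {G : Type*} [Group G] (g : ℕ → G) (n l : ℕ) : evL g (List.replicate n l) = g l ^ n := by
  induction n with
  | zero => simp [evL_nil]
  | succ n ih => rw [List.replicate_succ, evL_cons, ih, pow_succ']

/-- The words of the Sylow subgroup. -/
def tw (x y z : ℕ) : List ℕ := List.replicate x 1 ++ (List.replicate y 2 ++ List.replicate z 6)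

theorem evL_tw {G : Type*} [Group G] (g : ℕ → G) (x y z : ℕ) :
    evL g (tw x y z) = g 1 ^ x * (g 2 ^ y * g 6 ^ z) := by
  simp only [tw, evL_append, evL_rep]

theorem syl : ∃ S : Sylow 3 Spor.M22, ∀ s, s ∈ S ↔ ∃ x < 3, ∃ y < 3, s = ev 1 ^ x * ev 2 ^ y := by
  have : Fact (Nat.Prime 3) := ⟨Nat.prime_three⟩
  have c : Commute (ev 1) (ev 2) := by
    simpa [evL_cons, evL_nil, commute_iff_eq] using og2 (u := [1, 2]) (w := [2, 1]) (by decide +kernel)
  have a3 : ev 1 ^ 3 = 1 := by rw [← evL_rep]; exact og (by decide +kernel)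
  have b3 : ev 2 ^ 3 = 1 := by rw [← evL_rep]; exact og (by decide +kernel)
  have m : ∀ x y x' y' : ℕ, ev 1 ^ x * ev 2 ^ y * (ev 1 ^ x' * ev 2 ^ y') =
      ev 1 ^ (x + x') * ev 2 ^ (y + y') := fun x y x' y' => by
    rw [pow_add, pow_add, mul_assoc, ← mul_assoc (ev 2 ^ y), ← (c.pow_pow x' y).eq]
    simp only [mul_assoc]
  have t : ∀ x y : ℕ, ev 1 ^ (3 * x) * ev 2 ^ (3 * y) = 1 := fun x y => by
    simp [pow_mul, a3, b3]
  let P : Subgroup Spor.M22 :=
    { carrier := {s | ∃ x y : ℕ, s = ev 1 ^ x * ev 2 ^ y}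
      mul_mem' := by
        rintro _ _ ⟨x, y, rfl⟩ ⟨x', y', rfl⟩
        exact ⟨_, _, m x y x' y'⟩
      one_mem' := ⟨0, 0, by simp⟩
      inv_mem' := by
        rintro _ ⟨x, y, rfl⟩
        refine ⟨2 * x, 2 * y, inv_eq_of_mul_eq_one_right ?_⟩
        rw [m, ← t x y]
        congr 2 <;> ring }
  have hP : IsPGroup 3 P := by
    rintro ⟨_, x, y, rfl⟩
    refine ⟨1, Subtype.ext ?_⟩
    change (ev 1 ^ x * ev 2 ^ y) ^ 3 ^ 1 = 1
    rw [pow_one, (c.pow_pow x y).mul_pow, ← pow_mul, ← pow_mul, mul_comm x, mul_comm y, t]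
  have h9 : 9 ≤ Nat.card P := by
    obtain ⟨φ, hφ⟩ := act
    have k : ∀ u v : Fin 3 × Fin 3, (∀ p < 24, trF img (tw u.1 u.2 0) p = trF img (tw v.1 v.2 0) p) →
        u = v := by decide +kernel
    have r : ∀ u : Fin 3 × Fin 3, inR 6 (tw u.1 u.2 0) = true := by decide +kernel
    have := Nat.card_le_card_of_injective (fun u : Fin 3 × Fin 3 =>
      (⟨ev 1 ^ u.1.1 * ev 2 ^ u.2.1, _, _, rfl⟩ : P)) fun u v e => k u v fun p hp => by
        rw [← (hφ.trF (r u) hp).1, ← (hφ.trF (r v) hp).1, evL_tw, evL_tw, pow_zero, mul_one, mul_one,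
          show ev 1 ^ u.1.1 * ev 2 ^ u.2.1 = _ from congrArg Subtype.val e]
    simpa using this
  refine ⟨hP.toSylow fun h => ?_, fun s => ⟨?_, fun ⟨x, _, y, _, e⟩ => ⟨x, y, e⟩⟩⟩
  · obtain ⟨n, hn⟩ := IsPGroup.iff_card.mp hP
    have h1 := P.card_mul_index
    rw [main.2.1, hn] at h1
    have h2 : 2 ≤ n := by
      by_contra hc
      have : n = 0 ∨ n = 1 := by omega
      rcases this with rfl | rfl <;> omega
    have := mul_dvd_mul (pow_dvd_pow 3 h2) h
    rw [h1] at this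
    norm_num at this
  · rintro ⟨x, y, rfl⟩
    exact ⟨x % 3, Nat.mod_lt _ (by norm_num), y % 3, Nat.mod_lt _ (by norm_num), by
      rw [← pow_eq_pow_mod x a3, ← pow_eq_pow_mod y b3]⟩

variable {H : Type*} [Group H] {π : H →* Spor.M22}

/-- A perfect central extension with kernel of order three. -/
structure Cv (π : H →* Spor.M22) : Prop where
  surj : Function.Surjective π
  kc : Nat.card π.ker = 3
  cen : ∀ k, π k = 1 → ∀ h, h * k = k * h
  perf : commutator H = ⊤

theorem Cv.cube (C : Cv π) {k : H} (hk : π k = 1) : k ^ 3 = 1 := by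
  have := pow_card_eq_one' (G := π.ker) (x := ⟨k, hk⟩)
  rw [C.kc] at this
  exact congrArg Subtype.val this

theorem Cv.inv_eq (C : Cv π) {x y : H} (e : π x = π y) (hx : x * x = 1) (hy : y * y = 1) :
    x = y := by
  have hk : π (x * y⁻¹) = 1 := by simp [e]
  have h3 := C.cube hk
  have hc := C.cen _ hk y
  rw [← mul_inv_eq_one]
  rw [show x = x * y⁻¹ * y by group] at hx
  generalize x * y⁻¹ = k at *
  rw [mul_assoc, ← mul_assoc y, hc, mul_assoc, hy, mul_one] at hx
  rwa [pow_succ, pow_two, hx, one_mul] at h3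

/-- The generators `a b f j i d` and their relations. -/
structure Gn {X : Type*} [Group X] (H : Subgroup X) (g : ℕ → X) : Prop where
  nrm : H.Normal
  idx : ∀ x y, x ∉ H → y ∉ H → x * y⁻¹ ∈ H
  mem : ∀ l, g l ∈ H
  rel : ∀ w, chk w = true → ∃ z < 3, evL g w = g 6 ^ z
  gen : ∀ h ∈ H, ∃ w, inR 7 w = true ∧ h = evL g w
  cen : ∀ h ∈ H, h * g 6 = g 6 * h
  d1 : g 6 ≠ 1
  ab : g 1 * g 2 = g 6 * (g 2 * g 1)
  ex : ∀ p ∈ [([6, 6, 6], []), ([1, 1, 1], []), ([2, 2, 2], []), ([3, 3], []), ([4, 4, 4, 4], []),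
    ([5, 5], [4, 4]), ([4, 4, 1, 4, 4, 1], []), ([4, 4, 2, 4, 4, 2], []), ([5, 1], [2, 5]),
    ([5, 2], [1, 1, 5]), ([3, 1], [1, 3]), ([3, 2, 2, 3, 2], [2, 2, 3, 2, 3]),
    ([3, 2, 2, 3, 2], [2, 3, 2, 2]),
    ([1, 4, 3, 4, 1, 3, 4, 3, 4, 3], [4, 4, 1, 4, 3, 4, 1, 3, 4, 3, 4])], evL g p.1 = evL g p.2
  out : ∃ c ∉ H, (∃ x < 3, ∃ y < 3, ∃ z < 3, c * g 1 * c⁻¹ = evL g (tw x y z)) ∧
    (∃ x < 3, ∃ y < 3, ∃ z < 3, c * g 2 * c⁻¹ = evL g (tw x y z)) ∧
    ∃ z < 3, c * g 6 * c⁻¹ = g 6 ^ z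

theorem Cv.lifts (C : Cv π) : ∃ a b f j i : H, π a = ev 1 ∧ π b = ev 2 ∧ π f = ev 3 ∧ π j = ev 4 ∧
    π i = ev 5 ∧ a * (a * a) = 1 ∧ f * f = 1 ∧ j * j * (j * j) = 1 ∧ i * i = j * j ∧
    j * j * a * (j * j) = a⁻¹ ∧ b = i * a * i⁻¹ := by
  obtain ⟨a, ha⟩ := C.surj (ev 1)
  obtain ⟨f, hf⟩ := C.surj (ev 3)
  obtain ⟨j, hj⟩ := C.surj (ev 4)
  obtain ⟨i, hi⟩ := C.surj (ev 5)
  have o : ∀ l n, chk (List.replicate n l) = true → ev l ^ n = 1 := fun l n h => by
    rw [← evL_rep]; exact og h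
  have o3 := o 3 2 (by decide +kernel)
  have o4 := o 4 4 (by decide +kernel)
  have o5 := o 5 4 (by decide +kernel)
  have f6 := C.cube (k := f ^ 2) (by rw [map_pow, hf, o3])
  have j6 := C.cube (k := j ^ 4) (by rw [map_pow, hj, o4])
  have i6 := C.cube (k := i ^ 4) (by rw [map_pow, hi, o5])
  have pf : π (f ^ 3) = ev 3 := by rw [map_pow, hf, pow_succ, o3, one_mul]
  have pj : π (j ^ 9) = ev 4 := by rw [map_pow, hj, pow_eq_pow_mod 9 o4]; simp
  have pi : π (i ^ 9) = ev 5 := by rw [map_pow, hi, pow_eq_pow_mod 9 o5]; simp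
  have ff : f ^ 3 * f ^ 3 = 1 := by rw [← f6]; group
  have jj : j ^ 9 * j ^ 9 * (j ^ 9 * j ^ 9) = 1 := by
    rw [show j ^ 9 * j ^ 9 * (j ^ 9 * j ^ 9) = ((j ^ 4) ^ 3) ^ 3 by group, j6, one_pow]
  have ii : i ^ 9 * i ^ 9 * (i ^ 9 * i ^ 9) = 1 := by
    rw [show i ^ 9 * i ^ 9 * (i ^ 9 * i ^ 9) = ((i ^ 4) ^ 3) ^ 3 by group, i6, one_pow]
  generalize f ^ 3 = f' at pf ff
  generalize j ^ 9 = j' at pj jj
  generalize i ^ 9 = i' at pi ii
  have ij : i' * i' = j' * j' := C.inv_eq (by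
    simpa [evL_cons, evL_nil, pi, pj] using og2 (u := [5, 5]) (w := [4, 4]) (by decide +kernel)) ii jj
  have e1 := og2 (u := [1, 1, 4, 4]) (w := [1, 4, 4, 1, 1]) (by decide +kernel)
  have e2 := og2 (u := [5, 1]) (w := [2, 5]) (by decide +kernel)
  simp only [evL_cons, evL_nil, mul_one] at e1 e2
  have ps : π (j' * j') = ev 4 * ev 4 := by rw [map_mul, pj]
  have pa : π (a * a * (j' * j') * (a * a)⁻¹ * (j' * j')) = ev 1 := by
    have s2 : ev 4 * ev 4 * (ev 4 * ev 4) = 1 := by rw [← o4]; simp only [pow_succ, pow_zero, one_mul, mul_assoc]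
    simp only [map_mul, map_inv, ha, pj]
    rw [mul_assoc (ev 1) (ev 1), e1]
    calc _ = ev 1 * (ev 4 * ev 4 * (ev 4 * ev 4)) := by group
      _ = _ := by rw [s2, mul_one]
  have sa : j' * j' * (a * a * (j' * j') * (a * a)⁻¹ * (j' * j')) * (j' * j') =
      (a * a * (j' * j') * (a * a)⁻¹ * (j' * j'))⁻¹ := by
    generalize j' * j' = s at *
    have : s⁻¹ = s := inv_eq_of_mul_eq_one_right jj
    simp only [mul_inv_rev, this, inv_inv, mul_assoc, jj, mul_one]
  generalize a * a * (j' * j') * (a * a)⁻¹ * (j' * j') = a' at pa sa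
  refine ⟨a', _, f', j', i', pa, ?_, pf, pj, pi, ?_, ff, jj, ij, sa, rfl⟩
  · rw [map_mul, map_mul, map_inv, pi, pa, e2, mul_inv_cancel_right]
  · have k : π (a' ^ 3) = 1 := by rw [map_pow, pa]; exact o 1 3 (by decide +kernel)
    have k1 := C.cen _ k (j' * j')
    have k2 := C.cube k
    generalize j' * j' = s at *
    have k3 : s * a' ^ 3 * s = (a' ^ 3)⁻¹ := by
      rw [← inv_pow, ← sa]
      have : s⁻¹ = s := inv_eq_of_mul_eq_one_right jj
      nth_rewrite 2 4 [← this]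
      rw [conj_pow]
    rw [k1, mul_assoc, jj, mul_one] at k3
    rw [pow_succ (a' ^ 3), pow_two] at k2
    nth_rewrite 1 [k3] at k2
    rw [inv_mul_cancel, one_mul] at k2
    rw [← k2]; simp only [pow_succ, pow_zero, one_mul, mul_assoc]

theorem Cv.ne [Finite H] (C : Cv π) {T : Sylow 3 H} (hT : ∀ u ∈ T, ∀ v ∈ T, u * v = v * u) : False := by
  have : Fact (Nat.Prime 3) := ⟨Nat.prime_three⟩
  let _ : CommGroup (T : Subgroup H) :=
    { (inferInstance : Group (T : Subgroup H)) with mul_comm := fun u v => Subtype.ext (hT _ u.2 _ v.2) }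
  have : Nontrivial π.ker := Finite.one_lt_card_iff_nontrivial.mp (by rw [C.kc]; norm_num)
  obtain ⟨⟨k, hk⟩, k1⟩ := exists_ne (1 : π.ker)
  have h1 := MonoidHom.transfer_eq_pow (MonoidHom.id (T : Subgroup H)) k fun n g _ => by
    rw [mul_assoc, ← C.cen (k ^ n) (by rw [map_pow, show π k = 1 from hk, one_pow]) g, inv_mul_cancel_left]
  have h2 := Abelianization.commutator_subset_ker (MonoidHom.transfer (MonoidHom.id (T : Subgroup H)))
    (C.perf ▸ mem_top k)
  rw [MonoidHom.mem_ker, h1] at h2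
  have h3 : k ^ (T : Subgroup H).index = 1 := congrArg Subtype.val h2
  exact k1 (Subtype.ext (orderOf_eq_one_iff.mp (Nat.eq_one_of_dvd_coprimes
    ((Nat.Prime.coprime_iff_not_dvd Nat.prime_three).mpr T.not_dvd_index)
    (orderOf_dvd_of_pow_eq_one (C.cube hk)) (orderOf_dvd_of_pow_eq_one h3))))

theorem exists_gn {X : Type*} [Group X] [Finite X] {H : Subgroup X} {π : H →* Spor.M22} (C : Cv π)
    (hi : H.index = 2) (hk : ∀ (x : X) (k : H), π k = 1 → ∃ k' : H, π k' = 1 ∧ x * k * x⁻¹ = k') :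
    ∃ g, Gn H g := by
  have : Fact (Nat.Prime 3) := ⟨Nat.prime_three⟩
  have hn : H.Normal := normal_of_index_eq_two hi
  obtain ⟨a, b, f, j, i, pa, pb, pf, pj, pi, a3, ff, jj, ij, sa, hb⟩ := C.lifts
  obtain ⟨S, hS⟩ := syl
  let T : Sylow 3 H := S.comapOfKerIsPGroup π (IsPGroup.of_card (n := 1) C.kc)
    (by rw [MonoidHom.range_eq_top.mpr C.surj]; exact le_top)
  have hT : ∀ u, u ∈ T ↔ ∃ x < 3, ∃ y < 3, ∃ k, π k = 1 ∧ u = a ^ x * (b ^ y * k) := fun u =>
    (hS (π u)).trans ⟨fun ⟨x, hx, y, hy, e⟩ => ⟨x, hx, y, hy, (a ^ x * b ^ y)⁻¹ * u,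
      by simp [pa, pb, e], by group⟩,
      fun ⟨x, hx, y, hy, k, h, e⟩ => ⟨x, hx, y, hy, by simp [e, pa, pb, h]⟩⟩
  let g : ℕ → H := fun l => [1, a, b, f, j, i, a * b * a⁻¹ * b⁻¹].getD l 1
  have pg : ∀ w, inR 6 w = true → π (evL g w) = evL ev w := fun w hw => by
    have hw' := inR_spec hw
    clear hw
    induction w with
    | nil => exact map_one π
    | cons l w ih =>
      obtain ⟨⟨h1, h2⟩, h3⟩ := List.forall_mem_cons.mp hw'
      rw [evL_cons, evL_cons, map_mul, ih h3]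
      congr 1
      interval_cases l <;> assumption
  have pd : π (g 6) = 1 := by
    have := og2 (u := [1, 2]) (w := [2, 1]) (by decide +kernel)
    simp only [evL_cons, evL_nil, mul_one] at this
    change π (a * b * a⁻¹ * b⁻¹) = 1
    simp only [map_mul, map_inv, pa, pb, this, mul_inv_cancel_right, mul_inv_cancel]
  have d1 : g 6 ≠ 1 := fun h => C.ne (T := T) fun u hu v hv => by
    obtain ⟨x, -, y, -, k, hk, rfl⟩ := (hT u).mp hu
    obtain ⟨x', -, y', -, k', hk', rfl⟩ := (hT v).mp hv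
    have c : Commute a b := commutatorElement_eq_one_iff_commute.mp h
    have c1 : ∀ h, Commute h k := C.cen k hk
    have c2 : ∀ h, Commute h k' := C.cen k' hk'
    exact ((((Commute.refl a).pow_pow x x').mul_right ((c.pow_pow x y').mul_right (c2 _))).mul_left
      ((((c.pow_pow x' y).symm).mul_right (((Commute.refl b).pow_pow y y').mul_right (c2 _))).mul_left
        (c1 _).symm)).eq
  have kd : ∀ k, π k = 1 → ∃ z < 3, k = g 6 ^ z := fun k hk => by
    obtain ⟨n, e⟩ := mem_powers_of_prime_card C.kc (g := ⟨g 6, pd⟩) (g' := ⟨k, hk⟩)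
      fun h => d1 (congrArg Subtype.val h)
    exact ⟨n % 3, Nat.mod_lt _ (by norm_num), by
      rw [← pow_eq_pow_mod n (C.cube pd)]; exact (congrArg Subtype.val e).symm⟩
  have cv : ∀ w, evL (fun l => (g l : X)) w = (evL g w : H) := fun w => by
    induction w with
    | nil => rfl
    | cons l w ih => rw [evL_cons, evL_cons, ih]; rfl
  have iv : ∀ u w, (inR 6 u && inR 6 w && (chk (u ++ iw w) && chk (w ++ iw w))) = true →
      evL g u * evL g u = 1 → evL g w * evL g w = 1 → evL g u = evL g w := fun u w h h1 h2 => by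
    rw [Bool.and_eq_true, Bool.and_eq_true] at h
    exact C.inv_eq (by rw [pg u h.1.1, pg w h.1.2, og2 h.2]) h1 h2
  have ai : a * a = a⁻¹ := eq_inv_of_mul_eq_one_right a3
  have b3 : b * (b * b) = 1 := by
    rw [hb]; calc _ = i * (a * (a * a)) * i⁻¹ := by group
      _ = 1 := by rw [a3]; group
  have bi : b * b = b⁻¹ := eq_inv_of_mul_eq_one_right b3
  have cf : ∀ x : H, x * f * x⁻¹ * (x * f * x⁻¹) = 1 := fun x => by
    calc _ = x * (f * f) * x⁻¹ := by group
      _ = 1 := by rw [ff]; group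
  have fi : f⁻¹ = f := inv_eq_of_mul_eq_one_right ff
  have gv : g 1 = a ∧ g 2 = b ∧ g 3 = f ∧ g 4 = j ∧ g 5 = i := ⟨rfl, rfl, rfl, rfl, rfl⟩
  have r1 : a * (f * (a * a)) = f := by
    have := iv [1, 3, 1, 1] [3] (by decide +kernel)
    simp only [evL_cons, evL_nil, mul_one, gv, ai, ← mul_assoc] at this ⊢
    exact this (by simpa only [mul_assoc] using cf a) ff
  have r2 : f * (b * b * f * b) * f = b * b * f * b := by
    have := iv [3, 2, 2, 3, 2, 3] [2, 2, 3, 2] (by decide +kernel)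
    simp only [evL_cons, evL_nil, mul_one, gv, bi, ← mul_assoc] at this ⊢
    refine this ?_ ?_
    · have := cf (f * b⁻¹)
      simpa only [mul_assoc, mul_inv_rev, inv_inv, fi] using this
    · simpa only [mul_assoc, inv_inv] using cf b⁻¹
  have r2' : f * (b * (b * (f * b))) = b * (b * (f * (b * f))) := by
    calc _ = f * (b * b * f * b) * f * f⁻¹ := by group
      _ = _ := by rw [r2, fi]; group
  have r3 : f * (b * (b * (f * b))) = b * (f * (b * b)) := by
    have := iv [3, 2, 2, 3, 2] [2, 3, 2, 2] (by decide +kernel)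
    simp only [evL_cons, evL_nil, mul_one, gv] at this
    refine this ?_ (by rw [bi]; simpa only [mul_assoc] using cf b)
    calc _ = f * (b * b * f * b) * f * (b * b * f * b) := by group
      _ = 1 := by rw [r2, bi]; simpa only [mul_assoc, inv_inv] using cf b⁻¹
  have r4 : evL g [1, 4, 3, 4, 1, 3, 4, 3, 4] * f * (evL g [1, 4, 3, 4, 1, 3, 4, 3, 4])⁻¹ = j * j := by
    refine C.inv_eq ?_ (cf _) jj
    have := og2 (u := [1, 4, 3, 4, 1, 3, 4, 3, 4] ++ [3]) (w := [4, 4] ++ [1, 4, 3, 4, 1, 3, 4, 3, 4])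
      (by decide +kernel)
    rw [evL_append, evL_append, evL_singleton] at this
    rw [map_mul, map_mul, map_inv, pg _ (by decide), pf, this, mul_inv_cancel_right, map_mul, pj]
    simp [evL_cons, evL_nil]
  have sb : j * j * b * (j * j) = b⁻¹ := by
    rw [hb, ← ij]
    calc _ = i * (i * i * a * (i * i)) * i⁻¹ := by group
      _ = _ := by rw [ij, sa]; group
  refine ⟨fun l => g l, hn, fun x y hx hy => ?_, fun l => (g l).2, fun w hw => ?_, fun h hh => ?_,
    fun h hh => congrArg Subtype.val (C.cen _ pd ⟨h, hh⟩), fun h => d1 (Subtype.ext h), ?_, ?_, ?_⟩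
  · exact (mul_mem_iff_of_index_two hi).mpr (by simp [hx, hy])
  · have hw' : inR 6 w = true := (Bool.and_eq_true_iff.mp hw).1
    obtain ⟨z, hz, e⟩ := kd _ ((pg w hw').trans (og hw))
    exact ⟨z, hz, by rw [cv, e]; rfl⟩
  · let W : Submonoid H :=
      { carrier := {h | ∃ w, inR 7 w = true ∧ h = evL g w}
        mul_mem' := by
          rintro _ _ ⟨u, hu, rfl⟩ ⟨w, hw, rfl⟩
          exact ⟨u ++ w, by unfold inR at *; rw [List.all_append, hu, hw]; rfl, (evL_append _ _ _).symm⟩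
        one_mem' := ⟨[], rfl, rfl⟩ }
    let W' : Subgroup H := { W with
      inv_mem' := fun {x} hx => Submonoid.powers_le.mpr hx
        ((isOfFinOrder_of_finite x).mem_powers_iff_mem_zpowers.mpr (inv_mem (mem_zpowers x))) }
    have h1 : gen ev X5 ≤ W'.map π := gen_le fun w hw =>
      ⟨evL g w, ⟨w, by revert w; decide, rfl⟩, pg w (by revert w; decide)⟩
    obtain ⟨u, hu, e⟩ := h1 (main.1 ▸ mem_top (π ⟨h, hh⟩))
    obtain ⟨z, -, e'⟩ := kd (u⁻¹ * ⟨h, hh⟩) (by simp [e])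
    obtain ⟨w, hw, e2⟩ : (⟨h, hh⟩ : H) ∈ W' := by
      rw [inv_mul_eq_iff_eq_mul.mp e']
      exact W'.mul_mem hu (W'.pow_mem ⟨[6], by decide, (evL_singleton _ _).symm⟩ z)
    exact ⟨w, hw, by rw [cv, ← e2]⟩
  · exact congrArg Subtype.val (show a * b = a * b * a⁻¹ * b⁻¹ * (b * a) by group)
  · intro p hp
    rw [cv, cv]
    refine congrArg Subtype.val ?_
    have d3 := C.cube pd
    simp only [List.mem_cons, List.not_mem_nil, or_false] at hp
    rcases hp with rfl | rfl | rfl | rfl | rfl | rfl | rfl | rfl | rfl | rfl | rfl | rfl | rfl | rfl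
    · simpa only [evL_cons, evL_nil, pow_succ, pow_zero, one_mul, mul_one, mul_assoc] using d3
    · simpa only [evL_cons, evL_nil, mul_one, gv] using a3
    · simpa only [evL_cons, evL_nil, mul_one, gv] using b3
    · simpa only [evL_cons, evL_nil, mul_one, gv] using ff
    · simpa only [evL_cons, evL_nil, mul_one, gv, mul_assoc] using jj
    · simpa only [evL_cons, evL_nil, mul_one, gv] using ij
    · simpa only [evL_cons, evL_nil, mul_one, gv, mul_assoc] using mul_eq_one_iff_eq_inv.mpr sa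
    · simpa only [evL_cons, evL_nil, mul_one, gv, mul_assoc] using mul_eq_one_iff_eq_inv.mpr sb
    · simp only [evL_cons, evL_nil, mul_one, gv, hb, inv_mul_cancel_right]
    · simp only [evL_cons, evL_nil, mul_one, gv]
      rw [hb, ← mul_assoc a, ai, ← sa, ← ij]
      calc _ = i * i * a * (i * i) * i * (i * i * (i * i))⁻¹ := by group
        _ = _ := by rw [show i * i * (i * i) = 1 by rw [ij, jj]]; group
    · simp only [evL_cons, evL_nil, mul_one, gv]
      nth_rewrite 1 [← r1]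
      rw [mul_assoc, mul_assoc, mul_assoc, a3, mul_one]
    · simpa only [evL_cons, evL_nil, mul_one, gv] using r2'
    · simpa only [evL_cons, evL_nil, mul_one, gv] using r3
    · have := mul_inv_eq_iff_eq_mul.mp r4
      simpa only [evL_cons, evL_nil, mul_one, gv, mul_assoc] using this
  · have h1 := T.normalizer_sup_eq_top
    obtain ⟨c, hc, c1⟩ : ∃ c ∈ normalizer (((T : Subgroup H).map H.subtype : Subgroup X) : Set X), c ∉ H := by
      by_contra h
      push Not at h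
      rw [sup_eq_right.mpr h] at h1
      rw [h1, index_top] at hi
      omega
    have k : ∀ u ∈ T, ∃ x < 3, ∃ y < 3, ∃ z < 3, c * u * c⁻¹ = evL (fun l => (g l : X)) (tw x y z) :=
      fun u hu => by
        obtain ⟨v, hv, e⟩ := (mem_normalizer_iff.mp hc u).mp ⟨u, hu, rfl⟩
        obtain ⟨x, hx, y, hy, k, hk, rfl⟩ := (hT v).mp hv
        obtain ⟨z, hz, rfl⟩ := kd k hk
        exact ⟨x, hx, y, hy, z, hz, by rw [cv, evL_tw, ← e]; rfl⟩
    refine ⟨c, c1, k a ((hT a).mpr ⟨1, by norm_num, 0, by norm_num, 1, map_one π, by simp⟩),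
      k b ((hT b).mpr ⟨0, by norm_num, 1, by norm_num, 1, map_one π, by simp⟩), ?_⟩
    obtain ⟨k', h1, h2⟩ := hk c _ pd
    obtain ⟨z, hz, rfl⟩ := kd k' h1
    exact ⟨z, hz, h2⟩

end Cfsg.J4R.R
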