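import Cfsg.Agent.J4R.R3

/-! The module of the covering group in coordinates. -/

set_option autoImplicit false
set_option maxRecDepth 100000
set_option linter.unusedSectionVars false

namespace Cfsg.J4R.R

open Cfsg.H6 Finset

variable {X : Type*} [Group X] {V : Type*} [AddCommGroup V] [Module (ZMod 2) V]
  [DistribMulAction X V] {H : Subgroup X} {g : ℕ → X}

theorem one_inj {u v : V} (h : (1 : ZMod 2) • u = (1 : ZMod 2) • v) : u = v := by simpa using h

theorem ev_smul (g : ℕ → X) (w : List ℕ) (v : V) : evL g w • v = w.foldr (fun l x => g l • x) v := by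
  induction w with
  | nil => exact one_smul _ _
  | cons l w ih => rw [evL_cons, mul_smul, ih]; rfl

theorem sm_of {u w : List ℕ} (h : evL g u = evL g w) (v : V) :
    u.foldr (fun l x => g l • x) v = w.foldr (fun l x => g l • x) v := by
  rw [← ev_smul, ← ev_smul, h]

/-- The vectors killed by `1 + d + d²`. -/
def U (d : X) (v : V) : Prop := d • d • v = v + d • v

theorem fix_step {P : V → Prop} {f : V → V} (h1 : ∀ v, P v → P (v + f v))
    (h2 : ∀ v, f (v + f v) = v + f v) (h : ∃ v, P v ∧ v ≠ 0) : ∃ v, (P v ∧ f v = v) ∧ v ≠ 0 := by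
  obtain ⟨v, hv, v0⟩ := h
  by_cases e : f v = v
  · exact ⟨v, ⟨hv, e⟩, v0⟩
  · exact ⟨v + f v, ⟨h1 v hv, h2 v⟩, fun k => e (veq.mp k).symm⟩

theorem Gn.exists_e (G : Gn H g) (F : Fa X V) : ∃ e1 e2 : V, (U (g 6) e1 ∧ g 1 • e1 = e1) ∧
    (U (g 6) e2 ∧ g 1 • e2 = e2) ∧ e1 ≠ 0 ∧
    (g 3 • e1 = e1 ∧ g 3 • g 2 • e1 = g 2 • e1 ∧ g 3 • g 2 • g 2 • e1 = g 2 • g 2 • e1) ∧
    e2 ≠ 0 ∧ e2 ≠ e1 ∧ e2 ≠ g 6 • e1 ∧ e2 ≠ e1 + g 6 • e1 := by
  have cd : ∀ h ∈ H, ∀ v : V, h • g 6 • v = g 6 • h • v := fun h hh v => by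
    rw [← mul_smul, G.cen h hh, mul_smul]
  have c1 := cd _ (G.mem 1)
  have c2 := cd _ (G.mem 2)
  have c3 := cd _ (G.mem 3)
  have ab : ∀ v : V, g 1 • g 2 • v = g 6 • g 2 • g 1 • v := fun v => by
    rw [← mul_smul, G.ab, mul_smul, mul_smul]
  have d3 : ∀ v : V, g 6 • g 6 • g 6 • v = v := sm_of (G.ex ([6, 6, 6], []) (by decide))
  have a3 : ∀ v : V, g 1 • g 1 • g 1 • v = v := sm_of (G.ex ([1, 1, 1], []) (by decide))
  have b3 : ∀ v : V, g 2 • g 2 • g 2 • v = v := sm_of (G.ex ([2, 2, 2], []) (by decide))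
  have ff : ∀ v : V, g 3 • g 3 • v = v := sm_of (G.ex ([3, 3], []) (by decide))
  have fa : ∀ v : V, g 3 • g 1 • v = g 1 • g 3 • v := sm_of (G.ex ([3, 1], [1, 3]) (by decide))
  have r2 : ∀ v : V, g 3 • g 2 • g 2 • g 3 • g 2 • v = g 2 • g 2 • g 3 • g 2 • g 3 • v :=
    sm_of (G.ex ([3, 2, 2, 3, 2], [2, 2, 3, 2, 3]) (by decide))
  have r3 : ∀ v : V, g 3 • g 2 • g 2 • g 3 • g 2 • v = g 2 • g 3 • g 2 • g 2 • v :=
    sm_of (G.ex ([3, 2, 2, 3, 2], [2, 3, 2, 2]) (by decide))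
  have hU : ∀ h ∈ H, ∀ v : V, U (g 6) v → U (g 6) (h • v) := fun h hh v hv => by
    unfold U at *
    rw [← cd h hh, ← cd h hh, hv, smul_add]
  have aU : ∀ u v : V, U (g 6) u → U (g 6) v → U (g 6) (u + v) := fun u v hu hv => by
    unfold U at *
    rw [smul_add, smul_add, hu, hv]; abel
  have hP : ∀ v : V, U (g 6) v → U (g 6) (v + g 1 • v + g 1 • g 1 • v) ∧
      g 1 • (v + g 1 • v + g 1 • g 1 • v) = v + g 1 • v + g 1 • g 1 • v := fun v hv =>
    ⟨aU _ _ (aU _ _ hv (hU _ (G.mem 1) _ hv)) (hU _ (G.mem 1) _ (hU _ (G.mem 1) _ hv)), by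
      rw [smul_add, smul_add, a3]; abel⟩
  have dec : ∀ v : V, U (g 6) v → ∃ p0 p1 p2 : V, (U (g 6) p0 ∧ g 1 • p0 = p0) ∧
      (U (g 6) p1 ∧ g 1 • p1 = p1) ∧ (U (g 6) p2 ∧ g 1 • p2 = p2) ∧
      v = p0 + g 2 • p1 + g 2 • g 2 • p2 := fun v hv => by
    refine ⟨_, _, _, hP v hv, hP _ (hU _ (G.mem 2) _ (hU _ (G.mem 2) _ hv)), hP _ (hU _ (G.mem 2) _ hv), ?_⟩
    have h1 : g 6 • g 6 • g 1 • v = _ := hU _ (G.mem 1) _ hv
    have h2 : g 6 • g 6 • g 1 • g 1 • v = _ := hU _ (G.mem 1) _ (hU _ (G.mem 1) _ hv)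
    simp only [smul_add, ab, c1, c2, b3, d3]
    rw [h1, h2]
    generalize g 6 • g 1 • g 1 • v = x1
    generalize g 6 • g 1 • v = x2
    generalize g 1 • g 1 • v = x3
    generalize g 1 • v = x4
    apply one_inj
    match_scalars <;> decide
  obtain ⟨v, hv⟩ : ∃ v : V, g 6 • v ≠ v := by
    by_contra h
    push Not at h
    exact G.d1 (F _ h)
  have u0 : U (g 6) (v + g 6 • v) := by
    unfold U
    simp only [smul_add, d3]
    generalize g 6 • g 6 • v = x1
    generalize g 6 • v = x2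
    apply one_inj
    match_scalars <;> decide
  have u1 : v + g 6 • v ≠ 0 := fun h => hv (veq.mp h).symm
  generalize v + g 6 • v = u at u0 u1
  have s0 : ∃ p : V, (U (g 6) p ∧ g 1 • p = p) ∧ p ≠ 0 := by
    by_contra h
    push Not at h
    obtain ⟨p0, p1, p2, h0, h1, h2, e⟩ := dec u u0
    rw [h _ h0, h _ h1, h _ h2] at e
    exact u1 (by simpa using e)
  have s1 := fix_step (f := fun v => g 3 • v) (fun p hp => ⟨aU _ _ hp.1 (hU _ (G.mem 3) _ hp.1), by
    rw [smul_add, ← fa, hp.2]⟩) (fun p => by simp only [smul_add, ff, add_comm]) s0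
  obtain ⟨e1, ⟨⟨h1, h2⟩, h3⟩, h4⟩ := fix_step (f := fun v => g 2 • g 2 • g 3 • g 2 • v)
    (fun p hp => ⟨⟨aU _ _ hp.1.1 (hU _ (G.mem 2) _ (hU _ (G.mem 2) _ (hU _ (G.mem 3) _
      (hU _ (G.mem 2) _ hp.1.1)))), by
      rw [smul_add, hp.1.2]
      simp only [ab, c2, c3, ← fa, d3, hp.1.2]⟩, by
      simp only [smul_add, r2, hp.2]⟩) (fun p => by simp only [smul_add, ff, b3, add_comm]) s1
  have k1 : g 3 • g 2 • e1 = g 2 • e1 := by simpa only [b3] using congrArg (g 2 • ·) h3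
  have k2 : g 3 • g 2 • g 2 • e1 = g 2 • g 2 • e1 := by
    have := r3 e1
    rw [h3, h2] at this
    simpa only [b3] using congrArg (g 2 • g 2 • ·) this.symm
  by_contra hc
  have hp : ∀ p : V, U (g 6) p ∧ g 1 • p = p →
      g 3 • p = p ∧ g 3 • g 2 • p = g 2 • p ∧ g 3 • g 2 • g 2 • p = g 2 • g 2 • p := fun p hp => by
    have : p = 0 ∨ p = e1 ∨ p = g 6 • e1 ∨ p = e1 + g 6 • e1 := by
      by_contra h
      push Not at h
      exact hc ⟨e1, p, h1, hp, h4, ⟨h2, k1, k2⟩, h⟩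
    rcases this with rfl | rfl | rfl | rfl <;> simp only [smul_zero, smul_add, c2, c3, h2, k1, k2, and_self]
  have tf : ∀ v : V, U (g 6) v → g 3 • v = v := fun v hv => by
    obtain ⟨p0, p1, p2, h0, h1, h2, e⟩ := dec v hv
    rw [e, smul_add, smul_add, (hp _ h0).1, (hp _ h1).2.1, (hp _ h2).2.2]
  have ts : ∀ v : V, U (g 6) v → g 4 • g 4 • v = v := fun v hv => by
    have e := G.ex ([1, 4, 3, 4, 1, 3, 4, 3, 4] ++ [3], [4, 4] ++ [1, 4, 3, 4, 1, 3, 4, 3, 4]) (by decide)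
    simp only [evL_append] at e
    have hx : evL g [1, 4, 3, 4, 1, 3, 4, 3, 4] ∈ H := evL_mem_of_letters fun l _ => G.mem l
    generalize evL g [1, 4, 3, 4, 1, 3, 4, 3, 4] = x at e hx
    have := congrArg (· • x⁻¹ • v) e
    simp only [mul_smul, evL_cons, evL_nil, mul_one, smul_inv_smul, tf _ (hU _ (H.inv_mem hx) _ hv)] at this
    exact this.symm
  have ta : ∀ v : V, U (g 6) v → g 1 • v = v := fun v hv => by
    have e : g 4 • g 4 • g 1 • g 4 • g 4 • g 1 • v = v := sm_of (G.ex ([4, 4, 1, 4, 4, 1], []) (by decide)) v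
    rw [ts _ (hU _ (G.mem 1) _ hv), ts _ (hU _ (G.mem 1) _ (hU _ (G.mem 1) _ hv))] at e
    have := a3 v
    rwa [e] at this
  have e := ab u
  rw [ta _ (hU _ (G.mem 2) _ u0), ta _ u0, ← c2, smul_left_cancel_iff] at e
  unfold U at u0
  rw [← e, ← e, vadd] at u0
  exact u1 u0

variable {b : ℕ → V}

theorem al_mk {f j i c : ℕ} {ls : List ℕ} (h1 : Act b (g 1) MA) (h2 : Act b (g 2) MB) (h6 : Act b (g 6) MD)
    (h3 : 3 ∈ ls → Act b (g 3) f) (h4 : 4 ∈ ls → Act b (g 4) j) (h5 : 5 ∈ ls → Act b (g 5) i)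
    (h7 : 7 ∈ ls → Act b (g 7) c) (h : ∀ l ∈ ls, 1 ≤ l ∧ l < 8) : AL b g (Ms f j i c) ls := fun l hl => by
  obtain ⟨a1, a2⟩ := h l hl
  interval_cases l
  exacts [h1, h2, h3 hl, h4 hl, h5 hl, h6, h7 hl]

theorem evL_flat (g : ℕ → X) (n : ℕ) (w : List ℕ) : evL g (List.replicate n w).flatten = evL g w ^ n := by
  induction n with
  | zero => simp [evL_nil]
  | succ n ih => rw [List.replicate_succ, List.flatten_cons, evL_append, ih, pow_succ']

theorem mkr_ok {ls : List ℕ} (A : AL b g (Ms 0 0 0 0) ls) (h2 : 2 ∈ ls) (h6 : 6 ∈ ls) {x : X}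
    {wb wd : List ℕ} (hb : wb.all ls.contains = true) (hd : wd.all ls.contains = true)
    (e2 : x * g 2 = evL g wb * x) (e6 : x * g 6 = evL g wd * x) {y1 y2 : ℕ}
    (h1 : x • vec b 1 = vec b y1) (h4 : x • vec b 4 = vec b y2) {k : ℕ} (hk : k < 12) :
    x • b k = vec b (mkr wb wd y1 y2 k) := by
  have p : ∀ (s t : X) (n : ℕ), x * s = t * x → x * s ^ n = t ^ n * x := fun s t n h =>
    (SemiconjBy.pow_right h n)
  rw [← vec_pow b hk, ← hbase k hk, ← A.w (by
      simp [tw, h2, h6]), mkr, ← A.w (by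
      simp only [List.all_append, List.all_flatten, List.all_replicate, hb, hd]; simp),
    evL_tw, evL_append, evL_flat, evL_flat, pow_zero, one_mul, ← mul_smul, ← mul_assoc, p _ _ _ e2,
    mul_assoc, p _ _ _ e6, ← mul_assoc, mul_smul]
  congr 1
  split_ifs with h
  · rw [h, ← h1]; rfl
  · rw [show k / 2 % 2 = 1 by omega, ← h4]; rfl

theorem act_mk {ls : List ℕ} (A : AL b g (Ms 0 0 0 0) ls) (h2 : 2 ∈ ls) (h6 : 6 ∈ ls) {x : X}
    {wb wd : List ℕ} (hb : wb.all ls.contains = true) (hd : wd.all ls.contains = true)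
    (e2 : x * g 2 = evL g wb * x) (e6 : x * g 6 = evL g wd * x) {y1 y2 : ℕ} (l1 : y1 < 4096)
    (l2 : y2 < 4096) (h1 : x • vec b 1 = vec b y1) (h4 : x • vec b 4 = vec b y2) :
    Act b x (mat (mkr wb wd y1 y2)) :=
  act_mat (fun k => apw_lt _ _ (by split_ifs <;> assumption)) fun _ hk =>
    mkr_ok A h2 h6 hb hd e2 e6 h1 h4 hk

theorem Gn.basis (G : Gn H g) (F : Fa X V) (hc : Nat.card V = 4096) : ∃ b : ℕ → V, Bs b ∧
    Act b (g 1) MA ∧ Act b (g 2) MB ∧ Act b (g 6) MD ∧ ∃ f ∈ FL, Act b (g 3) f := by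
  obtain ⟨e1, e2, ⟨u1, a1⟩, ⟨u2, a2⟩, n1, ⟨f0, f1, f2⟩, n2, n3, n4, n5⟩ := G.exists_e (V := V) F
  let b : ℕ → V := fun k => g 2 ^ (k / 4) • g 6 ^ (k % 2) • (if k / 2 % 2 = 0 then e1 else e2)
  have b3 : g 2 ^ 3 = 1 := by rw [← evL_rep]; exact G.ex ([2, 2, 2], []) (by decide)
  have cd : ∀ n (v : V), g 6 • g 2 ^ n • v = g 2 ^ n • g 6 • v := fun n v => by
    rw [← mul_smul, ← G.cen _ (H.pow_mem (G.mem 2) n), mul_smul]
  have hD : Act b (g 6) MD := act_of_basis fun k hk => by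
    rw [rowD k hk]
    split_ifs with h
    · rw [vec_pow b (by omega)]
      simp only [b, h, show (k + 1) / 4 = k / 4 by omega, show (k + 1) % 2 = 1 by omega,
        show (k + 1) / 2 % 2 = k / 2 % 2 by omega, cd, pow_zero, one_smul, pow_one]
    · rw [vec_xor, vec_pow b (by omega), vec_pow b hk]
      simp only [b, show (k - 1) / 4 = k / 4 by omega, show (k - 1) % 2 = 0 by omega,
        show k % 2 = 1 by omega,
        show (k - 1) / 2 % 2 = k / 2 % 2 by omega, cd, pow_zero, one_smul, pow_one, ← smul_add]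
      split_ifs
      exacts [congrArg _ u1, congrArg _ u2]
  have hB : Act b (g 2) MB := act_of_basis fun k hk => by
    rw [rowB k hk, vec_pow b (Nat.mod_lt _ (by norm_num))]
    simp only [b, show (k + 4) % 12 / 4 = (k / 4 + 1) % 3 by omega, show (k + 4) % 12 % 2 = k % 2 by omega,
      show (k + 4) % 12 / 2 % 2 = k / 2 % 2 by omega, ← pow_eq_pow_mod _ b3, pow_succ', mul_smul]
  have v1 : vec b 1 = e1 := (vec_pow b (k := 0) (by norm_num)).trans (by simp [b])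
  have v2 : vec b 2 = g 6 • e1 := (vec_pow b (k := 1) (by norm_num)).trans (by simp [b])
  have v4 : vec b 4 = e2 := (vec_pow b (k := 2) (by norm_num)).trans (by simp [b])
  have A0 : AL b g (Ms 0 0 0 0) [2, 6] := fun l hl => by
    simp only [List.mem_cons, List.not_mem_nil, or_false] at hl
    rcases hl with rfl | rfl
    exacts [hB, hD]
  have hA : Act b (g 1) MA := act_of_basis fun k hk => by
    rw [rowA k hk]
    exact mkr_ok A0 (by decide) (by decide) (by decide) (by decide)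
      (by rw [G.ab]; simp [evL_cons, evL_nil, mul_assoc]) (by rw [G.cen _ (G.mem 1), evL_singleton])
      (by rw [v1, a1]) (by rw [v4, a2]) hk
  have A : AL b g (Ms 0 0 0 0) [1, 2, 6] := al_mk hA hB hD (by simp) (by simp) (by simp) (by simp) (by decide)
  have B : Bs b := bs_of_inj hc fun c h1 h2 => by
    by_contra h
    have := allR_range hinj rfl c (by omega) h1
    simp only [frcB_eq, List.any_eq_true, List.contains_iff_mem] at this
    obtain ⟨k, hk, n, hn, e⟩ := this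
    have z : ∀ w c, w.all [1, 2, 6].contains = true → vec b c = 0 → vec b (apw (Ms 0 0 0 0) w c) = 0 :=
      fun w c hw h => by rw [← A.w hw, h, smul_zero]
    have z1 := z (tw 0 k 0) c (by simp [tw]) h2
    generalize apw (Ms 0 0 0 0) (tw 0 k 0) c = u at e z1
    have z2 := z (tw 0 0 n) (u ^^^ (apw (Ms 0 0 0 0) [1] u ^^^ apw (Ms 0 0 0 0) [1, 1] u))
      (by simp [tw]) (by rw [vec_xor, vec_xor, z1, z _ _ (by decide) z1, z _ _ (by decide) z1]; simp)
    simp only [List.mem_cons, List.not_mem_nil, or_false] at e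
    rcases e with e | e | e | e | e <;> rw [e] at z2
    · exact n1 (v1 ▸ z2)
    · exact n2 (v4 ▸ z2)
    · rw [show 5 = 4 ^^^ 1 from rfl, vec_xor, v1, v4] at z2
      exact n3 (veq.mp z2)
    · rw [show 6 = 4 ^^^ 2 from rfl, vec_xor, v2, v4] at z2
      exact n4 (veq.mp z2)
    · rw [show 7 = 4 ^^^ (1 ^^^ 2) from rfl, vec_xor, vec_xor, v1, v2, v4] at z2
      exact n5 (veq.mp z2)
  have fa : g 3 * g 1 = g 1 * g 3 := by
    simpa [evL_cons, evL_nil] using G.ex ([3, 1], [1, 3]) (by decide)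
  have c1 := G.cen _ (G.mem 1)
  have c2 := G.cen _ (G.mem 2)
  have c3 := G.cen _ (G.mem 3)
  have key : ∀ n, ∃ c < 16, g 3 • g 2 ^ n • e2 = g 2 ^ n • vec b c := fun n => by
    obtain ⟨c, h1, h2⟩ := B.surj ((g 2 ^ n)⁻¹ • g 3 • g 2 ^ n • e2)
    refine ⟨c, ?_, by rw [h2, smul_inv_smul]⟩
    have e1 : g 1 * g 2 ^ n = g 6 ^ n * g 2 ^ n * g 1 := by
      rw [← Commute.mul_pow c2.symm]
      exact SemiconjBy.pow_right (G.ab.trans (mul_assoc _ _ _).symm) n
    have e3 : g 3 * (g 6 ^ n)⁻¹ = (g 6 ^ n)⁻¹ * g 3 := ((Commute.pow_right c3 n).inv_right).eq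
    have e2' : g 2 ^ n * g 1 = (g 6 ^ n)⁻¹ * g 1 * g 2 ^ n := by rw [mul_assoc, e1]; group
    have : g 1 * ((g 2 ^ n)⁻¹ * g 3 * g 2 ^ n) = (g 2 ^ n)⁻¹ * g 3 * g 2 ^ n * g 1 := by
      have e4 : g 3 * ((g 6 ^ n)⁻¹ * g 1) = (g 6 ^ n)⁻¹ * g 1 * g 3 := by
        rw [← mul_assoc, e3, mul_assoc, fa, mul_assoc]
      generalize (g 6 ^ n)⁻¹ * g 1 = δ at e2' e4
      generalize g 2 ^ n = β at e2'
      calc _ = β⁻¹ * (β * g 1) * β⁻¹ * g 3 * β := by group
        _ = β⁻¹ * (δ * g 3) * β := by rw [e2']; group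
        _ = β⁻¹ * g 3 * (δ * β) := by rw [← e4]; group
        _ = _ := by rw [← e2']; group
    have e : vec b (ap12 MA c) = vec b c := by
      rw [← hA, h2, ← mul_smul, ← mul_smul, ← mul_smul, mul_assoc (g 1), mul_assoc (g 1), this, mul_smul, a2,
        mul_smul, mul_smul]
    have := allR_range hfixA rfl c (Nat.zero_le _) h1
    simpa [B.eq (ap12_lt _ _) h1 e] using this
  obtain ⟨c0, l0, k0⟩ := key 0
  obtain ⟨c1', l1, k1⟩ := key 1
  obtain ⟨c2', l2, k2⟩ := key 2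
  have hf : Act b (g 3) (mat (fr3 c0 c1' c2')) := act_mat (fun k => by
      unfold fr3
      split_ifs
      exacts [Nat.mod_lt _ (by norm_num), apw_lt _ _ (Nat.mod_lt _ (by norm_num))]) fun k hk => by
    have cc : ∀ l n m (v : V), g l • g 2 ^ n • g 6 ^ m • v = g 6 ^ m • g l • g 2 ^ n • v := fun l n m v => by
      rw [← mul_smul, ← mul_smul, (Commute.pow_right (G.cen _ (H.mul_mem (G.mem l) (H.pow_mem (G.mem 2) n))) m).eq,
        mul_smul, mul_smul]
    have cc' : ∀ n m (v : V), g 2 ^ n • g 6 ^ m • v = g 6 ^ m • g 2 ^ n • v := fun n m v => by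
      rw [← mul_smul, (Commute.pow_pow c2 n m).eq, mul_smul]
    unfold fr3
    split_ifs with h
    · rw [Nat.mod_eq_of_lt (p12 k hk), vec_pow b hk]
      simp only [b, h, if_true]
      rw [cc, cc']
      congr 1
      have : k / 4 < 3 := by omega
      generalize k / 4 = n at this
      interval_cases n
      · simpa using f0
      · simpa using f1
      · simpa [pow_two, mul_smul] using f2
    · rw [← A.w (by simp [tw]), evL_tw, pow_zero, one_mul, mul_smul]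
      simp only [b, h, if_false]
      rw [cc, cc']
      congr 1
      have : k / 4 < 3 := by omega
      generalize k / 4 = n at this
      interval_cases n
      · rw [k0]; simp [Nat.mod_eq_of_lt (show c0 < 4096 by omega), b]
      · rw [k1]; simp [Nat.mod_eq_of_lt (show c1' < 4096 by omega), b]
      · rw [k2]; simp [Nat.mod_eq_of_lt (show c2' < 4096 by omega), b]
  refine ⟨b, B, hA, hB, hD, _, ?_, hf⟩
  have A3 : AL b g (Ms (mat (fr3 c0 c1' c2')) 0 0 0) [1, 2, 3, 6] :=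
    al_mk hA hB hD (fun _ => hf) (by simp) (by simp) (by simp) (by decide)
  have := allR_range (allR_range (allR_range hF rfl c0 (Nat.zero_le _) l0) rfl c1' (Nat.zero_le _) l1) rfl c2'
    (Nat.zero_le _) l2
  rw [frcB_eq, eqw_of B A3 (by decide) (G.ex ([3, 3], []) (by decide)),
    eqw_of B A3 (by decide) (G.ex ([3, 2, 2, 3, 2], [2, 3, 2, 2]) (by decide))] at this
  simpa using this

end Cfsg.J4R.R
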