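import Cfsg.Agent.J4R.R4

/-! The classification of the module. -/

set_option autoImplicit false
set_option maxRecDepth 100000
set_option linter.unusedSectionVars false

namespace Cfsg.J4R.R

open Cfsg.H6 Finset

variable {X : Type*} [Group X] {V : Type*} [AddCommGroup V] [Module (ZMod 2) V]
  [DistribMulAction X V] {H : Subgroup X} {g : ℕ → X} {b : ℕ → V}

theorem Gn.sc (G : Gn H g) (B : Bs b) {M ls w : List ℕ} (A : AL b g M ls)
    (h : (chk w && w.all ls.contains && ls.contains 6) = true) : sc M w = true := by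
  simp only [Bool.and_eq_true] at h
  obtain ⟨z, hz, e⟩ := G.rel w h.1.1
  rw [← evL_rep] at e
  have := eqw_of B A (by simp [h.1.2, List.all_replicate, List.contains_iff_mem.mp h.2]) e
  unfold R.sc
  interval_cases z <;> simp_all

theorem Gn.cj (G : Gn H g) {u w w' : List ℕ} (h : chk (u ++ w') = true) (h' : evL g w * evL g w' = 1) :
    ∃ z < 3, evL g u = g 6 ^ z * evL g w := by
  obtain ⟨z, hz, e⟩ := G.rel _ h
  refine ⟨z, hz, ?_⟩
  rw [evL_append] at e
  rw [← e, mul_assoc, mul_eq_one_comm.mp h', mul_one]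

theorem fix16 (B : Bs b) (hA : Act b (g 1) MA) {v : V} (h : g 1 • v = v) : ∃ y < 16, v = vec b y := by
  obtain ⟨c, h1, rfl⟩ := B.surj v
  rw [hA] at h
  have := allR_range hfixA rfl c (Nat.zero_le _) h1
  exact ⟨c, by simpa [B.eq (ap12_lt _ _) h1 h] using this, rfl⟩

theorem Gn.std (G : Gn H g) (F : Fa X V) (hc : Nat.card V = 4096) : ∃ b : ℕ → V, Bs b ∧
    AL b g (Ms MF MJ MI 0) [1, 2, 3, 4, 5, 6] := by
  obtain ⟨b, B, hA, hB, hD, f, hf, hF⟩ := G.basis F hc
  have a3 := G.ex ([1, 1, 1], []) (by decide)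
  have b3 := G.ex ([2, 2, 2], []) (by decide)
  have j4 := G.ex ([4, 4, 4, 4], []) (by decide)
  have ct : ∀ x y z, g 6 ^ z * evL g (tw x y 0) = evL g (tw x y z) := fun x y z => by
    rw [← (Commute.pow_right (G.cen _ (evL_mem_of_letters fun l _ => G.mem l)) z).eq]
    simp [evL_tw, mul_assoc]
  have fx : ∀ b : ℕ → V, Act b (g 1) MA → g 1 • vec b 1 = vec b 1 ∧ g 1 • vec b 4 = vec b 4 := fun b h => by
    rw [h, h, show ap12 MA 1 = 1 by decide +kernel, show ap12 MA 4 = 4 by decide +kernel]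
    exact ⟨rfl, rfl⟩
  have A : AL b g (Ms 0 0 0 0) [1, 2, 6] := al_mk hA hB hD (by simp) (by simp) (by simp) (by simp) (by decide)
  simp only [evL_cons, evL_nil, mul_one] at a3 b3 j4
  obtain ⟨x, hx, ja⟩ := G.cj (u := [4, 1]) (w := tw 1 1 0 ++ [4]) (w' := [4, 4, 4, 2, 2, 1, 1])
    (by decide +kernel) (by
      simp only [tw, List.replicate, evL_append, evL_cons, evL_nil, mul_one, mul_assoc]
      calc _ = g 1 * (g 2 * (g 4 * (g 4 * (g 4 * g 4))) * (g 2 * g 2)) * (g 1 * g 1) := by simp only [mul_assoc]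
        _ = 1 := by rw [j4, mul_one, b3, mul_one, a3])
  obtain ⟨y, hy, jb⟩ := G.cj (u := [4, 2]) (w := tw 1 2 0 ++ [4]) (w' := [4, 4, 4, 2, 1, 1])
    (by decide +kernel) (by
      simp only [tw, List.replicate, evL_append, evL_cons, evL_nil, mul_one, mul_assoc]
      calc _ = g 1 * (g 2 * (g 2 * (g 4 * (g 4 * (g 4 * g 4))) * g 2)) * (g 1 * g 1) := by simp only [mul_assoc]
        _ = 1 := by rw [j4, mul_one, b3, mul_one, a3])
  rw [evL_append, ← mul_assoc, ct] at ja jb
  have ja' := ja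
  rw [← evL_append] at ja'
  simp only [evL_cons, evL_nil, mul_one] at ja jb
  have kj : ∀ v : V, g 1 • v = v → ∃ y ∈ FX.getD x [], y < 4096 ∧ g 4 • v = vec b y := fun v hv => by
    obtain ⟨c, h1, h2⟩ := B.surj (g 4 • v)
    have e : vec b (apw (Ms 0 0 0 0) (tw 1 1 x) c) = vec b c := by
      rw [← A.w (by simp [tw]), h2, ← mul_smul, ← ja, mul_smul, hv]
    have := allR_range (hfixX x hx) rfl c (Nat.zero_le _) h1
    exact ⟨c, by simpa [B.eq (apw_lt _ _ h1) h1 e] using this, h1, h2.symm⟩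
  obtain ⟨y1, m1, l1, e1⟩ := kj _ (fx b hA).1
  obtain ⟨y2, m2, l2, e2⟩ := kj _ (fx b hA).2
  have hj := act_mk A (by decide) (by decide) (wb := tw 1 2 y) (wd := [6]) (by simp [tw]) (by decide) jb
    (by rw [G.cen _ (G.mem 4), evL_singleton]) l1 l2 e1 e2
  have A4 : AL b g (Ms 0 (mat (mkr (tw 1 2 y) [6] y1 y2)) 0 0) [1, 2, 4, 6] :=
    al_mk hA hB hD (by simp) (fun _ => hj) (by simp) (by simp) (by decide)
  have h1 := List.all_eq_true.mp (List.all_eq_true.mp (hJ x hx y hy) y1 m1) y2 m2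
  rw [frcB_eq, eqw_of B A4 (by decide) (G.ex ([4, 4, 1, 4, 4, 1], []) (by decide)),
    eqw_of B A4 (by decide) (G.ex ([4, 4, 2, 4, 4, 2], []) (by decide)),
    eqw_of B A4 (by decide) (G.ex ([4, 4, 4, 4], []) (by decide)),
    eqw_of B A4 (by simp [tw]) ja'] at h1
  generalize mat (mkr (tw 1 2 y) [6] y1 y2) = J at hj h1
  have A5 : AL b g (Ms f J 0 0) [1, 2, 3, 4, 6] :=
    al_mk hA hB hD (fun _ => hF) (fun _ => hj) (by simp) (by simp) (by decide)
  have h2 := List.all_eq_true.mp (List.all_eq_true.mp hFJ f hf) J (by simpa using h1)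
  rw [G.sc B A5 (by decide +kernel), G.sc B A5 (by decide +kernel), Bool.and_self, Bool.not_true,
    Bool.false_or] at h2
  obtain ⟨T, hT1, h3⟩ := List.any_eq_true.mp h2
  have h4 := List.all_eq_true.mp hT T hT1
  simp only [Bool.and_eq_true] at h3 h4
  have B' := B.ch hc h4.1.1.1
  have hA' := hA.ch h4.1.1.2
  have hB' := hB.ch h4.1.2
  have hD' := hD.ch h4.2
  have hF' := hF.ch h3.1
  have hJ' := hj.ch h3.2
  generalize (fun k => vec b (row T k)) = b' at B' hA' hB' hD' hF' hJ'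
  have A' : AL b' g (Ms 0 0 0 0) [1, 2, 6] :=
    al_mk hA' hB' hD' (by simp) (by simp) (by simp) (by simp) (by decide)
  have ia := G.ex ([5, 1], [2, 5]) (by decide)
  have ib := G.ex ([5, 2], [1, 1] ++ [5]) (by decide)
  simp only [evL_append] at ib
  simp only [evL_cons, evL_nil, mul_one] at ia
  have ki : ∀ v : V, g 1 • v = v → ∃ y ∈ FB, y < 4096 ∧ g 5 • v = vec b' y := fun v hv => by
    obtain ⟨c, h1, h2⟩ := B'.surj (g 5 • v)
    have e : vec b' (ap12 MB c) = vec b' c := by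
      rw [← hB', h2, ← mul_smul, ← ia, mul_smul, hv]
    have := allR_range hfixB rfl c (Nat.zero_le _) h1
    exact ⟨c, by simpa [B'.eq (ap12_lt _ _) h1 e] using this, h1, h2.symm⟩
  obtain ⟨y1, m1, l1, e1⟩ := ki _ (fx b' hA').1
  obtain ⟨y2, m2, l2, e2⟩ := ki _ (fx b' hA').2
  have hi := act_mk A' (by decide) (by decide) (wb := [1, 1]) (wd := [6]) (by decide) (by decide)
    (by simpa [evL_cons, evL_nil] using ib)
    (by rw [G.cen _ (G.mem 5), evL_singleton]) l1 l2 e1 e2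
  have A6 : AL b' g (Ms MF MJ (mat (mkr [1, 1] [6] y1 y2)) 0) [1, 2, 3, 4, 5, 6] :=
    al_mk hA' hB' hD' (fun _ => hF') (fun _ => hJ') (fun _ => hi) (by simp) (by decide)
  have h5 := List.all_eq_true.mp (List.all_eq_true.mp hI y1 m1) y2 m2
  rw [frcB_eq, eqw_of B' A6 (by decide) (G.ex ([5, 5], [4, 4]) (by decide)),
    G.sc B' A6 (by decide +kernel), Bool.and_self, Bool.not_true, Bool.false_or] at h5
  rw [Nat.eq_of_beq_eq_true h5] at A6
  exact ⟨b', B', A6⟩

theorem Gn.outer (G : Gn H g) (F : Fa X V) (B : Bs b) (A : AL b g (Ms MF MJ MI 0) [1, 2, 3, 4, 5, 6]) :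
    ∃ c ∉ H, Act b c MC := by
  obtain ⟨c, hc, ⟨x, hx, y, hy, z, hz, ca⟩, ⟨x1, hx1, y1, hy1, z1, hz1, cb⟩, e, he, cd⟩ := G.out
  have mem : ∀ w, evL g w ∈ H := fun w => evL_mem_of_letters fun l _ => G.mem l
  have nl : ∀ w ∈ NL, w.all [1, 2, 3, 4, 5, 6].contains = true := by decide
  have hA : Act b (g 1) MA := A 1 (by decide)
  have hB : Act b (g 2) MB := A 2 (by decide)
  have hD : Act b (g 6) MD := A 6 (by decide)
  rcases hN1 x hx y hy z hz with ⟨rfl, rfl⟩ | ⟨w, hw, e1⟩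
  · exfalso
    have h1 := (Commute.pow_right (G.cen _ (G.nrm.conj_mem _ (G.mem 2) c)) z).eq
    rw [evL_tw, pow_zero, pow_zero, one_mul, one_mul] at ca
    rw [← ca] at h1
    have h2 : g 2 * g 1 = g 1 * g 2 := by
      calc _ = c⁻¹ * (c * g 2 * c⁻¹ * (c * g 1 * c⁻¹)) * c := by group
        _ = _ := by rw [h1]; group
    exact G.d1 (by simpa [h2] using G.ab)
  obtain ⟨x2, hx2, y2, hy2, z2, hz2, e2⟩ := hN2 w hw x1 hx1 y1 hy1 z1 hz1
  have e1' := eq_of_eqw F B A (by simp only [List.all_append, nl w hw]; simp [tw]) e1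
  have e2' := eq_of_eqw F B A (by simp only [List.all_append, nl w hw]; simp [tw]) e2
  rw [evL_append, evL_append, ← ca, evL_singleton] at e1'
  rw [evL_append, evL_append, ← cb] at e2'
  have hc' : evL g w * c ∉ H := fun h => hc ((H.mul_mem_cancel_left (mem w)).mp h)
  have k1 : evL g w * c * g 1 = g 1 * (evL g w * c) := by rw [← mul_assoc, ← e1']; group
  have k2 : evL g w * c * g 2 = evL g (tw x2 y2 z2) * (evL g w * c) := by rw [← mul_assoc, ← e2']; group
  have k6 : evL g w * c * g 6 = evL g (tw 0 0 e) * (evL g w * c) := by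
    rw [evL_tw, pow_zero, pow_zero, one_mul, one_mul, ← mul_assoc,
      ← (Commute.pow_right (G.cen _ (mem w)) e).eq, ← cd]
    group
  generalize evL g w * c = c' at hc' k1 k2 k6
  have A0 : AL b g (Ms 0 0 0 0) [1, 2, 6] := al_mk hA hB hD (by simp) (by simp) (by simp) (by simp) (by decide)
  have fx : g 1 • vec b 1 = vec b 1 ∧ g 1 • vec b 4 = vec b 4 := by
    rw [hA, hA, show ap12 MA 1 = 1 by decide +kernel, show ap12 MA 4 = 4 by decide +kernel]
    exact ⟨rfl, rfl⟩
  obtain ⟨t1, l1, s1⟩ := fix16 B hA (v := c' • vec b 1) (by rw [← mul_smul, ← k1, mul_smul, fx.1])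
  obtain ⟨t2, l2, s2⟩ := fix16 B hA (v := c' • vec b 4) (by rw [← mul_smul, ← k1, mul_smul, fx.2])
  have hM := act_mk A0 (by decide) (by decide) (by simp [tw]) (by simp [tw]) k2 k6 (by omega) (by omega) s1 s2
  have h0 : evL g ([1] ++ tw x2 y2 z2) = evL g (tw 0 0 e ++ (tw x2 y2 z2 ++ [1])) := by
    simp only [evL_append, evL_singleton]
    rw [← mul_inv_eq_iff_eq_mul] at k1 k2 k6
    rw [← k2, ← k6]
    nth_rewrite 1 2 [← k1]
    calc _ = c' * (g 1 * g 2) * c'⁻¹ := by group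
      _ = _ := by rw [G.ab]; group
  have h1 := hC x2 hx2 y2 hy2 z2 hz2 e he
  rw [eqw_of B A0 (by simp [tw]) h0, Bool.not_true, Bool.false_or] at h1
  have h2 := allR_range (allR_range h1 rfl t1 (Nat.zero_le _) l1) rfl t2 (Nat.zero_le _) l2
  rw [frcB_eq] at h2
  generalize mat (mkr (tw x2 y2 z2) (tw 0 0 e) t1 t2) = M at hM h2
  let g' : ℕ → X := fun l => if l = 7 then c' else g l
  have A7 : AL b g' (Ms MF MJ MI M) [1, 2, 3, 4, 5, 6, 7] :=
    al_mk hA hB hD (fun _ => A 3 (by decide)) (fun _ => A 4 (by decide)) (fun _ => A 5 (by decide))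
      (fun _ => hM) (by decide)
  have om : ∀ h ∈ H, ∀ u < 4096, ∀ v < 4096, h • vec b u = vec b v → OM.testBit v = OM.testBit u := by
    intro h hh u hu v hv e
    obtain ⟨w, hw, rfl⟩ := G.gen h hh
    have hw' := inR_spec hw
    rw [A.w (List.all_eq_true.mpr fun l hl => by
      obtain ⟨a1, a2⟩ := hw' l hl
      interval_cases l <;> rfl)] at e
    rw [← B.eq (apw_lt _ _ hu) hv e]
    clear e hw
    induction w with
    | nil => rfl
    | cons l w ih =>
      obtain ⟨⟨a1, a2⟩, a3⟩ := List.forall_mem_cons.mp hw'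
      rw [apw_cons, ← ih (mem w) a3]
      simpa using allR_range (hOM l a2 a1) rfl _ (Nat.zero_le _) (apw_lt _ w hu)
  have t1 : allR (fun c => !Nat.beq (ap12 M c) 0) 1 15 = true := by
    have k : ∀ c < 4096, c ≠ 0 → (!Nat.beq (ap12 M c) 0) = true := fun c h1 h2 => by
      rw [Bool.not_eq_true', Bool.eq_false_iff]
      intro h
      have := hM c
      rw [Nat.eq_of_beq_eq_true h, vec_zero, smul_eq_zero_iff_eq] at this
      exact h2 (B.inj c h1 this)
    have r : ∀ n < 16, allR (fun c => !Nat.beq (ap12 M c) 0) 1 n = true := fun n hn => by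
      induction n with
      | zero => rfl
      | succ n ih => exact andB_eq_true.mpr ⟨k (1 + n) (by omega) (by omega), ih (by omega)⟩
    exact r 15 (by norm_num)
  have t2 : (OW.all fun p => OM.testBit (ap12 M p.2) == OM.testBit (apw (Ms MF MJ MI M) [7, p.1] p.2)) = true :=
    List.all_eq_true.mpr fun p hp => by
      have p1 : p.2 < 4096 ∧ p.1 ≠ 7 ∧ [7, p.1].all [1, 2, 3, 4, 5, 6, 7].contains = true := by
        revert p; decide
      rw [beq_iff_eq]
      refine (om _ (G.nrm.conj_mem _ (G.mem p.1) c') _ (ap12_lt _ _) _ (apw_lt _ _ p1.1) ?_).symm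
      rw [← hM, ← A7.w p1.2.2, ← mul_smul, inv_mul_cancel_right]
      simp [evL_cons, evL_nil, g', p1.2.1]
  rw [t1, t2] at h2
  simp only [Bool.and_self, Bool.not_true, Bool.false_or, List.any_eq_true, Bool.or_eq_true] at h2
  obtain ⟨n, -, k, -, h3⟩ := h2
  have et : evL g' (tw n 0 k) = evL g (tw n 0 k) := by rw [evL_tw, evL_tw]; rfl
  rcases h3 with h3 | h3
  · have := eq_of_eqw F B A7 (by simp [tw]) h3
    rw [et, evL_singleton] at this
    exact absurd ((show c' = _ from this) ▸ mem _) hc'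
  · refine ⟨c' * evL g (tw n 0 k), fun h => hc' ((H.mul_mem_cancel_right (mem _)).mp h),
      act_of_basis fun r hr => ?_⟩
    rw [← Nat.eq_of_beq_eq_true (allR_range h3 rfl r (Nat.zero_le _) hr), ← A7.w (by simp [tw]),
      vec_pow b hr, evL_append, et, evL_singleton]
    rfl

theorem Gn.classify (G : Gn H g) (F : Fa X V) (hc : Nat.card V = 4096) : ∃ (b : ℕ → V) (c : ℕ → X),
    Bs b ∧ AL b c RL LL ∧ ∀ x, ∃ w, w.all LL.contains = true ∧ x = evL c w := by
  obtain ⟨b, B, A⟩ := G.std F hc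
  obtain ⟨c, hc', hC⟩ := G.outer F B A
  let g' : ℕ → X := fun l => if l = 7 then c else g l
  have A7 : AL b g' (Ms MF MJ MI MC) [1, 2, 3, 4, 5, 6, 7] :=
    al_mk (A 1 (by decide)) (A 2 (by decide)) (A 6 (by decide)) (fun _ => A 3 (by decide))
      (fun _ => A 4 (by decide)) (fun _ => A 5 (by decide)) (fun _ => hC) (by decide)
  have B' := B.ch hc hTI
  have A' : AL (fun k => vec b (row TI k)) (fun l => evL g' (LW l)) RL LL := fun l hl =>
    act_of_basis fun k hk => by rw [vec_ch, A7.w (hLW l hl).1, (hLW l hl).2 k hk]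
  refine ⟨_, _, B', A', ?_⟩
  have k1 : ∀ l < 8, 1 ≤ l → g' l = evL (fun l => evL g' (LW l)) (MW l) := fun l h1 h2 =>
    eq_of_basis F B' fun k hk => by
      rw [← vec_pow (fun k => vec b (row TI k)) hk]
      nth_rewrite 1 [vec_pow _ hk]
      rw [A'.w (hMW l h1 h2).1, vec_ch, ← (hMW l h1 h2).2 k hk, A7 l (by interval_cases l <;> decide)]
  have k2 : ∀ h ∈ H, ∃ w, w.all LL.contains = true ∧ h = evL (fun l => evL g' (LW l)) w := fun h hh => by
    obtain ⟨w, hw, rfl⟩ := G.gen h hh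
    have hw' := inR_spec hw
    clear hw hh
    induction w with
    | nil => exact ⟨[], rfl, rfl⟩
    | cons l w ih =>
      obtain ⟨⟨a1, a2⟩, a3⟩ := List.forall_mem_cons.mp hw'
      obtain ⟨u, hu, e⟩ := ih a3
      refine ⟨MW l ++ u, by rw [List.all_append, hu, (hMW l (by omega) a1).1]; rfl, ?_⟩
      rw [evL_cons, evL_append, ← e, ← k1 l (by omega) a1]
      simp [g', show l ≠ 7 by omega]
  intro x
  by_cases hx : x ∈ H
  · exact k2 x hx
  · obtain ⟨u, hu, e⟩ := k2 _ (G.idx x c hx hc')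
    refine ⟨u ++ MW 7, by rw [List.all_append, hu]; rfl, ?_⟩
    rw [evL_append, ← e, ← k1 7 (by norm_num) (by norm_num)]
    simp [g']

end Cfsg.J4R.R
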