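import Cfsg.Agent.J4R.R5
import Cfsg.Agent.L0.Class2

/-! Existence of charts. -/

set_option autoImplicit false
set_option maxRecDepth 100000

namespace Cfsg.J4R

open Subgroup Cfsg.H6
open Cfsg.Co.Rc (mem_cen)

variable {G : Type*} [Group G] [Finite G]

theorem es_of {z : G} (hz : orderOf z = 2) (Q : Subgroup (centralizer ({z} : Set G))) [hn : Q.Normal]
    (h2 : centralizer (Q : Set (centralizer ({z} : Set G))) ≤ Q) (hQ : IsExtraspecial 2 Q)
    (hc : Nat.card Q = 2 ^ 13) (e : Nat.card (centralizer ({z} : Set G)) = 8192 * 2661120) :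
    ES z (Q.map (centralizer ({z} : Set G)).subtype) := by
  have z1 : z ≠ 1 := by rintro rfl; simp at hz
  have zz : z * z = 1 := by rw [← pow_two, ← hz, pow_orderOf_eq_one]
  let z0 : centralizer ({z} : Set G) := ⟨z, mem_cen.mpr rfl⟩
  have hzc : ∀ g, g * z0 = z0 * g := fun g => Subtype.ext (mem_cen.mp g.2)
  have zQ : z0 ∈ Q := h2 fun q _ => hzc q
  obtain ⟨z', h1, h2', h3⟩ := L0.es_two_center hQ
  have hz' : z' = ⟨z0, zQ⟩ := by
    rcases (h3 ⟨z0, zQ⟩).mp (mem_center_iff.mpr fun g => Subtype.ext (hzc g)) with h | h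
    · exact absurd (congrArg (fun x : Q => x.1.1) h) z1
    · exact h.symm
  subst hz'
  have key : ∀ x : Q, x ∈ center Q → x.1.1 = 1 ∨ x.1.1 = z := fun x hx =>
    ((h3 x).mp hx).imp (congrArg fun x : Q => x.1.1) (congrArg fun x : Q => x.1.1)
  refine ⟨z1, zz, ⟨z0, zQ, rfl⟩, ?_, ?_, ?_, ?_, ?_, ?_, e⟩
  · rintro _ ⟨q, -, rfl⟩
    exact mem_cen.mp q.2
  · rintro c hc _ ⟨q, hq, rfl⟩
    exact ⟨_, hn.conj_mem q hq ⟨c, mem_cen.mpr hc⟩, rfl⟩
  · intro c hc h
    have hgQ : (⟨c, mem_cen.mpr hc⟩ : centralizer ({z} : Set G)) ∈ Q :=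
      h2 fun q hq => Subtype.ext (h _ ⟨q, hq, rfl⟩).symm
    exact key ⟨_, hgQ⟩ (mem_center_iff.mpr fun q =>
      Subtype.ext (Subtype.ext (h _ ⟨q, q.2, rfl⟩).symm))
  · rintro _ ⟨p, hp, rfl⟩ _ ⟨q, hq, rfl⟩
    have := key _ (L0.comm_mem_center (L0.es_le hQ) ⟨q, hq⟩ ⟨p, hp⟩)
    simp only [commutatorElement_def, coe_mul, coe_inv] at this
    change q.1 * p.1 = p.1 * q.1 ∨ q.1 * p.1 = z * (p.1 * q.1)
    rcases this with h | h
    · left
      calc q.1 * p.1 = (q.1 * p.1 * q.1⁻¹ * p.1⁻¹) * (p.1 * q.1) := by group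
        _ = p.1 * q.1 := by rw [h, one_mul]
    · right
      calc q.1 * p.1 = (q.1 * p.1 * q.1⁻¹ * p.1⁻¹) * (p.1 * q.1) := by group
        _ = z * (p.1 * q.1) := by rw [h]
  · rintro _ ⟨q, hq, rfl⟩
    have : Fact (Nat.Prime 2) := ⟨Nat.prime_two⟩
    have := key _ (L0.es_pow_mem hQ ⟨q, hq⟩)
    simpa [pow_two] using this
  · rw [card_subtype, hc]; rfl

namespace R

/-- The additive permutations of the vectors. -/
def AG : Subgroup (Equiv.Perm (Fin 4096)) where
  carrier := {σ | ∀ u v : Fin 4096, σ ⟨u.1 ^^^ v.1, xor_lt u.2 v.2⟩ =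
    ⟨(σ u).1 ^^^ (σ v).1, xor_lt (σ u).2 (σ v).2⟩}
  mul_mem' := fun {σ τ} h k u v => by rw [Equiv.Perm.mul_apply, k, h]; rfl
  one_mem' := fun _ _ => rfl
  inv_mem' := fun {σ} h u v => σ.injective (by rw [h]; simp)

variable {X : Type*} [Group X]

/-- The vectors with an action. -/
def VV (_r : X →* AG) : Type := Fin 4096

variable {r : X →* AG}

instance : Add (VV r) := ⟨fun u v => ⟨u.1 ^^^ v.1, xor_lt u.2 v.2⟩⟩
instance : Zero (VV r) := ⟨(0 : Fin 4096)⟩
instance : Neg (VV r) := ⟨id⟩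

instance : AddCommGroup (VV r) where
  add_assoc u v w := Fin.ext (Nat.xor_assoc _ _ _)
  zero_add u := Fin.ext (Nat.zero_xor _)
  add_zero u := Fin.ext (Nat.xor_zero _)
  add_comm u v := Fin.ext (Nat.xor_comm _ _)
  neg_add_cancel u := Fin.ext (Nat.xor_self _)
  nsmul := nsmulRec
  zsmul := zsmulRec

instance : Module (ZMod 2) (VV r) :=
  AddCommGroup.zmodModule fun v => (two_nsmul v).trans (Fin.ext (Nat.xor_self _))

instance : DistribMulAction X (VV r) where
  smul g v := (r g).1 v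
  one_smul v := by change (r 1).1 v = v; rw [map_one]; rfl
  mul_smul g h v := by change (r (g * h)).1 v = _; rw [map_mul]; rfl
  smul_zero g := ((r g).2 0 0).trans (Fin.ext (Nat.xor_self _))
  smul_add g u v := (r g).2 u v

/-- The quadratic form with values in the field. -/
def qz (m : Bool) (v : ℕ) : ZMod 2 := if qf m v = true then 1 else 0

/-- A coordinate. -/
def bt (v i : ℕ) : ZMod 2 := if v.testBit i = true then 1 else 0

theorem bt_xor (u v i : ℕ) : bt (u ^^^ v) i = bt u i + bt v i := by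
  unfold bt
  rw [Nat.testBit_xor]
  cases u.testBit i <;> cases v.testBit i <;> rfl

theorem qz_eq : ∀ m, ∀ v < 4096, qz m v = bt v 0 * bt v 6 + bt v 1 * bt v 7 + bt v 2 * bt v 8 +
    bt v 3 * bt v 9 + bt v 4 * bt v 10 + bt v 5 * bt v 11 + cond m (bt v 5 + bt v 11) 0 := by
  decide +kernel

theorem qz7 (m : Bool) {u v w : ℕ} (hu : u < 4096) (hv : v < 4096) (hw : w < 4096) :
    qz m (u ^^^ v ^^^ w) + qz m (u ^^^ v) + qz m (u ^^^ w) + qz m (v ^^^ w) + qz m u + qz m v +
      qz m w = 0 := by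
  have t : ∀ a b c a' b' c' : ZMod 2, (a + b + c) * (a' + b' + c') + (a + b) * (a' + b') +
      (a + c) * (a' + c') + (b + c) * (b' + c') + a * a' + b * b' + c * c' = 0 := by decide
  have l : ∀ a b c : ZMod 2, a + b + c + (a + b) + (a + c) + (b + c) + a + b + c = 0 := by decide
  rw [qz_eq m _ (xor_lt (xor_lt hu hv) hw), qz_eq m _ (xor_lt hu hv), qz_eq m _ (xor_lt hu hw),
    qz_eq m _ (xor_lt hv hw), qz_eq m _ hu, qz_eq m _ hv, qz_eq m _ hw]
  simp only [bt_xor]
  have t' := fun i j => t (bt u i) (bt v i) (bt w i) (bt u j) (bt v j) (bt w j)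
  have l' := fun i => l (bt u i) (bt v i) (bt w i)
  cases m <;> simp only [cond_true, cond_false]
  · linear_combination t' 0 6 + t' 1 7 + t' 2 8 + t' 3 9 + t' 4 10 + t' 5 11
  · linear_combination t' 0 6 + t' 1 7 + t' 2 8 + t' 3 9 + t' 4 10 + t' 5 11 + l' 5 + l' 11

theorem gram {m : Bool} {φ : ℕ → ℕ} (h0 : ∀ v, φ v < 4096) (h1 : ∀ u v, φ (u ^^^ v) = φ u ^^^ φ v)
    (hs : ∀ v < 4096, ∃ u < 4096, φ u = v) (hq : ∀ p ∈ QW, qf m (φ p.1) = qf m (φ p.2.1)) :
    ∀ p ∈ QW, qf m (φ p.1) = qf false p.1 := by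
  have z0 : φ 0 = 0 := by have := h1 0 0; rwa [Nat.xor_self, Nat.xor_self] at this
  let q : ℕ → ZMod 2 := fun v => qz m (φ v)
  have q7 : ∀ u v w, q (u ^^^ v ^^^ w) + q (u ^^^ v) + q (u ^^^ w) + q (v ^^^ w) + q u + q v + q w = 0 :=
    fun u v w => by simpa only [q, h1] using qz7 m (h0 u) (h0 v) (h0 w)
  have hq' : ∀ v r, (QW.any fun p => p.1 == v && p.2.1 == r) = true → q v = q r := fun v r h => by
    simp only [List.any_eq_true, Bool.and_eq_true, beq_iff_eq] at h
    obtain ⟨p, hp, rfl, rfl⟩ := h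
    simp only [q, qz, hq p hp]
  have a1 : q 1 = 0 := by
    have := q7 1 17 3
    rw [hq' (1 ^^^ 17 ^^^ 3) 17 (by decide +kernel), hq' (1 ^^^ 17) 1 (by decide +kernel),
      hq' (1 ^^^ 3) 1 (by decide +kernel), hq' (17 ^^^ 3) 1 (by decide +kernel),
      hq' 3 1 (by decide +kernel)] at this
    revert this
    generalize q 1 = a, q 17 = b
    revert a b
    decide
  have a2 : q 17 = 0 := by
    have := q7 1 17 529
    rw [hq' (1 ^^^ 17 ^^^ 529) 17 (by decide +kernel), hq' (1 ^^^ 17) 1 (by decide +kernel),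
      hq' (1 ^^^ 529) 1 (by decide +kernel), hq' (17 ^^^ 529) 1 (by decide +kernel),
      hq' 529 17 (by decide +kernel), a1] at this
    revert this
    generalize q 17 = b
    revert b
    decide
  have q0 : q 0 = 0 := by simp only [q, z0]; cases m <;> decide +kernel
  have a3 : q 65 = 1 := by
    by_contra h
    have h' : q 65 = 0 := by revert h; generalize q 65 = a; revert a; decide
    have k1 : ∀ i < 12, ∀ j < 12, q (2 ^ i ^^^ 2 ^ j) + q (2 ^ i) + q (2 ^ j) = 0 := fun i hi j hj => by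
      have k : ∀ v, (v = 0 ∨ ∃ r ∈ [1, 17, 65], (QW.any fun p => p.1 == v && p.2.1 == r) = true) → q v = 0 := by
        rintro v (rfl | ⟨r, hr, e⟩)
        · exact q0
        · rw [hq' v r e]
          simp only [List.mem_cons, List.not_mem_nil, or_false] at hr
          rcases hr with rfl | rfl | rfl <;> assumption
      rw [k _ (by revert i j; decide +kernel), k _ (by revert i; decide +kernel),
        k _ (by revert j; decide +kernel)]
      rfl
    have ad : ∀ w u v, q (u ^^^ v ^^^ w) + q (u ^^^ v) + q w =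
        q (u ^^^ w) + q u + q w + (q (v ^^^ w) + q v + q w) := fun w u v => by
      have := q7 u v w
      revert this
      generalize q (u ^^^ v ^^^ w) = a, q (u ^^^ v) = b, q (u ^^^ w) = c, q (v ^^^ w) = d, q u = e,
        q v = f, q w = g
      revert a b c d e f g
      decide
    have k2 : ∀ w, (∀ i < 12, q (2 ^ i ^^^ w) + q (2 ^ i) + q w = 0) →
        ∀ u < 4096, q (u ^^^ w) + q u + q w = 0 := fun w h u hu => by
      have := additive_xv (f := fun u => q (u ^^^ w) + q u + q w) (ad w) (fun k => 2 ^ k) u 12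
      rw [xv_pow, Nat.mod_eq_of_lt (show u < 2 ^ 12 from hu)] at this
      rw [this]
      exact Finset.sum_eq_zero fun i hi => by rw [h i (Finset.mem_range.mp hi), ite_self]
    obtain ⟨u, hu, e1⟩ := hs 1 (by norm_num)
    obtain ⟨v, hv, e2⟩ := hs 64 (by norm_num)
    have := k2 v (fun i hi => by
      rw [Nat.xor_comm, add_right_comm]
      exact k2 _ (fun j hj => k1 j hj i hi) v hv) u hu
    simp only [q, h1, e1, e2] at this
    revert this
    cases m <;> decide +kernel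
  intro p hp
  have k : ∀ p ∈ QW, (p.2.1 = 1 ∨ p.2.1 = 17) ∧ qf false p.1 = false ∨ p.2.1 = 65 ∧ qf false p.1 = true := by
    decide +kernel
  rw [hq p hp]
  simp only [q, qz] at a1 a2 a3
  rcases k p hp with ⟨e | e, e'⟩ | ⟨e, e'⟩ <;> rw [e, e']
  · simpa using a1
  · simpa using a2
  · simpa using a3

end R

variable {z : G} {Q : Subgroup G}

theorem exists_ch (E : ES z Q) {X : Type*} [Group X] (π : centralizer ({z} : Set G) →* X)
    (hs : Function.Surjective π) (hk : ∀ c, π c = 1 ↔ c.1 ∈ Q) {H : Subgroup X} {g : ℕ → X}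
    (GG : R.Gn H g) : ∃ a c, Ch z Q a c := by
  obtain ⟨m, a, F⟩ := E.exists_fr
  let ρ : centralizer ({z} : Set G) →* R.AG := (rho E F).codRestrict _ fun c u v =>
    Fin.ext (rc_xor E F (mem_cen.mp c.2) u.2 v.2)
  have hρ : ∀ c, ρ c = 1 ↔ c.1 ∈ Q := fun c => by rw [← rho_eq_one E F, Subtype.ext_iff]; rfl
  let r : X →* R.AG := π.liftOfRightInverse (Function.surjInv hs) (Function.rightInverse_surjInv hs)
    ⟨ρ, fun c hc => (hρ c).mpr ((hk c).mp hc)⟩
  have hr : ∀ c, r (π c) = ρ c := fun c => MonoidHom.liftOfRightInverse_comp_apply _ _ _ _ _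
  have hi : R.Fa X (R.VV r) := fun x hx => by
    obtain ⟨c, rfl⟩ := hs x
    exact (hk c).mpr ((hρ c).mp (hr c ▸ Subtype.ext (Equiv.ext hx)))
  obtain ⟨b, c, B, A, hg⟩ := GG.classify hi (Nat.card_fin 4096)
  let φ : ℕ → ℕ := fun v => (R.vec b v).1
  have φl : ∀ v, φ v < 4096 := fun v => (R.vec b v).2
  have h1 : ∀ u v, φ (u ^^^ v) = φ u ^^^ φ v := fun u v => congrArg Fin.val (R.vec_xor b u v)
  have h0 : φ 0 = 0 := by have := h1 0 0; rwa [Nat.xor_self, Nat.xor_self] at this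
  have sm : ∀ x (v : R.VV r), (π x • v).1 = rc z a x v.1 := fun x v => by
    change ((r (π x)).1 v).1 = _
    rw [hr]; rfl
  have h2 := R.gram (m := m) φl h1 (fun v hv => by
      obtain ⟨u, hu, e⟩ := B.surj ⟨v, hv⟩
      exact ⟨u, hu, congrArg Fin.val e⟩) fun p hp => by
    obtain ⟨x, hx⟩ := hs (evL c p.2.2)
    have := A.w (R.hQW p hp).1 p.2.1
    rw [(R.hQW p hp).2, ← hx] at this
    change qf m (R.vec b p.1).1 = _
    rw [← this, sm, rc_qf E F (mem_cen.mp x.2) (φl _)]
  have h2' : ∀ v, (R.QW.any fun p => p.1 == v) = true → qf m (φ v) = qf false v := fun v h => by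
    simp only [List.any_eq_true, beq_iff_eq] at h
    obtain ⟨p, hp, rfl⟩ := h
    exact h2 p hp
  have h3 : ∀ i < 12, qf m (φ (2 ^ i)) = qf false (2 ^ i) := fun i hi =>
    h2' _ (by revert i; decide +kernel)
  have h4 : ∀ i < 12, ∀ j < 12, qf m (φ (2 ^ i ^^^ 2 ^ j)) = qf false (2 ^ i ^^^ 2 ^ j) := fun i hi j hj => by
    by_cases e : i = j
    · rw [e, Nat.xor_self, h0]; cases m <;> decide +kernel
    · exact h2' _ (by revert i j; decide +kernel)
  let a' : ℕ → G := fun j => evL (fa z a) (bw (φ (2 ^ j)))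
  have ca : ∀ j, co a (a' j) = φ (2 ^ j) := fun j => co_bw E F (φl _)
  have F' : Fr z Q false a' := by
    refine ⟨fun i _ => ev_mem E F _, fun i hi => ?_, fun i hi j hj => ?_⟩
    · rw [sq_co E F (ev_mem E F _), ca, h3 i hi]
      exact if_congr ((by decide +kernel : ∀ i < 12, qf false (2 ^ i) = true ↔ false = true ∧ i % 6 = 5) i hi)
        rfl rfl
    · rw [comm_co E F (ev_mem E F _) (ev_mem E F _), ca, ca, ← h1, h3 i hi, h3 j hj, h4 i hi j hj, ← ite_not]
      exact if_congr ((by decide +kernel : ∀ i < 12, ∀ j < 12,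
        ¬ qf false (2 ^ i ^^^ 2 ^ j) = xor (qf false (2 ^ i)) (qf false (2 ^ j)) ↔ j = pr i) i hi j hj) rfl rfl
  have c1 : ∀ w, co a (evL (fa z a') w) = φ (xs w) := fun w => by
    induction w with
    | nil => exact co_one.trans h0.symm
    | cons l w ih =>
      rw [evL_cons, co_mul E F (fa_mem E F' l) (ev_mem E F' w), ih, show xs (l :: w) = x1 l ^^^ xs w from rfl,
        h1]
      congr 1
      unfold fa x1
      split_ifs with e1 e2 e2
      · omega
      · exact (co_z E F).trans h0.symm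
      · exact ca _
      · exact co_one.trans h0.symm
  have c2 : ∀ p ∈ Q, co a p = φ (co a' p) := fun p hp => by
    have := c1 (bw (co a' p))
    rw [xs_bw _ (co_lt _ _)] at this
    rcases nf E F' hp with e | e
    · rw [← this, ← e]
    · rw [← this, ← co_zm E F (ev_mem E F' _), ← e]
  have c3 : ∀ (x : centralizer ({z} : Set G)), ∀ v < 4096, R.vec b (rc z a' x v) = π x • R.vec b v :=
    fun x v hv => by
      refine Fin.ext ?_
      rw [sm, rc]
      change φ _ = _
      rw [← c2 _ (E.nrm _ (mem_cen.mp x.2) _ (ev_mem E F' _)),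
        co_conj E F (mem_cen.mp x.2) (ev_mem E F' _), c1, xs_bw _ hv]
  let s : ℕ → centralizer ({z} : Set G) := fun l => Function.surjInv hs (c l)
  have hs' : ∀ l, π (s l) = c l := fun l => Function.surjInv_eq hs _
  refine ⟨a', fun l => s l, E, F', fun l => mem_cen.mp (s l).2, fun l l1 l2 v hv => ?_, fun x hx => ?_⟩
  · have := c3 (s l) v hv
    rw [hs', A l (by interval_cases l <;> decide)] at this
    rw [im, frc_eq, R.RM_eq]
    exact B.eq (co_lt _ _) (R.ap12_lt _ _) this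
  · obtain ⟨w, hw, e⟩ := hg (π ⟨x, mem_cen.mpr hx⟩)
    refine ⟨w, fun l hl => ?_, ?_⟩
    · exact (by decide : ∀ l ∈ R.LL, 14 ≤ l ∧ l < 25) l
        (List.contains_iff_mem.mp (List.all_eq_true.mp hw l hl))
    · have k : ∀ w, π (evL s w) = evL c w ∧ ((evL s w : centralizer ({z} : Set G)) : G) =
          evL (fun l => (s l : G)) w := fun w => by
        induction w with
        | nil => exact ⟨map_one π, rfl⟩
        | cons l w ih => exact ⟨by rw [evL_cons, evL_cons, map_mul, ih.1, hs'], by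
            rw [evL_cons, evL_cons, ← ih.2]; rfl⟩
      rw [← (k w).2]
      exact (hk (⟨x, mem_cen.mpr hx⟩ * (evL s w)⁻¹)).mp (by rw [map_mul, map_inv, (k w).1, e, mul_inv_cancel])

theorem start {t : G} (ht : orderOf t = 2) (Q N M : Subgroup (centralizer ({t} : Set G)))
    [Q.Normal] [hNn : N.Normal] [M.Normal] (hQN : Q ≤ N) (hNM : N ≤ M) (hM : M.index = 2)
    (hQ : IsExtraspecial 2 Q) (hcard : Nat.card Q = 2 ^ 13) (hN : Nat.card N = 3 * Nat.card Q)
    (hcent : ⁅M, N⁆ ≤ Q) (hperf : M ≤ ⁅M, M⁆ ⊔ Q)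
    (h2c : centralizer (Q : Set (centralizer ({t} : Set G))) ≤ Q)
    (hM22 : Spor.IsoM22 (M ⧸ N.subgroupOf M)) :
    ∃ (Q' : Subgroup G) (a c : ℕ → G), Ch t Q' a c := by
  obtain ⟨e⟩ := hM22
  have c1 : Nat.card (centralizer ({t} : Set G)) = 8192 * 2661120 := by
    rw [← M.card_mul_index, hM, card_eq_card_quotient_mul_card_subgroup (N.subgroupOf M),
      Nat.card_congr e.toEquiv, R.main.2.1, Nat.card_congr (subgroupOfEquivOfLe hNM).toEquiv, hN, hcard]
    norm_num
  let π := QuotientGroup.mk' Q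
  have hs : Function.Surjective π := QuotientGroup.mk'_surjective Q
  have hk : ∀ c, π c = 1 ↔ c ∈ Q := fun c => QuotientGroup.eq_one_iff c
  let ψ := π.subgroupMap M
  have sψ : Function.Surjective ψ := π.subgroupMap_surjective M
  let κ : M →* Spor.M22 := e.toMonoidHom.comp (QuotientGroup.mk' _)
  have kκ : ∀ m, κ m = 1 ↔ m.1 ∈ N := fun m => by simp [κ, QuotientGroup.eq_one_iff, mem_subgroupOf]
  let p : M.map π →* Spor.M22 := ψ.liftOfRightInverse (Function.surjInv sψ)
    (Function.rightInverse_surjInv sψ) ⟨κ, fun m hm => (kκ m).mpr (hQN ((hk m).mp (congrArg Subtype.val hm)))⟩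
  have hp : ∀ m, p (ψ m) = κ m := fun m => MonoidHom.liftOfRightInverse_comp_apply _ _ _ _ _
  have sp : Function.Surjective p := fun y => by
    obtain ⟨m, rfl⟩ := (e.surjective.comp (QuotientGroup.mk'_surjective _)) y
    exact ⟨ψ m, hp m⟩
  have hi : (M.map π).index = 2 := by
    rw [index_map_eq _ hs (by rw [QuotientGroup.ker_mk']; exact hQN.trans hNM), hM]
  have C : R.Cv p := by
    refine ⟨sp, ?_, fun k hk' h => ?_, eq_top_iff.mpr fun h _ => ?_⟩
    · have h1 := p.ker.card_mul_index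
      rw [index_ker, MonoidHom.range_eq_top.mpr sp, card_top, R.main.2.1] at h1
      have h2 := (M.map π).card_mul_index
      have h3 := card_eq_card_quotient_mul_card_subgroup Q
      rw [hi] at h2
      rw [c1, hcard] at h3
      omega
    · obtain ⟨k, rfl⟩ := sψ k
      obtain ⟨h, rfl⟩ := sψ h
      refine Subtype.ext (commutatorElement_eq_one_iff_mul_comm.mp
        ((map_commutatorElement π h.1 k.1).symm.trans ((hk _).mpr ?_)))
      exact hcent (commutator_mem_commutator h.2 ((kκ k).mp (hp k ▸ hk')))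
    · have h1 := map_mono (f := π) hperf h.2
      rw [Subgroup.map_sup, (map_eq_bot_iff Q).mpr (by rw [QuotientGroup.ker_mk']), sup_bot_eq,
        map_commutator, ← map_subtype_commutator] at h1
      obtain ⟨h', h2, h3⟩ := h1
      exact (Subtype.ext h3 : h' = h) ▸ h2
  obtain ⟨g, GG⟩ := R.exists_gn C hi fun x k hk' => by
    obtain ⟨k, rfl⟩ := sψ k
    obtain ⟨x, rfl⟩ := hs x
    have := hNn.conj_mem _ ((kκ k).mp (hp k ▸ hk')) x
    exact ⟨ψ ⟨_, hNM this⟩, by rw [hp, kκ]; exact this, by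
      change _ = π (x * k * x⁻¹)
      rw [map_mul, map_mul, map_inv]; rfl⟩
  obtain ⟨a, c, h⟩ := exists_ch (es_of ht Q h2c hQ hcard c1) π hs (fun c => (hk c).trans
    ⟨fun h => ⟨c, h, rfl⟩, fun ⟨d, h, e⟩ => (Subtype.ext e : d = c) ▸ h⟩) GG
  exact ⟨_, a, c, h⟩

end Cfsg.J4R
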