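import Cfsg.Agent.J4R.S0

/-! Change of charts and counting. -/

set_option autoImplicit false
set_option maxRecDepth 100000
set_option linter.unusedSectionVars false

namespace Cfsg.J4R

open Subgroup Cfsg.H6
open Cfsg.Co.Rc (mem_cen card_le_two)

variable {G : Type*} [Group G] [Finite G] {z : G} {Q : Subgroup G} {a c : ℕ → G}

theorem rc_lt (x : G) (v : ℕ) : rc z a x v < 4096 := co_lt _ _

theorem lin_ext {f g : ℕ → ℕ} (hf : ∀ u < 4096, ∀ v < 4096, f (u ^^^ v) = f u ^^^ f v)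
    (hg : ∀ u < 4096, ∀ v < 4096, g (u ^^^ v) = g u ^^^ g v) (h : ∀ v ∈ b12, f v = g v) :
    ∀ v < 4096, f v = g v := fun v => by
  induction v using Nat.strong_induction_on with
  | _ v ih =>
    intro hv
    by_cases h0 : v = 0
    · subst h0
      have a1 := hf 0 hv 0 hv
      have a2 := hg 0 hv 0 hv
      rw [Nat.xor_self, Nat.xor_self] at a1 a2
      rw [a1, a2]
    obtain ⟨i, h1, h2⟩ := Nat.exists_most_significant_bit h0
    have hi : i < 12 := by
      by_contra k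
      rw [Nat.testBit_lt_two_pow (hv.trans_le (Nat.pow_le_pow_right (n := 2) (i := 12)
        (by norm_num) (by omega)))] at h1
      exact absurd h1 (by simp)
    have h3 : v ^^^ 2 ^ i < v := Nat.lt_of_testBit i (by simp [h1]) h1 fun j hj => by
      rw [Nat.testBit_xor, Nat.testBit_two_pow, decide_eq_false (by omega), Bool.xor_false]
    have h4 : 2 ^ i < 4096 := Nat.pow_lt_pow_right (a := 2) (n := 12) (by norm_num) hi
    have h5 : 2 ^ i ∈ b12 := by interval_cases i <;> decide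
    rw [← Nat.xor_xor_cancel_right v (2 ^ i), hf _ (h3.trans hv) _ h4, hg _ (h3.trans hv) _ h4,
      ih _ h3 (h3.trans hv), h _ h5]

theorem b12_lt : ∀ v ∈ b12, v < 4096 := by decide

theorem im_lt {l : ℕ} (hl : l < 25) : ∀ v < 4096, im l v < 4096 := fun v hv => by
  have := lin_ext (f := fun v => im l v / 4096) (g := fun _ => 0) (fun u _ v _ => by
    rw [im_xor]
    exact Nat.xor_div_two_pow (n := 12)) (fun _ _ _ _ => rfl)
    (fun v hv => Nat.div_eq_of_lt (im_im l hl v hv).2) v hv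
  omega

theorem im_inv {l : ℕ} (hl : l < 25) : ∀ v < 4096, im l (im l v) = v :=
  lin_ext (fun _ _ _ _ => by rw [im_xor, im_xor]) (fun _ _ _ _ => rfl) fun v hv => (im_im l hl v hv).1

theorem ES.conj (E : ES z Q) (c : G) : ES (c * z * c⁻¹) (Q.map (MulAut.conj c).toMonoidHom) := by
  have m : ∀ q, q ∈ Q.map (MulAut.conj c).toMonoidHom ↔ ∃ p ∈ Q, c * p * c⁻¹ = q := fun _ => Iff.rfl
  have inj : ∀ {x y : G}, c * x * c⁻¹ = c * y * c⁻¹ ↔ x = y := by simp
  have sur : ∀ x : G, ∃ y, x = c * y * c⁻¹ := fun x => ⟨c⁻¹ * x * c, by group⟩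
  refine ⟨by simpa using E.z1, by rw [conj_mul, E.zz]; simp, ⟨z, E.zQ, rfl⟩, ?_, ?_, ?_, ?_, ?_, ?_, ?_⟩
  · intro q hq
    obtain ⟨p, hp, rfl⟩ := (m q).mp hq
    rw [conj_mul, conj_mul, E.qz p hp]
  · intro x hx q hq
    obtain ⟨p, hp, rfl⟩ := (m q).mp hq
    obtain ⟨x, rfl⟩ := sur x
    rw [conj_mul, conj_mul, inj] at hx
    exact (m _).mpr ⟨_, E.nrm x hx p hp, by group⟩
  · intro x hx h
    obtain ⟨x, rfl⟩ := sur x
    rw [conj_mul, conj_mul, inj] at hx
    refine (E.cen x hx fun q hq => ?_).imp (fun e => by simp [e]) fun e => by rw [e]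
    have := h _ ((m _).mpr ⟨q, hq, rfl⟩)
    rwa [conj_mul, conj_mul, inj] at this
  · intro p hp q hq
    obtain ⟨p', hp', rfl⟩ := (m p).mp hp
    obtain ⟨q', hq', rfl⟩ := (m q).mp hq
    simp only [conj_mul, inj]
    exact E.comm p' hp' q' hq'
  · intro q hq
    obtain ⟨p, hp, rfl⟩ := (m q).mp hq
    rw [conj_mul, inj]
    exact (E.sq p hp).imp (fun e => by simp [e]) id
  · rw [card_map_of_injective (MulAut.conj c).injective, E.card]
  · rw [← E.cardC, ← card_map_of_injective (f := (MulAut.conj c).toMonoidHom)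
      (K := centralizer {z}) (MulAut.conj c).injective]
    congr 2
    ext x
    obtain ⟨x, rfl⟩ := sur x
    rw [mem_cen, conj_mul, conj_mul, inj, ← mem_cen]
    exact (mem_map_iff_mem (f := (MulAut.conj c).toMonoidHom) (MulAut.conj c).injective).symm

/-- Transport of a chart along a conjugation. -/
theorem Ch.conj (h : Ch z Q a c) (g : G) {z' : G} (e : g * z * g⁻¹ = z') :
    ∃ Q' a' c', Ch z' Q' a' c' ∧ (∀ x, g * x * g⁻¹ ∈ Q' ↔ x ∈ Q) ∧
      (∀ x, co a' (g * x * g⁻¹) = co a x) ∧ ∀ x v, rc z' a' (g * x * g⁻¹) v = rc z a x v := by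
  subst e
  have inj : ∀ {x y : G}, g * x * g⁻¹ = g * y * g⁻¹ ↔ x = y := by simp
  have m : ∀ x, g * x * g⁻¹ ∈ Q.map (MulAut.conj g).toMonoidHom ↔ x ∈ Q := fun x =>
    mem_map_iff_mem (f := (MulAut.conj g).toMonoidHom) (MulAut.conj g).injective
  have hco : ∀ x, co (fun j => g * a j * g⁻¹) (g * x * g⁻¹) = co a x := fun x => by
    unfold co
    congr 1
    funext i
    exact decide_eq_decide.mpr (by rw [conj_mul, conj_mul, ne_eq, ne_eq, inj])
  have F : Fr (g * z * g⁻¹) (Q.map (MulAut.conj g).toMonoidHom) false fun j => g * a j * g⁻¹ :=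
    ⟨fun i hi => (m _).mpr (h.fr.mem i hi),
      fun i hi => by rw [conj_mul, h.fr.sq i hi]; split_ifs <;> simp,
      fun i hi j hj => by rw [conj_mul, h.fr.cm i hi j hj]; split_ifs <;> simp only [conj_mul]⟩
  have hrc : ∀ x v, rc (g * z * g⁻¹) (fun j => g * a j * g⁻¹) (g * x * g⁻¹) v = rc z a x v :=
    fun x v => by
      have : evL (fa (g * z * g⁻¹) fun j => g * a j * g⁻¹) (bw v) =
          g * evL (fa z a) (bw v) * g⁻¹ := by
        refine Eq.trans (evL_congr fun l _ => ?_) (map_evL (MulAut.conj g).toMonoidHom _ _).symm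
        unfold fa
        split_ifs <;> simp
      rw [rc, rc, this, ← hco]
      congr 1
      group
  refine ⟨_, _, fun l => g * c l * g⁻¹, ⟨h.es.conj g, F, fun l => by
    rw [conj_mul, conj_mul, h.cz], fun l h1 h2 v hv => by rw [hrc, h.act l h1 h2 v hv],
    fun x hx => ?_⟩, m, hco, hrc⟩
  obtain ⟨x, rfl⟩ : ∃ y, x = g * y * g⁻¹ := ⟨g⁻¹ * x * g, by group⟩
  rw [conj_mul, conj_mul, inj] at hx
  obtain ⟨w, h1, h2⟩ := h.gen x hx
  refine ⟨w, h1, ?_⟩
  rw [show evL (fun l => g * c l * g⁻¹) w = g * evL c w * g⁻¹ from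
    (map_evL (MulAut.conj g).toMonoidHom _ _).symm, conj_inv, conj_mul]
  exact (m _).mpr h2

/-- Change of the frame by an element of the centraliser. -/
theorem Ch.re (h : Ch z Q a c) {g : G} (cz : g * z = z * g) :
    ∃ a' c', Ch z Q a' c' ∧ (∀ x, co a' x = co a (g * x * g⁻¹)) ∧
      ∀ x v, rc z a' x v = rc z a (g * x * g⁻¹) v := by
  have cz' := mem_cen.mp (inv_mem (mem_cen.mpr cz))
  obtain ⟨Q', a', c', h1, h2, h3, h4⟩ := h.conj g⁻¹ (z' := z) (mul_inv_eq_iff_eq_mul.mpr cz')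
  obtain rfl : Q' = Q := by
    ext x
    have := h2 (g * x * g⁻¹)
    rw [show g⁻¹ * (g * x * g⁻¹) * g⁻¹⁻¹ = x by group] at this
    refine this.trans ⟨fun k => ?_, h.es.nrm _ cz _⟩
    simpa [mul_assoc] using h.es.nrm _ cz' _ k
  refine ⟨a', c', h1, fun x => ?_, fun x v => ?_⟩
  · rw [← h3]; congr 1; group
  · rw [← h4]; congr 1; group

variable (h : Ch z Q a c)
include h

theorem rc_ci {l : ℕ} (h1 : 14 ≤ l) (h2 : l < 25) {v : ℕ} (hv : v < 4096) :
    rc z a (c l)⁻¹ v = im l v := by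
  have := rc_mul h.es h.fr (mem_cen.mp (inv_mem (mem_cen.mpr (h.cz l)))) (h.cz l) (im l v)
  rw [inv_mul_cancel, rc_Q h.es h.fr Q.one_mem (im_lt h2 v hv), h.act l h1 h2 _ (im_lt h2 v hv),
    im_inv h2 v hv] at this
  exact this.symm

theorem rc_cj {l : ℕ} (h1 : 14 ≤ l) (h2 : l < 25) {x : G} (hx : x * z = z * x) {v : ℕ}
    (hv : v < 4096) : rc z a (c l * x * (c l)⁻¹) v = im l (rc z a x (im l v)) := by
  have k := mem_cen.mpr (h.cz l)
  rw [rc_mul h.es h.fr (mem_cen.mp (mul_mem k (mem_cen.mpr hx))) (mem_cen.mp (inv_mem k)),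
    rc_mul h.es h.fr (h.cz l) hx, rc_ci h h1 h2 hv, h.act l h1 h2 _ (rc_lt _ _)]

/-- Induction over the centraliser. -/
theorem cen_ind {p : G → Prop} (h0 : ∀ q ∈ Q, p q)
    (h1 : ∀ l, 14 ≤ l → l < 25 → ∀ x, x * z = z * x → p x → p (x * c l)) {x : G}
    (hx : x * z = z * x) : p x := by
  obtain ⟨w, hw, e⟩ := h.gen x hx
  have k : ∀ w : List ℕ, (∀ l ∈ w, 14 ≤ l ∧ l < 25) → ∀ y, y * z = z * y → p y →
      p (y * evL c w) := fun w => by
    induction w with
    | nil => exact fun _ y _ e => by rwa [evL_nil, mul_one]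
    | cons l w ih =>
      intro hw y hy e
      obtain ⟨k1, k2⟩ := List.forall_mem_cons.mp hw
      rw [evL_cons, ← mul_assoc]
      exact ih k2 _ (mem_cen.mp (mul_mem (mem_cen.mpr hy) (mem_cen.mpr (h.cz l))))
        (h1 l k1.1 k1.2 y hy e)
  have := k w hw _ (h.es.qz _ e) (h0 _ e)
  rwa [inv_mul_cancel_right] at this

theorem rc_ext {x y : G} (hx : x * z = z * x) (hy : y * z = z * y)
    (e : ∀ v < 4096, rc z a x v = rc z a y v) : x⁻¹ * y ∈ Q := by
  refine (rho_eq_one h.es h.fr (c := (⟨x, mem_cen.mpr hx⟩ :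
    centralizer ({z} : Set G))⁻¹ * ⟨y, mem_cen.mpr hy⟩)).mp ?_
  rw [map_mul, map_inv, inv_mul_eq_one]
  ext v
  rw [rho_val, rho_val, e v v.2]

theorem comm_iff {p q : G} (hp : p ∈ Q) (hq : q ∈ Q) :
    q * p = p * q ↔ bf (co a p) (co a q) = false := by
  have a1 := sq_co h.es h.fr hp
  have a2 := sq_co h.es h.fr hq
  have a3 := sq_co h.es h.fr (mul_mem hp hq)
  have z1 := h.es.z1
  rw [co_mul h.es h.fr hp hq] at a3
  unfold bf
  rcases h.es.comm p hp q hq with e | e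
  · rw [mul_assoc, ← mul_assoc q, e, mul_assoc, ← mul_assoc, a1, a2] at a3
    revert a3
    cases qf false (co a p) <;> cases qf false (co a q) <;> cases qf false (co a p ^^^ co a q) <;>
      simp [e, z1, z1.symm, h.es.zz]
  · rw [h.es.sq_mul hp e, a1, a2] at a3
    revert a3
    cases qf false (co a p) <;> cases qf false (co a q) <;> cases qf false (co a p ^^^ co a q) <;>
      simp [e, z1, z1.symm, h.es.zz]

theorem sq_iff {p : G} (hp : p ∈ Q) : p * p = 1 ↔ qf false (co a p) = false := by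
  have a1 := sq_co h.es h.fr hp
  rw [a1]
  cases qf false (co a p) <;> simp [h.es.z1]

theorem exv {v : ℕ} (hv : v < 4096) : ∃ p ∈ Q, co a p = v :=
  ⟨_, ev_mem h.es h.fr _, co_bw h.es h.fr hv⟩

/-- All lifts of a vector commute with `s`. -/
def cz (a : ℕ → G) (Q : Subgroup G) (s : G) (v : ℕ) : Prop := ∀ p ∈ Q, co a p = v → p * s = s * p

variable {s : G} (e : s * z = z * s)
include e

theorem cz_of {p : G} (hp : p ∈ Q) (k : p * s = s * p) : cz a Q s (co a p) := fun q hq hc => by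
  rcases eq_of_co h.es h.fr hq hp hc with rfl | rfl
  · exact k
  · rw [mul_assoc, k, ← mul_assoc, ← e, mul_assoc]

theorem cz_xor {u v : ℕ} (hu : u < 4096) (hv : v < 4096) (k : cz a Q s u) (l : cz a Q s v) :
    cz a Q s (u ^^^ v) := by
  obtain ⟨p, hp, rfl⟩ := exv h hu
  obtain ⟨q, hq, rfl⟩ := exv h hv
  rw [← co_mul h.es h.fr hp hq]
  exact cz_of h e (mul_mem hp hq) (by rw [mul_assoc, l q hq rfl, ← mul_assoc, k p hp rfl, mul_assoc])

theorem anti_of {p : G} (hp : p ∈ Q) (k : rc z a s (co a p) = co a p) (n : ¬ cz a Q s (co a p)) :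
    p * s = z * (s * p) := by
  rw [← co_conj h.es h.fr e hp] at k
  rcases eq_of_co h.es h.fr (h.es.nrm _ e _ hp) hp k with k | k <;>
    rw [mul_inv_eq_iff_eq_mul] at k
  · exact absurd (cz_of h e hp k.symm) n
  · rw [k, mul_assoc, h.es.zzm]

theorem cz_anti {u v : ℕ} (hu : u < 4096) (hv : v < 4096) (ku : rc z a s u = u) (kv : rc z a s v = v)
    (k : ¬ cz a Q s u) (l : ¬ cz a Q s v) : cz a Q s (u ^^^ v) := by
  obtain ⟨p, hp, rfl⟩ := exv h hu
  obtain ⟨q, hq, rfl⟩ := exv h hv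
  rw [← co_mul h.es h.fr hp hq]
  exact cz_of h e (mul_mem hp hq)
    (h.es.anti (h.es.qz _ hp) (anti_of h e hp ku k) (anti_of h e hq kv l))

theorem co_n {q : G} (hq : q ∈ Q) : q * s * q⁻¹ * s⁻¹ ∈ Q ∧
    co a (q * s * q⁻¹ * s⁻¹) = co a q ^^^ rc z a s (co a q) := by
  have := h.es.nrm _ e _ (inv_mem hq)
  rw [mul_assoc q, mul_assoc q, co_mul h.es h.fr hq this, co_conj h.es h.fr e (inv_mem hq),
    co_inv h.es h.fr hq]
  exact ⟨mul_mem hq this, rfl⟩

theorem cz_W (ss : s * s = 1) {u : ℕ} (hu : u < 4096) (k : qf false (u ^^^ rc z a s u) = false) :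
    cz a Q s (u ^^^ rc z a s u) := by
  obtain ⟨q, hq, rfl⟩ := exv h hu
  obtain ⟨h1, h2⟩ := co_n h e hq
  rw [← h2] at k ⊢
  refine cz_of h e h1 ?_
  have a1 := (sq_iff h h1).mpr k
  rw [inv_eq_of_mul_eq_one_right ss] at a1 ⊢
  have tt : q * s * q⁻¹ * (q * s * q⁻¹) = 1 := by rw [conj_mul, ss]; simp
  generalize q * s * q⁻¹ = t at *
  conv_rhs => rw [← inv_eq_of_mul_eq_one_right a1, mul_inv_rev, inv_eq_of_mul_eq_one_right ss,
    inv_eq_of_mul_eq_one_right tt, ← mul_assoc, ss, one_mul]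
  rw [mul_assoc, ss, mul_one]

theorem conj_W {p : G} (hp : p ∈ Q) {u : ℕ} (hu : u < 4096) (k : co a p = u ^^^ rc z a s u) :
    IsConj s (p * s) ∨ IsConj (z * s) (p * s) := by
  obtain ⟨q, hq, rfl⟩ := exv h hu
  obtain ⟨h1, h2⟩ := co_n h e hq
  rcases eq_of_co h.es h.fr hp h1 (k.trans h2.symm) with rfl | rfl
  · exact Or.inl (isConj_iff.mpr ⟨q, by group⟩)
  · refine Or.inr (isConj_iff.mpr ⟨q, ?_⟩)
    rw [← mul_assoc q, h.es.qz q hq]
    group

theorem exS (T : List ℕ) (hT : T.Nodup) (h1 : ∀ v ∈ T, v < 4096 ∧ qf false v = false)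
    (h2 : ∀ v ∈ T, cz a Q s v) : ∃ S : Finset G, S.card = 2 * T.length ∧
      ∀ p ∈ S, p ∈ Q ∧ p * s = s * p ∧ p * p = 1 := by
  classical
  have : ∀ v, ∃ p, v < 4096 → p ∈ Q ∧ co a p = v := fun v => by
    by_cases hv : v < 4096
    · obtain ⟨p, hp⟩ := exv h hv
      exact ⟨p, fun _ => hp⟩
    · exact ⟨1, fun e => absurd e hv⟩
  choose f hf using this
  have k : ∀ v ∈ T, ∀ b : Bool, (if b = true then z * f v else f v) ∈ Q ∧
      co a (if b = true then z * f v else f v) = v := fun v hv b => by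
    obtain ⟨k1, k2⟩ := hf v (h1 v hv).1
    cases b
    exacts [⟨k1, k2⟩, ⟨mul_mem h.es.zQ k1, (co_zm h.es h.fr k1).trans k2⟩]
  refine ⟨(T.toFinset ×ˢ Finset.univ).image fun x : ℕ × Bool =>
    if x.2 = true then z * f x.1 else f x.1, ?_, fun p hp => ?_⟩
  · rw [Finset.card_image_of_injOn, Finset.card_product, List.toFinset_card_of_nodup hT, mul_comm]
    · rfl
    · rintro ⟨u, b⟩ hu ⟨v, c⟩ hv e
      simp only [Finset.coe_product, Set.mem_prod, Finset.mem_coe, List.mem_toFinset] at hu hv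
      obtain rfl : u = v := by rw [← (k u hu.1 b).2, ← (k v hv.1 c).2]; exact congrArg _ e
      cases b <;> cases c
      exacts [rfl, absurd e.symm (h.es.ne _), absurd e (h.es.ne _), rfl]
  · obtain ⟨⟨v, b⟩, hv, rfl⟩ := Finset.mem_image.mp hp
    simp only [Finset.mem_product, List.mem_toFinset] at hv
    obtain ⟨k1, k2⟩ := k v hv.1 b
    exact ⟨k1, h2 v hv.1 _ k1 k2, (sq_iff h k1).mpr (k2.symm ▸ (h1 v hv.1).2)⟩

end Cfsg.J4R
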