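import Cfsg.Agent.J4R.S1

/-! The involutions of the stabiliser of the first basis vector. -/

set_option autoImplicit false
set_option maxRecDepth 100000
set_option linter.unusedSectionVars false

namespace Cfsg.J4R

open Subgroup Cfsg.H6
open Cfsg.Co.Rc (mem_cen card_le_two)

variable {G : Type*} [Group G] [Finite G] {z : G} {Q : Subgroup G} {a c : ℕ → G}

/-- The element acts as the matrix. -/
def Mt (z : G) (a : ℕ → G) (x : G) (A : ℕ) : Prop := ∀ v < 4096, rc z a x v = ap12 A v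

/-- Representatives of the orbits of the stabiliser on the second orbit. -/
def UR : List ℕ := [17, 28, 66, 72, 129, 132, 264]

theorem not_allR {f : ℕ → Bool} {lo : ℕ} : ∀ {n : ℕ}, allR f lo n = false →
    ∃ i, lo ≤ i ∧ i < lo + n ∧ f i = false
  | 0, h => nomatch h
  | n + 1, h => by
    replace h : andB (f (lo + n)) (allR f lo n) = false := h
    cases e : f (lo + n)
    · exact ⟨_, by omega, by omega, e⟩
    · rw [e] at h
      obtain ⟨i, a1, a2, a3⟩ := not_allR (f := f) (lo := lo) (n := n) h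
      exact ⟨i, a1, by omega, a3⟩

theorem hV1 {v : ℕ} (hv : v < 4096) (h : o1 v = true) : (∀ l, 14 ≤ l → l < 25 → o1 (im l v) = true) ∧
    (v = 1 ∨ ∃ l, 14 ≤ l ∧ l < 25 ∧ fld tD 4 (im l v) 0 4 < fld tD 4 v 0 4) := by
  have k := allR_spec chkV v (Nat.zero_le _) (by omega)
  rw [okV, h, cond_true, andB_eq_true, Bool.or_eq_true, Nat.beq_eq, Bool.not_eq_true'] at k
  refine ⟨fun l h1 h2 => ?_, k.2.imp_right fun e => ?_⟩
  · have := allR_spec k.1 l h1 h2
    rwa [frcB_eq] at this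
  · obtain ⟨l, h1, h2, h3⟩ := not_allR e
    rw [frcB_eq, ← Bool.not_eq_true, Nat.ble_eq] at h3
    exact ⟨l, h1, h2, by omega⟩

theorem hV2 {v : ℕ} (hv : v < 4096) (h : o1 v = false) (q : qf false v = false) (h0 : v ≠ 0) :
    v ∈ UR ∨ ∃ l ∈ SL4, fld tE 4 (im l v) 0 4 < fld tE 4 v 0 4 := by
  have k := allR_spec chkV v (Nat.zero_le _) (by omega)
  rw [okV, h, cond_false, q, Bool.false_or, Bool.or_eq_true, Bool.not_eq_true',
    List.contains_iff_mem, List.mem_cons] at k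
  refine k.imp (fun e => e.resolve_left h0) fun e => ?_
  by_contra n
  push Not at n
  rw [allL_iff.mpr fun l hl => by rw [frcB_eq, Nat.ble_eq]; exact n l hl] at e
  exact absurd e (by simp)

theorem hS {i : ℕ} (hi : i < 3840) : ap12 (SM i) 1 = 1 ∧ (i + 1 = 3840 ∨ ky (SM i) < ky (SM (i + 1))) ∧
    ((∀ v ∈ b12, ap12 (SM i) v = v) ∨ ∃ l ∈ SL4, ∃ p < 3840, fld tS 176 p 161 5 < fld tS 176 i 161 5 ∧
      ∀ v ∈ b12, ap12 (SM i) v = ap12 (SM p) (im l v)) ∧
    ((∀ v ∈ b12, ap12 (SM i) (ap12 (SM i) v) = v) → ∃ k < 232, IL k = SM i) := by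
  have k := allR_spec chkS i (Nat.zero_le _) (by omega)
  simp only [okS, frcB_eq, frc_eq, andB_eq_true, Bool.or_eq_true, Nat.beq_eq, Nat.blt_eq] at k
  obtain ⟨k1, k2, k3, k4⟩ := k
  refine ⟨k1, k2, ?_, fun e => ?_⟩
  · cases e : Nat.beq (fld tS 176 i 156 5) 0 <;> rw [e] at k3
    · simp only [cond_false, andB_eq_true, allL_iff, Nat.beq_eq, Nat.blt_eq,
        List.contains_iff_mem] at k3
      exact Or.inr ⟨_, k3.1, _, k3.2.1, k3.2.2⟩
    · simp only [cond_true, allL_iff, Nat.beq_eq] at k3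
      exact Or.inl k3
  · rw [allL_iff.mpr fun v hv => by rw [Nat.beq_eq]; exact e v hv, cond_true, andB_eq_true,
      Nat.beq_eq, Nat.blt_eq] at k4
    exact ⟨_, k4⟩

theorem hI {i : ℕ} (hi : i < 232) : i < 8 ∨ ∃ l ∈ SL4, ∃ p < i,
    ∀ v ∈ b12, ap12 (IL p) v = im l (ap12 (IL i) (im l v)) := by
  have k := allR_spec chkI i (Nat.zero_le _) (by omega)
  simp only [okI, frcB_eq, frc_eq, andB_eq_true, Bool.or_eq_true, Nat.beq_eq, Nat.blt_eq, allL_iff,
    List.contains_iff_mem] at k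
  exact k.imp_right fun e => ⟨_, e.1, _, e.2⟩

variable (h : Ch z Q a c)
include h

theorem Mt_of {x : G} (hx : x * z = z * x) {A : ℕ} (e : ∀ v ∈ b12, rc z a x v = ap12 A v) :
    Mt z a x A :=
  lin_ext (fun _ hu _ hv => rc_xor h.es h.fr hx hu hv) (fun _ _ _ _ => ap12_xor _ _ _) e

theorem o1_rc {x : G} (hx : x * z = z * x) : ∀ v < 4096, o1 v = true → o1 (rc z a x v) = true := by
  refine cen_ind h (p := fun x => ∀ v < 4096, o1 v = true → o1 (rc z a x v) = true)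
    (fun q hq v hv e => by rwa [rc_Q h.es h.fr hq hv]) (fun l h1 h2 y hy k v hv e => ?_) hx
  rw [rc_mul h.es h.fr hy (h.cz l), h.act l h1 h2 v hv]
  exact k _ (im_lt h2 v hv) ((hV1 hv e).1 l h1 h2)

theorem o1_to {v : ℕ} (hv : v < 4096) (e : o1 v = true) : ∃ x, x * z = z * x ∧ rc z a x v = 1 := by
  induction hn : fld tD 4 v 0 4 using Nat.strong_induction_on generalizing v with
  | _ n ih =>
    rcases (hV1 hv e).2 with rfl | ⟨l, h1, h2, h3⟩
    · exact ⟨1, by rw [one_mul, mul_one], rc_Q h.es h.fr Q.one_mem hv⟩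
    · obtain ⟨x, k1, k2⟩ := ih _ (hn ▸ h3) (im_lt h2 v hv) ((hV1 hv e).1 l h1 h2) rfl
      exact ⟨x * c l, mem_cen.mp (mul_mem (mem_cen.mpr k1) (mem_cen.mpr (h.cz l))), by
        rw [rc_mul h.es h.fr k1 (h.cz l), h.act l h1 h2 v hv, k2]⟩

theorem exSM {i : ℕ} (hi : i < 3840) : ∃ x, x * z = z * x ∧ Mt z a x (SM i) := by
  induction hn : fld tS 176 i 161 5 using Nat.strong_induction_on generalizing i with
  | _ n ih =>
    rcases (hS hi).2.2.1 with e | ⟨l, h1, p, h2, h3, e⟩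
    · exact ⟨1, by rw [one_mul, mul_one], Mt_of h (by rw [one_mul, mul_one]) fun v hv => by
        rw [e v hv, rc_Q h.es h.fr Q.one_mem (b12_lt v hv)]⟩
    · obtain ⟨x, k1, k2⟩ := ih _ (hn ▸ h3) h2 rfl
      obtain ⟨l1, l2, -⟩ := GL_fix l h1
      have k3 := mem_cen.mp (mul_mem (mem_cen.mpr k1) (mem_cen.mpr (h.cz l)))
      exact ⟨x * c l, k3, Mt_of h k3 fun v hv => by
        rw [rc_mul h.es h.fr k1 (h.cz l), h.act l l1 l2 v (b12_lt v hv), e v hv,
          k2 _ (im_lt l2 v (b12_lt v hv))]⟩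

theorem stab : Odd (fixS (rho h.es h.fr).range.subtype [1]).index ∧
    ∀ x, x * z = z * x → rc z a x 1 = 1 → ∃ i < 3840, Mt z a x (SM i) := by
  classical
  have h1 := card_fixS_cons (rho h.es h.fr).range.subtype 1 []
  rw [fixS_nil, card_top, card_range] at h1
  have h2 : ((((List.range 4096).filter o1).toFinset.image fun v =>
      (⟨v % 4096, Nat.mod_lt _ (by norm_num)⟩ : Fin 4096) : Finset _) : Set (Fin 4096)) ⊆
      orb (rho h.es h.fr).range.subtype ⊤ 1 := by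
    intro p hp
    obtain ⟨v, hv, rfl⟩ := Finset.mem_image.mp hp
    rw [List.mem_toFinset, List.mem_filter, List.mem_range] at hv
    obtain ⟨x, k1, k2⟩ := o1_to h hv.1 hv.2
    refine ⟨⟨_, ⟨x, mem_cen.mpr k1⟩, rfl⟩, mem_top _, Equiv.Perm.inv_eq_iff_eq.mpr (Fin.ext ?_)⟩
    change 1 = rc z a x (v % 4096)
    rw [Nat.mod_eq_of_lt hv.1, k2]
  have h3 := Set.ncard_le_ncard h2 (Set.toFinite _)
  rw [Set.ncard_coe_finset, Finset.card_image_of_injOn (fun u hu v hv e => by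
    rw [Finset.mem_coe, List.mem_toFinset, List.mem_filter, List.mem_range] at hu hv
    have := congrArg Fin.val e
    simp only at this
    omega), List.toFinset_card_of_nodup (List.nodup_range.filter _), cntO] at h3
  have h4 : Nat.card (fixS (rho h.es h.fr).range.subtype [1]) ≤ 3840 := by nlinarith
  choose f f1 f2 using fun i : Fin 3840 => exSM h i.2
  have mono : ∀ i j, i < j → j < 3840 → ky (SM i) < ky (SM j) := by
    intro i j hij
    induction j, hij using Nat.le_induction with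
    | base => exact fun hj => (hS (by omega)).2.1.resolve_left (by omega)
    | succ j _ ih => exact fun hj => (ih (by omega)).trans ((hS (by omega)).2.1.resolve_left (by omega))
  have bij := Function.Injective.bijective_of_nat_card_le
    (f := fun i : Fin 3840 => (⟨⟨_, ⟨f i, mem_cen.mpr (f1 i)⟩, rfl⟩, fun b hb => by
      obtain rfl := List.mem_singleton.mp hb
      exact Fin.ext ((f2 i 1 (by norm_num)).trans (hS i.2).1)⟩ :
        fixS (rho h.es h.fr).range.subtype [1])) (fun i j e => by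
      have e1 : ∀ v < 4096, ap12 (SM i) v = ap12 (SM j) v := fun v hv => by
        rw [← f2 i v hv, ← f2 j v hv]
        exact congrArg (fun σ : fixS (rho h.es h.fr).range.subtype [1] => (σ.1.1 ⟨v, hv⟩).1) e
      have e2 : ky (SM i) = ky (SM j) := by rw [ky, ky, e1 4 (by norm_num), e1 2048 (by norm_num)]
      rcases lt_trichotomy i j with k | k | k
      exacts [absurd e2 (mono _ _ k j.2).ne, k, absurd e2 (mono _ _ k i.2).ne']) (by simpa using h4)
  refine ⟨?_, fun x hx e => ?_⟩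
  · have h5 := (fixS (rho h.es h.fr).range.subtype [1]).card_mul_index
    rw [← Nat.card_eq_of_bijective _ bij, card_range, Nat.card_fin] at h5
    rw [show (fixS (rho h.es h.fr).range.subtype [1]).index = 693 by omega]
    decide
  · obtain ⟨i, k⟩ := bij.2 ⟨⟨_, ⟨x, mem_cen.mpr hx⟩, rfl⟩, fun b hb => by
      obtain rfl := List.mem_singleton.mp hb
      exact Fin.ext e⟩
    exact ⟨i, i.2, fun v hv => by
      rw [← f2 i v hv]
      exact (congrArg (fun σ : fixS (rho h.es h.fr).range.subtype [1] => (σ.1.1 ⟨v, hv⟩).1) k).symm⟩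

theorem exI {x : G} (hx : x * z = z * x) (e : rc z a x 1 = 1) (h2 : x * x ∈ Q) :
    ∃ i < 232, Mt z a x (IL i) := by
  obtain ⟨i, hi, k⟩ := (stab h).2 x hx e
  obtain ⟨j, hj, l⟩ := (hS hi).2.2.2 fun v hv => by
    rw [← k v (b12_lt v hv), ← k _ (rc_lt _ _), ← rc_mul h.es h.fr hx hx,
      rc_Q h.es h.fr h2 (b12_lt v hv)]
  exact ⟨j, hj, l ▸ k⟩

/-- A `2`-subgroup fixes the first basis vector of a suitable chart. -/
theorem red {P : Subgroup G} (hP : IsPGroup 2 P) (hz : ∀ p ∈ P, p * z = z * p) :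
    ∃ g, g * z = z * g ∧ ∀ p ∈ P, rc z a (g * p * g⁻¹) 1 = 1 := by
  have : Fact (Nat.Prime 2) := ⟨Nat.prime_two⟩
  have hp := (hP.comap_subtype (K := centralizer {z})).map (rho h.es h.fr).rangeRestrict
  obtain ⟨q, hq⟩ := hp.nonempty_fixed_point_of_prime_not_dvd_card
    (_ ⧸ fixS (rho h.es h.fr).range.subtype [1])
    (by rw [← Subgroup.index, ← even_iff_two_dvd]; exact Nat.not_even_iff_odd.mpr (stab h).1)
  induction q using QuotientGroup.induction_on with
  | H g =>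
    obtain ⟨g, rfl⟩ := (rho h.es h.fr).rangeRestrict_surjective g
    refine ⟨g.1⁻¹, mem_cen.mp g⁻¹.2, fun p k => ?_⟩
    have h1 := hq ⟨_, ⟨p, mem_cen.mpr (hz p k)⟩, k, rfl⟩
    have h2 : ((rho h.es h.fr).rangeRestrict ⟨p, mem_cen.mpr (hz p k)⟩ *
        (rho h.es h.fr).rangeRestrict g)⁻¹ * (rho h.es h.fr).rangeRestrict g ∈
          fixS (rho h.es h.fr).range.subtype [1] := QuotientGroup.eq.mp h1
    have h3 : (rho h.es h.fr).rangeRestrict (g⁻¹ * ⟨p, mem_cen.mpr (hz p k)⟩ * g⁻¹⁻¹) ∈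
        fixS (rho h.es h.fr).range.subtype [1] := by
      rw [inv_inv, map_mul, map_mul, map_inv, mul_assoc]
      have := inv_mem h2
      rwa [_root_.mul_inv_rev, inv_inv] at this
    exact congrArg Fin.val (h3 1 List.mem_cons_self)

theorem red1 {P : Subgroup G} (hP : IsPGroup 2 P) (hz : ∀ p ∈ P, p * z = z * p) :
    ∃ a' c', Ch z Q a' c' ∧ (∀ p ∈ P, rc z a' p 1 = 1) ∧
      ∀ q ∈ Q, o1 (co a' q) = true → o1 (co a q) = true := by
  obtain ⟨g, h1, h2⟩ := red h hP hz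
  obtain ⟨a', c', k1, k2, k3⟩ := h.re h1
  refine ⟨a', c', k1, fun p hp => (k3 _ _).trans (h2 p hp), fun q hq e => ?_⟩
  have g' := mem_cen.mp (inv_mem (mem_cen.mpr h1))
  have := o1_rc h g' _ (co_lt _ _) e
  rwa [k2, ← co_conj h.es h.fr g' (h.es.nrm _ h1 _ hq), show g⁻¹ * (g * q * g⁻¹) * g⁻¹⁻¹ = q by group]
    at this

theorem reL {P : Subgroup G} (hz : ∀ p ∈ P, p * z = z * p) (hP : ∀ p ∈ P, rc z a p 1 = 1) {l : ℕ}
    (hl : l ∈ SL4) : ∃ a' c', Ch z Q a' c' ∧ (∀ p ∈ P, rc z a' p 1 = 1) ∧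
      (∀ q ∈ Q, co a' q = im l (co a q)) ∧ ∀ x, x * z = z * x → ∀ v < 4096,
        rc z a' x v = im l (rc z a x (im l v)) := by
  obtain ⟨l1, l2, l3⟩ := GL_fix l hl
  obtain ⟨a', c', k1, k2, k3⟩ := h.re (h.cz l)
  refine ⟨a', c', k1, fun p hp => ?_, fun q hq => ?_, fun x hx v hv => ?_⟩
  · rw [k3, rc_cj h l1 l2 (hz p hp) (by norm_num), l3, hP p hp, l3]
  · rw [k2, co_conj h.es h.fr (h.cz l) hq, h.act l l1 l2 _ (co_lt _ _)]
  · rw [k3, rc_cj h l1 l2 hx hv]

theorem redI {P : Subgroup G} (hP : IsPGroup 2 P) (hz : ∀ p ∈ P, p * z = z * p) {s : G}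
    (hs : s ∈ P) (h2 : s * s ∈ Q) : ∃ a' c', Ch z Q a' c' ∧ (∀ p ∈ P, rc z a' p 1 = 1) ∧
      ∃ j < 8, Mt z a' s (IL j) := by
  obtain ⟨a', c', h', k, -⟩ := red1 h hP hz
  obtain ⟨i, hi, e⟩ := exI h' (hz s hs) (k s hs) h2
  clear h
  induction i using Nat.strong_induction_on generalizing a' c' with
  | _ i ih =>
    rcases hI hi with k1 | ⟨l, l1, p, l2, l3⟩
    · exact ⟨a', c', h', k, i, k1, e⟩
    · obtain ⟨a2, c2, m1, m2, -, m3⟩ := reL h' hz k l1
      refine ih p l2 a2 c2 m1 m2 (by omega) (Mt_of m1 (hz s hs) fun v hv => ?_)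
      rw [m3 s (hz s hs) v (b12_lt v hv), l3 v hv, e _ (im_lt (GL_fix l l1).2.1 v (b12_lt v hv))]

theorem redV {P : Subgroup G} (hP : IsPGroup 2 P) (hz : ∀ p ∈ P, p * z = z * p) {s : G}
    (hs : s ∈ Q) (h2 : s * s = 1) (h1 : s ≠ 1) (h3 : s ≠ z) (h4 : o1 (co a s) = false) :
    ∃ a' c', Ch z Q a' c' ∧ (∀ p ∈ P, rc z a' p 1 = 1) ∧ co a' s ∈ UR := by
  obtain ⟨a', c', h', k, e⟩ := red1 h hP hz
  replace e : o1 (co a' s) = false := Bool.eq_false_iff.mpr fun l => by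
    rw [e s hs l] at h4
    exact absurd h4 (by simp)
  clear h h4
  induction hn : fld tE 4 (co a' s) 0 4 using Nat.strong_induction_on generalizing a' c' with
  | _ n ih =>
    rcases hV2 (co_lt _ _) e ((sq_iff h' hs).mp h2) (fun l =>
      (eq_of_co_zero h'.es h'.fr hs l).elim h1 h3) with k1 | ⟨l, l1, l2⟩
    · exact ⟨a', c', h', k, k1⟩
    · obtain ⟨a2, c2, m1, m2, m3, -⟩ := reL h' hz k l1
      obtain ⟨l3, l4, -⟩ := GL_fix l l1
      refine ih _ (hn ▸ l2) a2 c2 m1 m2 (Bool.eq_false_iff.mpr fun n => ?_) (by rw [m3 s hs])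
      rw [m3 s hs] at n
      have := (hV1 (im_lt l4 _ (co_lt _ _)) n).1 l l3 l4
      rw [im_inv l4 _ (co_lt _ _), e] at this
      exact absurd this (by simp)

theorem pig {S F : Finset G} {L : List ℕ} (h1 : ∀ p ∈ S, p * z = z * p) (h2 : ∀ p ∈ S, p * p ∈ Q)
    (h0 : ∀ p ∈ S, rc z a p 1 = 1) (h3 : ∀ p ∈ S, ∀ p' ∈ S, p⁻¹ * p' ∈ Q → p⁻¹ * p' ∈ F)
    (h4 : ∀ p ∈ S, ∀ i < 232, Mt z a p (IL i) → i ∈ L) : S.card ≤ F.card * L.length := by
  classical
  have : ∀ p, ∃ i, p ∈ S → i ∈ L ∧ Mt z a p (IL i) := fun p => by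
    by_cases hp : p ∈ S
    · obtain ⟨i, k1, k2⟩ := exI h (h1 p hp) (h0 p hp) (h2 p hp)
      exact ⟨i, fun _ => ⟨h4 p hp i k1 k2, k2⟩⟩
    · exact ⟨0, fun e => absurd e hp⟩
  choose f hf using this
  refine (Finset.card_le_mul_card_image_of_maps_to (t := L.toFinset) (f := f)
    (fun p hp => List.mem_toFinset.mpr (hf p hp).1) F.card fun i _ => ?_).trans
    (Nat.mul_le_mul_left _ (List.toFinset_card_le L))
  rcases (S.filter (f · = i)).eq_empty_or_nonempty with e | ⟨p, hp⟩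
  · simp [e]
  · rw [Finset.mem_filter] at hp
    refine Finset.card_le_card_of_injOn (fun x => p⁻¹ * x) (fun x hx => ?_) fun _ _ _ _ e => by
      simpa using e
    rw [Finset.mem_coe, Finset.mem_filter] at hx
    refine h3 p hp.1 x hx.1 (rc_ext h (h1 p hp.1) (h1 x hx.1) fun v hv => ?_)
    rw [(hf p hp.1).2 v hv, (hf x hx.1).2 v hv, hp.2, hx.2]

end Cfsg.J4R
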