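import Cfsg.Agent.J4R.S3

/-! Conjugates of the central involution inside the extraspecial group. -/

set_option autoImplicit false
set_option maxRecDepth 100000
set_option linter.unusedSectionVars false

namespace Cfsg.J4R

open Subgroup Cfsg.H6
open Cfsg.Co.Rc (mem_cen card_le_two)

variable {G : Type*} [Group G] [Finite G] {z s : G} {Q Q' : Subgroup G} {a c a' c' : ℕ → G}

theorem two_le {H K : Subgroup G} (h : H ≤ K) {x : G} (hx : x ∈ K) (n : x ∉ H) :
    2 * Nat.card H ≤ Nat.card K := by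
  obtain ⟨m, hm⟩ := card_dvd_of_le h
  have h1 : 0 < Nat.card K := Nat.card_pos
  have h2 : m ≠ 1 := fun e => n (by
    rw [eq_of_le_of_card_ge h (by rw [hm, e, mul_one])]
    exact hx)
  have h3 : m ≠ 0 := fun e => by
    rw [e, mul_zero] at hm
    omega
  rw [hm, mul_comm]
  exact Nat.mul_le_mul_left _ (by omega)

theorem card_le_fin {H : Subgroup G} {F : Finset G} (h : ∀ x ∈ H, x ∈ F) : Nat.card H ≤ F.card := by
  rw [← Set.ncard_coe_finset]
  exact Set.ncard_le_ncard (s := (H : Set G)) h (Set.toFinite _)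

theorem ES.ab_aux (E : ES z Q) {n : ℕ} : ∀ {S R : Subgroup G}, Nat.card S = n → Gd z Q S 0 → R ≤ S →
    (∀ x ∈ R, ∀ y ∈ R, x * y = y * x) → Nat.card R ^ 2 ≤ 2 * Nat.card S := by
  classical
  induction n using Nat.strong_induction_on with
  | _ n ih =>
    intro S R hn g hR hc
    by_cases k : ∀ x ∈ R, x = 1 ∨ x = z
    · have h1 := (card_le_fin (F := {1, z}) fun x hx => by simpa using k x hx).trans
        Finset.card_le_two
      have h2 := two_le (H := ⊥) bot_le g.zS (by simpa using E.z1)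
      rw [card_bot] at h2
      nlinarith
    push Not at k
    obtain ⟨x, hx, x1, xz⟩ := k
    obtain ⟨y, hy, e⟩ := g.partner E (hR hx) x1 xz
    have n1 : y ∉ centralizer {x} := fun l => E.ne _ (e.symm.trans (mem_cen.mp l))
    have n2 : x ∉ centralizer {y} := fun l => E.ne _ (e.symm.trans (mem_cen.mp l).symm)
    have h1 := two_le (H := S ⊓ centralizer {x}) inf_le_left hy fun l => n1 l.2
    have h2 := two_le (H := S ⊓ centralizer {x} ⊓ centralizer {y}) inf_le_left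
      ⟨hR hx, mem_cen.mpr rfl⟩ fun l => n2 l.2
    have h3 := E.card_le (hR.trans g.le) (g.le hy)
    have h0 : 0 < Nat.card (S ⊓ centralizer {x} ⊓ centralizer {y} : Subgroup G) := Nat.card_pos
    have h4 := ih _ (by omega) (R := R ⊓ centralizer {y}) rfl (Gd.step E (n := 0) g (hR hx) hy e)
      (fun r hr => ⟨⟨hR hr.1, mem_cen.mpr (hc r hr.1 x hx)⟩, hr.2⟩) fun p hp q hq => hc p hp.1 q hq.1
    nlinarith

theorem ES.gd (E : ES z Q) : Gd z Q Q (4 * 0) :=
  ⟨le_rfl, E.zQ, fun s hs h => E.cen s (E.qz s hs) h, Nat.zero_le _⟩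

theorem ES.ab_le (E : ES z Q) {R : Subgroup G} (hR : R ≤ Q) (hc : ∀ x ∈ R, ∀ y ∈ R, x * y = y * x) :
    Nat.card R ≤ 128 := by
  have := E.ab_aux rfl E.gd hR hc
  rw [E.card] at this
  nlinarith

section
variable (h : Ch z Q a c)
include h

theorem img_le {B : Subgroup G} (hB : Nat.card B ∣ 8192) (hz : B ≤ centralizer {z}) :
    Nat.card B ≤ 256 * Nat.card (Q ⊓ B : Subgroup G) := by
  let f := (rho h.es h.fr).comp (inclusion hz)
  have h1 : f.ker = (Q ⊓ B).subgroupOf B := by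
    ext x
    rw [inf_subgroupOf_right]
    exact rho_eq_one h.es h.fr
  have h2 := f.ker.card_mul_index
  have h3 : Nat.card f.range ∣ 2661120 := by
    rw [← card_range h.es h.fr]
    exact card_dvd_of_le (by rintro _ ⟨x, rfl⟩; exact ⟨_, rfl⟩)
  rw [index_ker, h1, Nat.card_congr (subgroupOfEquivOfLe inf_le_right).toEquiv] at h2
  have h4 := Nat.le_of_dvd (by norm_num) (Nat.dvd_gcd h3 ((Dvd.intro_left _ h2).trans hB))
  rw [← h2, mul_comm]
  exact Nat.mul_le_mul_right _ (by simpa using h4)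

theorem cz_in (hs : s ∈ Q) {v : ℕ} (k : bf (co a s) v = false) : cz a Q s v :=
  fun _ hp e => (comm_iff h hs hp).mpr (e ▸ k)

variable (h' : Ch s Q' a' c')
include h'

theorem mvR {p : G} (hp : p ∈ Q') (pz : p * z = z * p) {v : ℕ} (hv : v < 4096) (k : cz a Q s v) :
    ∃ r ∈ Q, r ∈ Q' ∧ co a r = v ^^^ rc z a p v := by
  obtain ⟨b, hb, rfl⟩ := exv h hv
  obtain ⟨h1, h2⟩ := co_n h pz hb
  exact ⟨_, h1, mul_mem (h'.es.nrm _ (k b hb rfl) _ hp) (inv_mem hp), h2⟩

theorem R_cm (hz : z ∉ Q') {r : G} (hr : r ∈ Q) (hr' : r ∈ Q') {b : G} (hb : b ∈ Q)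
    (k : b * s = s * b) : b * r = r * b := by
  refine (h.es.comm r hr b hb).resolve_right fun l => hz ?_
  have := mul_mem (h'.es.nrm _ (mem_cen.mp (inv_mem (mem_cen.mpr k))) _ (inv_mem hr')) hr'
  rwa [inv_inv, show b⁻¹ * r⁻¹ * b * r = b⁻¹ * r⁻¹ * (b * r) by group, l, ← mul_assoc,
    h.es.qz _ (mul_mem (inv_mem hb) (inv_mem hr)), show z * (b⁻¹ * r⁻¹) * (r * b) = z by group] at this

theorem R_bf (hz : z ∉ Q') {r : G} (hr : r ∈ Q) (hr' : r ∈ Q') {v : ℕ} (hv : v < 4096)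
    (k : cz a Q s v) : bf (co a r) v = false := by
  obtain ⟨b, hb, rfl⟩ := exv h hv
  exact (comm_iff h hr hb).mp (R_cm h h' hz hr hr' hb (k b hb rfl))

theorem R_sq (ne : s ≠ z) {r : G} (hr : r ∈ Q) (hr' : r ∈ Q') : r * r = 1 :=
  (h.es.sq r hr).resolve_right fun k => (h'.es.sq r hr').elim (fun l => h.es.z1 (k.symm.trans l))
    fun l => ne (l.symm.trans k)

theorem zin (hs : s ∈ Q) : z ∈ Q' := by
  classical
  by_contra hz
  have ne : s ≠ z := fun e => hz (e ▸ h'.es.zQ)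
  obtain ⟨y, hy, e⟩ := h.es.gd.partner h.es hs h'.es.z1 ne
  have g := Gd.step h.es h.es.gd hs hy e
  have k : ∀ r ∈ Q, r ∈ Q' → r * y = y * r → r = 1 ∨ r = z := fun r hr hr' l =>
    g.cen r ⟨⟨hr, mem_cen.mpr (h'.es.qz r hr')⟩, mem_cen.mpr l⟩ fun t ht =>
      (R_cm h h' hz hr hr' ht.1.1 (mem_cen.mp ht.1.2)).symm
  have h1 := h.es.card_le le_rfl hs
  have h2 := img_le h' (B := Q ⊓ centralizer {s}) (h.es.card ▸ card_dvd_of_le inf_le_left) inf_le_right
  have h3 := (card_le_fin (H := Q' ⊓ (Q ⊓ centralizer {s})) (F := {1, z, s⁻¹, z * s⁻¹}) fun r hr => by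
    simp only [Finset.mem_insert, Finset.mem_singleton]
    rcases h.es.comm y hy r hr.2.1 with l | l
    · exact (k r hr.2.1 hr.1 l).imp_right Or.inl
    · refine Or.inr (Or.inr ((k _ (mul_mem hr.2.1 hs) (mul_mem hr.1 h'.es.zQ)
        (h.es.anti (h.es.qz r hr.2.1) l (h.es.flip e))).imp ?_ ?_)) <;> intro m
      · exact eq_inv_of_mul_eq_one_left m
      · exact eq_mul_inv_of_mul_eq m).trans Finset.card_le_four
  rw [h.es.card] at h1
  omega

theorem swap0 (hs : s ∈ Q) (ne : s ≠ z) : ∃ n, n * z * n⁻¹ = s ∧ n * s * n⁻¹ = z := by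
  have hz := zin h h' hs
  obtain ⟨q, hq, e⟩ := h.es.gd.partner h.es hs h'.es.z1 ne
  obtain ⟨p, hp, e'⟩ := h'.es.gd.partner h'.es hz h.es.z1 ne.symm
  have q1 : q * s * q⁻¹ = z * s := by rw [e]; group
  have q2 : q * z * q⁻¹ = z := by rw [h.es.qz q hq]; group
  have p1 : p * z * p⁻¹ = s * z := by rw [e']; group
  have p2 : p * s * p⁻¹ = s := by rw [h'.es.qz p hp]; group
  refine ⟨p * q * p, ?_, ?_⟩
  · calc _ = p * (q * (p * z * p⁻¹) * q⁻¹) * p⁻¹ := by group
      _ = p * (q * s * q⁻¹ * (q * z * q⁻¹)) * p⁻¹ := by rw [p1]; group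
      _ = s := by rw [q1, q2, mul_assoc z, h.es.qz s hs, h.es.zzm, p2]
  · calc _ = p * (q * (p * s * p⁻¹) * q⁻¹) * p⁻¹ := by group
      _ = p * (z * s) * p⁻¹ := by rw [p2, q1]
      _ = p * z * p⁻¹ * (p * s * p⁻¹) := by group
      _ = z := by rw [p1, p2, mul_assoc, h'.es.qz z hz, h'.es.zzm]

theorem nz0 (hs : s ∈ Q) (ne : s ≠ z) : o1 (co a s) = true := by
  classical
  by_contra ho
  have hz := zin h h' hs
  have : Fact (Nat.Prime 2) := ⟨Nat.prime_two⟩
  have hP : IsPGroup 2 (Q' ⊓ centralizer {z} : Subgroup G) :=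
    (IsPGroup.of_card (n := 13) h'.es.card).to_le inf_le_left
  have h1 := h'.es.card_le le_rfl hz
  have h2 := h.es.ab_le (R := Q ⊓ Q') inf_le_left fun x hx y hy => by
    have k := fun r (hr : r ∈ Q ⊓ Q') => inv_eq_of_mul_eq_one_right (R_sq h h' ne hr.1 hr.2)
    rw [← k _ (mul_mem hx hy), _root_.mul_inv_rev, k x hx, k y hy]
  obtain ⟨a, c, h, k, hu⟩ := redV h hP (fun p hp => mem_cen.mp hp.2) hs h'.es.zz h'.es.z1 ne
    (Bool.eq_false_iff.mpr ho)
  obtain ⟨j, hj, nj⟩ : ∃ j ∈ [2, 17], ∀ p ∈ Q' ⊓ centralizer {z}, ¬ Mt z a p (IL j) := by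
    by_contra n
    push Not at n
    obtain ⟨p, hp, mp⟩ := n 2 (by simp)
    obtain ⟨q, hq, mq⟩ := n 17 (by simp)
    have pz := mem_cen.mp hp.2
    have qz := mem_cen.mp hq.2
    refine fN2 ?_
    rw [← mq 64 (by norm_num), ← mp 64 (by norm_num), ← mp _ (rc_lt _ _), ← mq _ (rc_lt _ _),
      ← rc_mul h.es h.fr pz qz, ← rc_mul h.es h.fr qz pz]
    rcases h'.es.comm p hp.1 q hq.1 with e | e <;> rw [e]
    rw [rc_mul h.es h.fr (h.es.qz s hs) (mem_cen.mp (mul_mem hp.2 hq.2)),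
      rc_Q h.es h.fr hs (rc_lt _ _)]
  have h3 := pig h (S := (Set.toFinite (Q' ⊓ centralizer {z} : Subgroup G).carrier).toFinset)
    (F := (Set.toFinite (Q ⊓ Q' : Subgroup G).carrier).toFinset)
    (L := (List.range 232).filter (okN (co a s) j)) (fun p hp => ?_) (fun p hp => ?_) (fun p hp => ?_)
    (fun p hp q hq l => ?_) fun p hp i hi m => ?_
  · have h4 := fN _ hu j hj
    rw [← Set.ncard_eq_toFinset_card, ← Set.ncard_eq_toFinset_card] at h3
    replace h3 : Nat.card (Q' ⊓ centralizer {z} : Subgroup G) ≤ Nat.card (Q ⊓ Q' : Subgroup G) * _ := h3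
    rw [h'.es.card] at h1
    nlinarith
  all_goals replace hp : p ∈ Q' ⊓ centralizer {z} := (Set.Finite.mem_toFinset _).mp hp
  · exact mem_cen.mp hp.2
  · rcases h'.es.sq p hp.1 with e | e <;> rw [e]
    exacts [one_mem _, hs]
  · exact k p hp
  · replace hq : q ∈ Q' ⊓ centralizer {z} := (Set.Finite.mem_toFinset _).mp hq
    exact (Set.Finite.mem_toFinset _).mpr ⟨l, Q'.mul_mem (Q'.inv_mem hp.1) hq.1⟩
  · have pz := mem_cen.mp hp.2
    rw [List.mem_filter, List.mem_range, okN, frcB_eq, andB_eq_true, andB_eq_true, allL_iff,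
      Nat.beq_eq, Bool.not_eq_true', ← Bool.not_eq_true, Nat.beq_eq]
    refine ⟨hi, ?_, fun v hv => ?_, fun e => nj p hp (e ▸ m)⟩
    · rw [← m _ (co_lt _ _), ← co_conj h.es h.fr pz hs, h'.es.qz p hp.1, mul_inv_cancel_right]
    · have b1 : v < 4096 := by revert v; decide
      cases e : bf (co a s) v
      · obtain ⟨r, r1, r2, r3⟩ := mvR h h' hp.1 pz b1 (cz_in h hs e)
        rw [frcB_eq, cm, ← m v b1, ← r3, (sq_iff h r1).mp (R_sq h h' ne r1 r2)]
        rfl
      · rfl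

end

theorem nz (h : Ch z Q a c) : ¬ IsConj z (a 0 * a 4) := fun k => by
  obtain ⟨g, e⟩ := isConj_iff.mp k
  obtain ⟨Q', a', c', h', -⟩ := h.conj g e
  have m0 := h.fr.mem 0 (by norm_num)
  have m4 := h.fr.mem 4 (by norm_num)
  have e1 : co a (a 0 * a 4) = 17 := by
    rw [co_mul h.es h.fr m0 m4, co_a h.es h.fr (by norm_num), co_a h.es h.fr (by norm_num)]
    rfl
  have := nz0 h h' (mul_mem m0 m4) fun l => by
    rw [l, co_z h.es h.fr] at e1
    exact absurd e1 (by decide)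
  rw [e1] at this
  exact absurd this (by decide +kernel)

theorem swap (h : Ch z Q a c) (k : IsConj z (a 0)) : ∃ n, n * z * n⁻¹ = a 0 ∧ n * a 0 * n⁻¹ = z := by
  obtain ⟨g, e⟩ := isConj_iff.mp k
  obtain ⟨Q', a', c', h', -⟩ := h.conj g e
  refine swap0 h h' (h.fr.mem 0 (by norm_num)) fun l => ?_
  have := co_a h.es h.fr (i := 0) (by norm_num)
  rw [l, co_z h.es h.fr] at this
  exact absurd this (by decide)

end Cfsg.J4R
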