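import Cfsg.Agent.J4R.S4
import Cfsg.Agent.H5.ZStar

/-! The central involution is not weakly closed in the extraspecial group. -/

set_option autoImplicit false
set_option maxRecDepth 100000
set_option linter.unusedSectionVars false

namespace Cfsg.J4R

open Subgroup Cfsg.H6
open Cfsg.Co.Rc (mem_cen card_le_two)

variable {G : Type*} [Group G] [Finite G] {z s : G} {Q Q' : Subgroup G} {a c a' c' : ℕ → G}

theorem inW {j : ℕ} (j8 : j < 8) (j0 : 0 < j) (m : Mt z a s (IL j)) {r : ℕ} (hr : r < 4096)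
    (k : ∀ v ∈ KB j, bf r v = false) : ∃ u < 4096, r = u ^^^ rc z a s u := by
  have k1 := allR_spec chkW j j0 (by omega)
  rw [okW, frcB_eq] at k1
  have k2 := allR_spec k1 r (Nat.zero_le _) (by omega)
  rw [allL_iff.mpr fun v hv => by rw [k v hv]; rfl, Bool.not_true, Bool.false_or,
    Bool.not_eq_true'] at k2
  by_contra n
  push Not at n
  rw [allL_iff.mpr fun u hu => by
    have b := (fK j j8).2.1 u hu
    rw [Bool.not_eq_true', ← Bool.not_eq_true, Nat.beq_eq, cm, ← m u b]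
    exact n u b] at k2
  exact absurd k2 (by simp)

section
variable (h : Ch z Q a c)
include h

theorem bf_xor {u v w : ℕ} (hu : u < 4096) (hv : v < 4096) (hw : w < 4096) :
    bf (u ^^^ v) w = xor (bf u w) (bf v w) := by
  obtain ⟨p, hp, rfl⟩ := exv h hu
  obtain ⟨q, hq, rfl⟩ := exv h hv
  obtain ⟨r, hr, rfl⟩ := exv h hw
  rw [← co_mul h.es h.fr hp hq]
  have k1 := comm_iff h hp hr
  have k2 := comm_iff h hq hr
  have k3 := comm_iff h (mul_mem hp hq) hr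
  have n : ∀ x : G, (z * x = x) = False := fun x => eq_false (h.es.ne x)
  have pz := h.es.qz p hp
  rcases h.es.comm p hp r hr with e1 | e1 <;> rcases h.es.comm q hq r hr with e2 | e2 <;>
    rw [← mul_assoc, e1] at k3 <;> simp only [mul_assoc] at k3 <;> rw [e2] at k3 <;>
    rw [e1] at k1 <;> rw [e2] at k2
  · simp only [mul_assoc, true_iff] at k1 k2 k3
    rw [k1, k2, k3]; rfl
  · rw [← mul_assoc p, pz] at k3
    simp only [mul_assoc, true_iff, n, false_iff, Bool.not_eq_false] at k1 k2 k3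
    rw [k1, k2, k3]; rfl
  · simp only [mul_assoc, true_iff, n, false_iff, Bool.not_eq_false] at k1 k2 k3
    rw [k1, k2, k3]; rfl
  · rw [← mul_assoc p, pz] at k3
    simp only [mul_assoc, true_iff, n, false_iff, Bool.not_eq_false, h.es.zzm] at k1 k2 k3
    rw [k1, k2, k3]; rfl

variable (h' : Ch s Q' a' c') (e : s * z = z * s)
include h' e

theorem chart (hs : s ∉ Q) : ∃ a c, Ch z Q a c ∧ (∀ p ∈ Q' ⊓ centralizer {z}, rc z a p 1 = 1) ∧
    ∃ j < 8, 0 < j ∧ Mt z a s (IL j) := by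
  have : Fact (Nat.Prime 2) := ⟨Nat.prime_two⟩
  obtain ⟨a, c, h, k, j, j8, m⟩ := redI h (P := Q' ⊓ centralizer {z})
    ((IsPGroup.of_card (n := 13) h'.es.card).to_le inf_le_left) (fun p hp => mem_cen.mp hp.2)
    (s := s) ⟨h'.es.zQ, mem_cen.mpr e⟩ (h'.es.zz ▸ one_mem _)
  refine ⟨a, c, h, k, j, j8, Nat.pos_of_ne_zero fun j0 => hs (mem_of_triv h.es h.fr e fun i hi => ?_), m⟩
  have b : 2 ^ i ∈ b12 := by revert i; decide
  rw [co_conj h.es h.fr e (h.fr.mem i hi), co_a h.es h.fr hi, m _ (b12_lt _ b), j0, fI0 _ b]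

theorem lower (hs : s ∉ Q) : ∃ S : Finset G, S.card = 64 ∧ ∀ p ∈ S, p ∈ Q ∧ p * s = s * p ∧ p * p = 1 := by
  obtain ⟨a, c, h, -, j, j8, j0, m⟩ := chart h h' e hs
  obtain ⟨t1, t2, t3, t4⟩ := fT j j8 j0
  obtain ⟨y, hy, y1, y2⟩ : ∃ y ∈ [YY j, 2 * YY j, YY j ^^^ 2 * YY j], y < 4096 ∧ cz a Q s y := by
    have b1 : YY j < 4096 := by omega
    have b2 : 2 * YY j < 4096 := by omega
    by_cases k1 : cz a Q s (YY j)
    · exact ⟨_, by simp, b1, k1⟩
    by_cases k2 : cz a Q s (2 * YY j)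
    · exact ⟨_, by simp, b2, k2⟩
    exact ⟨_, by simp, xor_lt b1 b2, cz_anti h e b1 b2 ((m _ b1).trans t2) ((m _ b2).trans t3) k1 k2⟩
  obtain ⟨t5, t6, t7⟩ := t4 y hy
  have k : ∀ u ∈ PW j, cm (IL j) u < 4096 ∧ cz a Q s (cm (IL j) u) := fun u hu => by
    obtain ⟨b1, b2⟩ := (fK j j8).2.2 u hu
    rw [cm, ← m u b1] at b2 ⊢
    exact ⟨xor_lt b1 (rc_lt _ _), cz_W h e h'.es.zz b1 b2⟩
  have := exS h e (TL j y) t5 t7 fun v hv => by
    rcases List.mem_append.mp (List.mem_of_mem_take hv) with l | l <;>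
      obtain ⟨u, hu, rfl⟩ := List.mem_map.mp l
    exacts [(k u hu).2, cz_xor h e (k u hu).1 y1 (k u hu).2 y2]
  rwa [t6] at this

variable (hz : z ∉ Q') (wc : ∀ t ∈ Q', IsConj s t → t = s)
include hz wc

theorem cj1 {r q : G} (hr : r ∈ Q) (hr' : r ∈ Q') (r1 : r ≠ 1) (hq : q ∈ Q)
    (k : co a r = co a q ^^^ rc z a s (co a q)) : q * s * q⁻¹ = z * r * s := by
  obtain ⟨h1, h2⟩ := co_n h e hq
  rcases eq_of_co h.es h.fr h1 hr (h2.trans k.symm) with l | l <;> rw [mul_inv_eq_iff_eq_mul] at l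
  · have := wc _ (l ▸ mul_mem hr' h'.es.zQ) (isConj_iff.mpr ⟨q, rfl⟩)
    exact absurd (by simpa using l.symm.trans this) r1
  · exact l

theorem beta (hW : ∀ r ∈ Q, r ∈ Q' → ∃ u < 4096, co a r = u ^^^ rc z a s u) {r t : G} (hr : r ∈ Q)
    (hr' : r ∈ Q') (r1 : r ≠ 1) (ht : t ∈ Q) (ht' : t ∈ Q') (t1 : t ≠ 1) (tr : t ≠ r) {u : ℕ}
    (hu : u < 4096) (k : co a r = u ^^^ rc z a s u) : bf u (co a t) = true := by
  obtain ⟨q, hq, rfl⟩ := exv h hu
  obtain ⟨u, hu, l⟩ := hW t ht ht'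
  obtain ⟨p, hp, rfl⟩ := exv h hu
  have k1 := cj1 h h' e hz wc hr hr' r1 hq k
  have k2 := cj1 h h' e hz wc ht ht' t1 hp l
  by_contra n
  have k3 := (comm_iff h hq ht).mpr (Bool.eq_false_iff.mpr n)
  have k4 : q * p * s * (q * p)⁻¹ = t * r * s := by
    calc _ = q * (p * s * p⁻¹) * q⁻¹ := by group
      _ = q * z * (t * (q⁻¹ * (q * s * q⁻¹) * q)) * q⁻¹ := by rw [k2]; group
      _ = z * (q * t) * (q⁻¹ * (z * r * s)) := by rw [k1, h.es.qz q hq]; group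
      _ = z * (t * z) * r * s := by rw [← k3]; group
      _ = t * r * s := by rw [h.es.qz t ht, h.es.zzm]
  have k5 := wc _ (k4 ▸ mul_mem (mul_mem ht' hr') h'.es.zQ) (isConj_iff.mpr ⟨q * p, rfl⟩)
  have k6 : t * r = 1 := by simpa using k4.symm.trans k5
  have ne : s ≠ z := fun l => hz (l ▸ h'.es.zQ)
  exact tr (mul_right_cancel (k6.trans (R_sq h h' ne hr hr').symm))

theorem R0 {r : G} (hr : r ∈ Q) (hr' : r ∈ Q') (k : co a r = 0) : r = 1 :=
  (eq_of_co_zero h.es h.fr hr k).resolve_right fun l => hz (l ▸ hr')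

variable {j : ℕ} (j8 : j < 8) (j0 : 0 < j) (m : Mt z a s (IL j)) {S : Finset G}
  (S2 : ∀ p ∈ S, p ∈ Q' ∧ p * z = z * p ∧ p * p = 1) (S3 : ∀ p ∈ S, rc z a p 1 = 1)
include j8 j0 m S2 S3

theorem full (hf : ∀ v < 4096, rc z a s v = v → cz a Q s v) : S.card ≤ 8 := by
  classical
  have ne : s ≠ z := fun l => hz (l ▸ h'.es.zQ)
  have hW : ∀ r ∈ Q, r ∈ Q' → ∃ u < 4096, co a r = u ^^^ rc z a s u := fun r hr hr' =>
    inW j8 j0 m (co_lt _ _) fun v hv => by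
      obtain ⟨b1, b2⟩ := (fK j j8).1 v hv
      exact R_bf h h' hz hr hr' b1 (hf v b1 ((m v b1).trans b2))
  obtain ⟨x, y, hR⟩ : ∃ x y : G, ∀ r ∈ Q, r ∈ Q' → r ∈ ({1, x, y, y * x} : Finset G) := by
    by_contra n
    push Not at n
    obtain ⟨x, x1, x2, x3⟩ := n 1 1
    obtain ⟨y, y1, y2, y3⟩ := n x 1
    obtain ⟨t, t1, t2, t3⟩ := n x y
    simp only [Finset.mem_insert, Finset.mem_singleton, not_or] at x3 y3 t3
    obtain ⟨u, hu, k⟩ := hW x x1 x2
    have yy := R_sq h h' ne y1 y2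
    have b := fun {t} ht ht' t1 tr => beta h h' e hz wc hW (t := t) x1 x2 x3.1 ht ht' t1 tr hu k
    have b3 := b (mul_mem y1 t1) (mul_mem y2 t2)
      (fun l => t3.2.2.1 (mul_left_cancel (l.trans yy.symm)))
      fun l => t3.2.2.2 (by rw [← l, ← mul_assoc, yy, one_mul])
    have cmm : ∀ u v, bf u v = bf v u := fun u v => by
      rw [bf, bf, Nat.xor_comm, Bool.xor_comm (qf false u)]
    rw [co_mul h.es h.fr y1 t1, cmm, bf_xor h (co_lt _ _) (co_lt _ _) hu, cmm _ u, cmm _ u,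
      b y1 y2 y3.1 y3.2.1, b t1 t2 t3.1 t3.2.1] at b3
    exact absurd b3 (by decide)
  have := pig h (F := {1, x, y, y * x}) (L := [0, j]) (fun p hp => (S2 p hp).2.1)
    (fun p hp => (S2 p hp).2.2 ▸ one_mem _) S3
    (fun p hp q hq l => hR _ l (mul_mem (inv_mem (S2 p hp).1) (S2 q hq).1)) fun p hp i hi k => ?_
  · have c : ({1, x, y, y * x} : Finset G).card ≤ 4 := Finset.card_le_four
    simp only [List.length_cons, List.length_nil] at this
    omega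
  have k1 := allR_spec (allR_spec chkB j j0 (by omega)) i (Nat.zero_le _) (by omega)
  simp only [okB, frcB_eq, andB_eq_true, Bool.or_eq_true, Nat.beq_eq, Nat.blt_eq, Bool.not_eq_true',
    ← Bool.not_eq_true] at k1
  generalize fld tW 36 (232 * j + i) 0 12 = v, fld tW 36 (232 * j + i) 12 12 = w,
    fld tW 36 (232 * j + i) 24 12 = u at k1
  rcases k1 with (rfl | rfl) | ⟨v1, w1, v2, w2, u2, k1⟩
  · simp
  · simp
  have cv := hf v v2 ((m v v2).trans v1)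
  have cw := hf w w2 ((m w w2).trans w1)
  obtain ⟨r, r1, r2, r3⟩ := mvR h h' (S2 p hp).1 (S2 p hp).2.1 v2 cv
  obtain ⟨t, t1, t2, t3⟩ := mvR h h' (S2 p hp).1 (S2 p hp).2.1 w2 cw
  rw [cm, cm, cm, ← k v v2, ← k w w2, ← m u u2, ← r3, ← t3] at k1
  exfalso
  rcases k1 with k1 | ⟨k1, k2, k3, k4, k5⟩
  · rw [R_bf h h' hz r1 r2 w2 cw] at k1
    exact absurd k1 (by decide)
  · exact k5 (beta h h' e hz wc hW r1 r2 (fun l => k2 (l ▸ co_one)) t1 t2 (fun l => k3 (l ▸ co_one))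
      (fun l => k4 (by rw [l])) u2 k1)

theorem nonfull {v0 : ℕ} (v1 : v0 < 4096) (v2 : rc z a s v0 = v0) (v3 : ¬ cz a Q s v0) :
    S.card ≤ 56 := by
  classical
  have ne : s ≠ z := fun l => hz (l ▸ h'.es.zQ)
  have sz : IsConj s (z * s) := by
    obtain ⟨p, hp, rfl⟩ := exv h v1
    exact isConj_iff.mpr ⟨p, by rw [anti_of h e hp v2 v3]; group⟩
  have hW : ∀ r ∈ Q, r ∈ Q' → ∀ u < 4096, co a r = u ^^^ rc z a s u → r = 1 := fun r hr hr' u hu k => by
    simpa using wc _ (mul_mem hr' h'.es.zQ) ((conj_W h e hr hu k).elim id sz.trans)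
  have cmm : ∀ u v, bf u v = bf v u := fun u v => by
    rw [bf, bf, Nat.xor_comm, Bool.xor_comm (qf false u)]
  have hB : ∀ r ∈ Q, r ∈ Q' → r ≠ 1 → ∀ v < 4096, rc z a s v = v → ¬ cz a Q s v →
      bf (co a r) v = true := fun r hr hr' r1 v b1 b2 b3 => by
    by_contra n
    obtain ⟨u, hu, k⟩ := inW j8 j0 m (co_lt a r) fun w hw => by
      obtain ⟨c1, c2⟩ := (fK j j8).1 w hw
      by_cases c3 : cz a Q s w
      · exact R_bf h h' hz hr hr' c1 c3
      have := R_bf h h' hz hr hr' (xor_lt b1 c1) (cz_anti h e b1 c1 b2 ((m w c1).trans c2) b3 c3)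
      rwa [cmm, bf_xor h b1 c1 (co_lt _ _), cmm v, cmm w, Bool.eq_false_iff.mpr n,
        Bool.false_xor] at this
    exact r1 (hW r hr hr' u hu k)
  obtain ⟨x, hR⟩ : ∃ x : G, ∀ r ∈ Q, r ∈ Q' → r ∈ ({1, x} : Finset G) := by
    by_contra n
    push Not at n
    obtain ⟨x, x1, x2, x3⟩ := n 1
    obtain ⟨y, y1, y2, y3⟩ := n x
    simp only [Finset.mem_insert, Finset.mem_singleton, not_or] at x3 y3
    obtain ⟨u, hu, k⟩ := inW j8 j0 m (co_lt a (y * x)) fun w hw => by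
      obtain ⟨c1, c2⟩ := (fK j j8).1 w hw
      by_cases c3 : cz a Q s w
      · exact R_bf h h' hz (mul_mem y1 x1) (mul_mem y2 x2) c1 c3
      rw [co_mul h.es h.fr y1 x1, bf_xor h (co_lt _ _) (co_lt _ _) c1,
        hB x x1 x2 x3.1 w c1 ((m w c1).trans c2) c3, hB y y1 y2 y3.1 w c1 ((m w c1).trans c2) c3]
      rfl
    exact y3.2 (mul_right_cancel ((hW _ (mul_mem y1 x1) (mul_mem y2 x2) u hu k).trans
      (R_sq h h' ne x1 x2).symm))
  have := pig h (F := {1, x}) (L := (List.range 232).filter (okF j)) (fun p hp => (S2 p hp).2.1)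
    (fun p hp => (S2 p hp).2.2 ▸ one_mem _) S3
    (fun p hp q hq l => hR _ l (mul_mem (inv_mem (S2 p hp).1) (S2 q hq).1)) fun p hp i hi k => ?_
  · have c : ({1, x} : Finset G).card ≤ 2 := Finset.card_le_two
    have := fF j j8 j0
    nlinarith
  rw [List.mem_filter, List.mem_range, okF, frcB_eq, allL_iff]
  refine ⟨hi, fun u hu => ?_⟩
  obtain ⟨b1, b2⟩ := (fK j j8).2.2 u hu
  have pz := (S2 p hp).2.1
  rw [cm, ← m u b1] at b2
  have b3 := xor_lt b1 (rc_lt (z := z) (a := a) s u)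
  rw [frcB_eq, Nat.beq_eq, cm, ← m u b1, ← k _ b3]
  obtain ⟨r, r1, r2, r3⟩ := mvR h h' (S2 p hp).1 pz b3 (cz_W h e h'.es.zz b1 b2)
  have r4 := hW r r1 r2 (u ^^^ rc z a p u) (xor_lt b1 (rc_lt _ _)) (by
    rw [r3, rc_xor h.es h.fr pz b1 (rc_lt _ _), rc_xor h.es h.fr e b1 (rc_lt _ _),
      ← rc_mul h.es h.fr pz e, ← rc_mul h.es h.fr e pz, h'.es.qz p (S2 p hp).1]
    simp only [Nat.xor_assoc, Nat.xor_left_comm])
  rw [r4, co_one] at r3
  exact (Nat.eq_of_xor_eq_zero r3.symm).symm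

end

theorem exQ (h : Ch z Q a c) (hO : oddCore G = ⊥) (hZ : center G = ⊥) :
    ∃ s ∈ Q, s ≠ z ∧ IsConj z s := by
  by_contra n
  have wc : ∀ t ∈ Q, IsConj z t → t = z := fun t ht k => by
    by_contra l
    exact n ⟨t, ht, l, k⟩
  have k : ¬ IsIsolated z := fun k => by
    have := H5.mem_center_of_isIsolated hO (orderOf_eq_prime (by rw [pow_two, h.es.zz]) h.es.z1) k
    rw [hZ, mem_bot] at this
    exact h.es.z1 this
  obtain ⟨g, k⟩ := not_forall.mp k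
  obtain ⟨k1, k2⟩ := Classical.not_imp.mp k
  obtain ⟨Q', a', c', h', m1, -⟩ := h.conj g rfl
  have wc' : ∀ t ∈ Q', IsConj (g * z * g⁻¹) t → t = g * z * g⁻¹ := fun t ht l => by
    have e : g * (g⁻¹ * t * g) * g⁻¹ = t := by group
    rw [← e, wc (g⁻¹ * t * g) ((m1 _).mp (e.symm ▸ ht))
      ((isConj_iff.mpr ⟨g, rfl⟩).trans (l.trans (isConj_iff.mpr ⟨g⁻¹, by group⟩)))]
  have cj : IsConj z (g * z * g⁻¹) := isConj_iff.mpr ⟨g, rfl⟩
  have e := k1.symm.eq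
  generalize g * z * g⁻¹ = s at *
  have hs : s ∉ Q := fun l => k2 (wc s l cj)
  have hz : z ∉ Q' := fun l => k2 (wc' z l cj.symm).symm
  obtain ⟨S, S1, S2⟩ := lower h' h e.symm hz
  obtain ⟨a, c, h, k, j, j8, j0, m⟩ := chart h h' e hs
  have S3 := fun p hp => k p ⟨(S2 p hp).1, mem_cen.mpr (S2 p hp).2.1⟩
  by_cases hf : ∀ v < 4096, rc z a s v = v → cz a Q s v
  · have := full h h' e hz wc' j8 j0 m S2 S3 hf
    omega
  · push Not at hf
    obtain ⟨v, v1, v2, v3⟩ := hf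
    have := nonfull h h' e hz wc' j8 j0 m S2 S3 v1 v2 v3
    omega

theorem cs (h : Ch z Q a c) (hO : oddCore G = ⊥) (hZ : center G = ⊥) : IsConj z (a 0) := by
  obtain ⟨s, hs, ne, k⟩ := exQ h hO hZ
  obtain ⟨g, e⟩ := isConj_iff.mp k
  obtain ⟨Q', a', c', h', -⟩ := h.conj g e
  obtain ⟨x, k1, k2⟩ := o1_to h (co_lt _ _) (nz0 h h' hs ne)
  have k3 := k.trans (isConj_iff.mpr ⟨x, rfl⟩)
  rcases eq_of_co h.es h.fr (h.es.nrm x k1 s hs) (h.fr.mem 0 (by norm_num)) (by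
    rw [co_conj h.es h.fr k1 hs, k2, co_a h.es h.fr (by norm_num)]
    rfl) with l | l <;> rw [l] at k3
  · exact k3
  · have := h.fr.cm 0 (by norm_num) 6 (by norm_num)
    rw [if_pos (by decide)] at this
    exact k3.trans (isConj_iff.mpr ⟨a 6, by rw [this]; group⟩).symm

end Cfsg.J4R
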