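import Cfsg.Agent.J4R.VC

/-! Partners of involutions of the model are involutions. -/

set_option autoImplicit false
set_option maxRecDepth 100000
set_option linter.unusedSectionVars false

namespace Cfsg.J4R.V1

open Subgroup Cfsg.H6
open Cfsg.Co.Rc (mem_cen)

variable {G : Type*} [Group G] [Finite G] {z : G} {Q : Subgroup G} {a g : ℕ → G} [M : Md]
variable (P : Pre0 z Q a g)
include P

theorem cw (w : List ℕ) : evL g w * z = z * evL g w :=
  mem_cen.mp (evL_mem_of_letters fun l _ => mem_cen.mpr (P.ch.cz l))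

theorem rcw {w : List ℕ} (h : ∀ l ∈ w, l < 25) {v : ℕ} (hv : v < 4096) :
    rc z a (evL g w) v = imw w v := by
  induction w with
  | nil => exact rc_Q P.ch.es P.ch.fr Q.one_mem hv
  | cons l w ih =>
    obtain ⟨k1, k2⟩ := List.forall_mem_cons.mp h
    rw [evL_cons, rc_mul P.ch.es P.ch.fr (P.ch.cz l) (cw P w), show imw (l :: w) v = im l (imw w v)
      from rfl, ← ih k2]
    by_cases e : l < 14
    · rw [P.fr l e, rc_Q P.ch.es P.ch.fr (fa_mem P.ch.es P.ch.fr l) (rc_lt _ _)]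
      exact (lin_ext (f := im l) (g := id) (fun _ _ _ _ => im_xor _ _ _) (fun _ _ _ _ => rfl)
        (c4.2.2.2.1 l e) _ (rc_lt _ _)).symm
    · exact P.ch.act l (by omega) k1 _ (rc_lt _ _)

/-- The square of a pair over `x` lies in the graph. -/
def gd (x : G) : Prop := ∃ x0, (x, x0) ∈ NN P.ch.es P.ch.fr ∧ (x * x, x0 * x0) ∈ Qh P.ch.es P.ch.fr

theorem gd_cj {x y : G} (hy : y * z = z * y) (h : gd P x) : gd P (y * x * y⁻¹) := by
  obtain ⟨x0, h1, h2⟩ := h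
  obtain ⟨y0, k⟩ := P.part hy
  refine ⟨y0 * x0 * y0⁻¹, mul_mem (mul_mem k h1) (inv_mem k), ?_⟩
  rw [conj_mul, conj_mul]
  exact NN_nrm _ _ k h2

theorem gd_cj' {x y : G} (hy : y * z = z * y) (h : gd P (y * x * y⁻¹)) : gd P x := by
  have := gd_cj P (mem_cen.mp (inv_mem (mem_cen.mpr hy))) h
  rwa [show y⁻¹ * (y * x * y⁻¹) * y⁻¹⁻¹ = x by group] at this

theorem gd_eq {x y : G} (hx : x * z = z * x) (hy : y * z = z * y)
    (e : ∀ v < 4096, rc z a x v = rc z a y v) (h : gd P x) : gd P y := by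
  obtain ⟨x0, h1, h2⟩ := h
  obtain ⟨q0, k⟩ := exists_Qh P.ch.es P.ch.fr (rc_ext P.ch hx hy e)
  have h3 := mul_mem h1 (Qh_le _ _ k)
  have h4 := mul_mem (mul_mem (NN_nrm _ _ h1 k) h2) k
  simp only [Prod.mk_mul_mk, Prod.inv_mk] at h3 h4
  rw [mul_inv_cancel_left] at h3
  refine ⟨_, h3, ?_⟩
  convert h4 using 2 <;> group

theorem sq_of_gd {d : G × Spor.J4} (hd : d ∈ NN P.ch.es P.ch.fr) (h : d.2 * d.2 = 1)
    (k : gd P d.1) : d.1 * d.1 = 1 := by
  obtain ⟨x0, h1, h2⟩ := k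
  have : x0 * x0 = 1 := by
    rcases NN_eq' _ _ h1 (c := d.1) (d0 := d.2) hd with e | e
    · rw [e, h]
    · rw [e, mul_assoc, ← mul_assoc d.2, C0_z (NN_C0 _ _ hd), mul_assoc, h, mul_one, M.sq 1 (by omega)]
  rw [this] at h2
  exact Qh_snd _ _ h2

theorem gd_all (H : ∀ j ∈ [1, 6, 7], gd P (evL g (KW j))) {x : G} (hx : x * z = z * x)
    (h2 : x * x ∈ Q) : gd P x := by
  have A : ∀ j < 8, ∀ x, x * z = z * x → Mt z a x (IL j) → gd P x := fun j hj x hx e => by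
    rcases c5 j hj with rfl | ⟨k1, k2, k3⟩
    · refine gd_eq P (x := 1) (by rw [one_mul, mul_one]) hx (fun v hv => ?_)
        ⟨1, one_mem _, by rw [mul_one, mul_one]; exact one_mem _⟩
      rw [e v hv, rc_Q P.ch.es P.ch.fr Q.one_mem hv]
      exact (lin_ext (f := ap12 (IL 0)) (g := id) (fun _ _ _ _ => ap12_xor _ _ _)
        (fun _ _ _ _ => rfl) c4.2.2.2.2.2 v hv).symm
    · obtain ⟨m1, -, m3⟩ := c4.2.2.1 _ k2
      have cy := cw P (CJ j).1
      have ck := cw P (KW (CJ j).2)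
      have m4 := Mt_of P.ch ck (A := IL (CJ j).2) fun v hv => by
        rw [rcw P m1 (b12_lt v hv), m3 v hv]
      have c1 := mem_cen.mp (mul_mem (inv_mem (mem_cen.mpr cy)) (mem_cen.mpr ck))
      have c2 := mem_cen.mp (mul_mem (mem_cen.mpr c1) (mem_cen.mpr cy))
      have g1 := gd_cj P (mem_cen.mp (inv_mem (mem_cen.mpr cy))) (H _ k2)
      rw [inv_inv] at g1
      refine gd_eq P c2 hx (lin_ext (fun _ hu _ hv => rc_xor P.ch.es P.ch.fr c2 hu hv)
        (fun _ hu _ hv => rc_xor P.ch.es P.ch.fr hx hu hv) fun v hv => ?_) g1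
      have hv' := b12_lt v hv
      rw [rc_mul P.ch.es P.ch.fr c1 cy, rc_mul P.ch.es P.ch.fr
        (mem_cen.mp (inv_mem (mem_cen.mpr cy))) ck, m4 _ (rc_lt _ _), rcw P k1 hv', ← k3 v hv,
        ← e v hv', ← rcw P k1 (rc_lt _ _), ← rc_mul P.ch.es P.ch.fr
        (mem_cen.mp (inv_mem (mem_cen.mpr cy))) cy, inv_mul_cancel,
        rc_Q P.ch.es P.ch.fr Q.one_mem (rc_lt _ _)]
  have B : ∀ i < 232, ∀ x, x * z = z * x → Mt z a x (IL i) → gd P x := fun i => by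
    induction i using Nat.strong_induction_on with
    | _ i ih =>
      intro hi x hx e
      rcases hI hi with k | ⟨l, l1, p, l2, l3⟩
      · exact A i k x hx e
      · obtain ⟨m1, m2, -⟩ := GL_fix l l1
        have c1 := mem_cen.mp (mul_mem (mul_mem (mem_cen.mpr (P.ch.cz l)) (mem_cen.mpr hx))
          (inv_mem (mem_cen.mpr (P.ch.cz l))))
        refine gd_cj' P (P.ch.cz l) (ih p l2 (by omega) _ c1 (Mt_of P.ch c1 fun v hv => ?_))
        rw [rc_cj P.ch m1 m2 hx (b12_lt v hv), l3 v hv, e _ (im_lt m2 v (b12_lt v hv))]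
  have h8 : x ^ 2 ^ 3 = 1 := by
    have : x ^ 2 ^ 3 = (x * x * (x * x)) * (x * x * (x * x)) := by
      rw [show 2 ^ 3 = 8 from rfl]; simp only [pow_succ, pow_zero, one_mul, mul_assoc]
    rw [this]
    rcases P.ch.es.sq _ h2 with e | e <;> rw [e]
    · exact one_mul _
    · exact P.ch.es.zz
  obtain ⟨y, hy, k⟩ := red P.ch (P := zpowers x) (by
    rintro ⟨_, n, rfl⟩
    refine ⟨3, Subtype.ext ?_⟩
    change (x ^ n) ^ 2 ^ 3 = 1
    rw [← zpow_natCast, ← zpow_mul, mul_comm, zpow_mul, zpow_natCast, h8, one_zpow]) (by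
    rintro _ ⟨n, rfl⟩
    exact mem_cen.mp (zpow_mem (mem_cen.mpr hx) n))
  have c1 := mem_cen.mp (mul_mem (mul_mem (mem_cen.mpr hy) (mem_cen.mpr hx))
    (inv_mem (mem_cen.mpr hy)))
  obtain ⟨i, hi, e⟩ := exI P.ch c1 (k x (mem_zpowers x))
    (by rw [conj_mul]; exact P.ch.es.nrm _ hy _ h2)
  exact gd_cj' P hy (B i hi _ c1 e)

theorem sq_of (H : ∀ j ∈ [1, 6, 7], gd P (evL g (KW j))) :
    ∀ d ∈ NN P.ch.es P.ch.fr, d.2 * d.2 = 1 → d.1 * d.1 = 1 := fun d hd h => by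
  refine sq_of_gd P hd h (gd_all P H (NN_cen _ _ hd) ?_)
  have := mul_mem hd hd
  rw [show d * d = (d.1 * d.1, 1) from Prod.ext rfl h] at this
  rcases NN_K _ _ this with e | e <;> rw [e]
  exacts [Q.one_mem, P.ch.es.zQ]

end Cfsg.J4R.V1
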