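import Cfsg.Agent.J4R.V1

/-! The three representatives lie in the extraspecial group of `a 0`. -/

set_option autoImplicit false
set_option maxRecDepth 100000
set_option linter.unusedSectionVars false

namespace Cfsg.J4R.V1

open Subgroup Cfsg.H6
open Cfsg.Co.Rc (mem_cen)

variable {G : Type*} [Group G] [Finite G] {z : G} {Q : Subgroup G} {a g : ℕ → G} [M : Md]
variable (P : Pre0 z Q a g)
include P

theorem co_s : co a (a 0) = 1 := co_a P.ch.es P.ch.fr (i := 0) (by norm_num)

theorem z_ne_s : z ≠ a 0 := fun e => by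
  have := co_s P
  rw [← e, co_z P.ch.es P.ch.fr] at this
  exact absurd this (by norm_num)

theorem fix_s {x : G} (hx : x * z = z * x) (h : rc z a x 1 = 1) :
    ∃ y, y * z = z * y ∧ y * a 0 = a 0 * y ∧ ∀ v, rc z a y v = rc z a x v := by
  have E := P.ch.es
  have F := P.ch.fr
  have hs := F.mem 0 (by norm_num)
  have h6 := F.mem 6 (by norm_num)
  rcases eq_of_co E F (E.nrm x hx _ hs) hs (by rw [co_conj E F hx hs, co_s P, h]) with e | e
  · exact ⟨x, hx, mul_inv_eq_iff_eq_mul.mp e, fun _ => rfl⟩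
  · refine ⟨a 6 * x, mem_cen.mp (mul_mem (mem_cen.mpr (E.qz _ h6)) (mem_cen.mpr hx)), ?_,
      fun v => by rw [rc_mul E F (E.qz _ h6) hx, rc_Q E F h6 (rc_lt _ _)]⟩
    have c : a 6 * a 0 = z * (a 0 * a 6) := F.cm 0 (by norm_num) 6 (by norm_num)
    rw [mul_assoc, mul_inv_eq_iff_eq_mul.mp e, ← mul_assoc, ← mul_assoc, E.qz _ h6, mul_assoc z, c,
      E.zzm, mul_assoc]

variable {R : Subgroup G} (E' : ES (a 0) R) (zR : z ∈ R)
include E' zR

theorem comm_QR {p q : G} (h1 : p ∈ Q) (h2 : p ∈ R) (h3 : q ∈ Q) (h4 : q ∈ R) : q * p = p * q := by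
  rcases P.ch.es.comm p h1 q h3 with e | e
  · exact e
  rcases E'.comm p h2 q h4 with f | f
  · exact f
  · exact absurd (mul_right_cancel (e.symm.trans f)) (z_ne_s P)

theorem RW {r : G} (h1 : r ∈ Q) (h2 : r ∈ R) : co a r ∈ WL := by
  have E := P.ch.es
  have F := P.ch.fr
  have hs := F.mem 0 (by norm_num)
  have k := allR_spec c1 (co a r) (Nat.zero_le _) (by simpa using co_lt a r)
  have k1 : qf false (co a r) = false := (sq_iff P.ch h1).mp (by
    rcases E.sq r h1 with e | e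
    · exact e
    rcases E'.sq r h2 with f | f
    · exact f
    · exact absurd (e.symm.trans f) (z_ne_s P))
  have k2 : bf (co a r) 1 = false := by
    rw [← co_s P]
    exact (comm_iff P.ch h1 hs).mp (E'.qz r h2).symm
  rw [k1, k2, Bool.false_or, Bool.false_or, Bool.or_eq_true, List.contains_iff_mem,
    List.any_eq_true] at k
  refine k.resolve_right ?_
  rintro ⟨y, hy, k3⟩
  obtain ⟨m1, m2⟩ := c4.1 y hy
  obtain ⟨x, x1, x2, x3⟩ := fix_s P (cw P y) (by rw [rcw P m1 (by norm_num), m2])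
  have := (comm_iff P.ch h1 (E.nrm x x1 r h1)).mp
    (comm_QR P E' zR h1 h2 (E.nrm x x1 r h1) (E'.nrm x x2 r h2))
  rw [co_conj E F x1 h1, x3, rcw P m1 (co_lt _ _)] at this
  rw [frcB_eq, this] at k3
  exact absurd k3 (by simp)

theorem inLA {p : G} (h1 : p ∈ R) (h2 : p * z = z * p) {i : ℕ} (hi : i < 232)
    (e : Mt z a p (IL i)) : i ∈ LA := by
  have k := allR_spec c3 i (Nat.zero_le _) (by simpa using hi)
  rw [Bool.or_eq_true, List.contains_iff_mem, frcB_eq, List.any_eq_true] at k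
  refine k.resolve_right ?_
  rintro ⟨v, hv, k3⟩
  obtain ⟨m1, m2⟩ := c4.2.1 v hv
  obtain ⟨u, u1, rfl⟩ := exv P.ch m1
  have u2 := (comm_iff P.ch u1 (P.ch.fr.mem 0 (by norm_num))).mpr (by rwa [co_s P])
  obtain ⟨n1, n2⟩ := co_n P.ch h2 u1
  have := RW P E' zR n1 (mul_mem (E'.nrm u u2.symm p h1) (inv_mem h1))
  rw [n2, e _ m1, ← List.contains_iff_mem] at this
  rw [this] at k3
  exact absurd k3 (by simp)

theorem cnt : (∀ q ∈ Q, co a q ∈ WL → q ∈ R) ∧
    ∀ j ∈ LA, ∃ p ∈ R, p * z = z * p ∧ Mt z a p (IL j) := by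
  classical
  have E := P.ch.es
  have F := P.ch.fr
  have hs := F.mem 0 (by norm_num)
  obtain ⟨S, hS, cS⟩ : ∃ S : Finset G, (∀ x, x ∈ S ↔ x ∈ R ∧ x * z = z * x) ∧ 4096 ≤ S.card := by
    refine ⟨(Set.toFinite ((R ⊓ centralizer {z} : Subgroup G) : Set G)).toFinset, fun x => ?_, ?_⟩
    · rw [Set.Finite.mem_toFinset, SetLike.mem_coe, mem_inf, mem_cen]
    · have := E'.card_le le_rfl zR
      rw [E'.card] at this
      rw [← Set.ncard_eq_toFinset_card, ← Nat.card_coe_set_eq]
      change 4096 ≤ Nat.card (R ⊓ centralizer {z} : Subgroup G)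
      omega
  obtain ⟨T, hT, cT⟩ : ∃ T : Finset G, (∀ q ∈ Q, co a q ∈ WL → q ∈ T) ∧ T.card ≤ 128 := by
    refine ⟨WL.toFinset.image (fun v => evL (fa z a) (bw v)) ∪
      WL.toFinset.image (fun v => z * evL (fa z a) (bw v)), fun q hq h => ?_, ?_⟩
    · rcases nf E F hq with e | e
      · exact Finset.mem_union_left _ (Finset.mem_image.mpr ⟨_, List.mem_toFinset.mpr h, e.symm⟩)
      · exact Finset.mem_union_right _ (Finset.mem_image.mpr ⟨_, List.mem_toFinset.mpr h, e.symm⟩)
    · have h : WL.toFinset.card ≤ 64 := List.toFinset_card_le WL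
      exact (Finset.card_union_le _ _).trans (add_le_add (Finset.card_image_le.trans h)
        (Finset.card_image_le.trans h))
  have pg : ∀ L : List ℕ, (∀ p ∈ S, ∀ i < 232, Mt z a p (IL i) → i ∈ L) →
      4096 ≤ (T.filter (· ∈ R)).card * L.length := fun L hL =>
    cS.trans (pig P.ch (fun p hp => ((hS p).mp hp).2)
      (fun p hp => by
        rcases E'.sq p ((hS p).mp hp).1 with e | e <;> rw [e]
        exacts [Q.one_mem, hs])
      (fun p hp => by
        rw [← co_s P, ← co_conj E F ((hS p).mp hp).2 hs, E'.qz p ((hS p).mp hp).1,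
          mul_inv_cancel_right])
      (fun p hp p' hp' h => by
        have := mul_mem (inv_mem ((hS p).mp hp).1) ((hS p').mp hp').1
        exact Finset.mem_filter.mpr ⟨hT _ h (RW P E' zR h this), this⟩) hL)
  have cF := Finset.card_filter_le T (· ∈ R)
  refine ⟨fun q hq h => ?_, fun j hj => ?_⟩
  · have h1 := pg LA fun p hp i hi e => inLA P E' zR ((hS p).mp hp).1 ((hS p).mp hp).2 hi e
    rw [show LA.length = 32 from rfl] at h1
    have h2 := Finset.eq_of_subset_of_card_le (Finset.filter_subset (· ∈ R) T) (by omega)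
    have h3 := hT q hq h
    rw [← h2] at h3
    exact (Finset.mem_filter.mp h3).2
  · by_contra n
    have h1 := pg (LA.erase j) fun p hp i hi e => by
      have := inLA P E' zR ((hS p).mp hp).1 ((hS p).mp hp).2 hi e
      refine (List.mem_erase_of_ne ?_).mpr this
      rintro rfl
      exact n ⟨p, ((hS p).mp hp).1, ((hS p).mp hp).2, e⟩
    rw [List.length_erase_of_mem hj, show LA.length = 32 from rfl] at h1
    omega

theorem gd_rep (K : MK) : ∀ j ∈ [1, 6, 7], gd P (evL g (KW j)) := fun j hj => by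
  have E := P.ch.es
  have F := P.ch.fr
  obtain ⟨m1, m2, m3⟩ := c4.2.2.1 j hj
  obtain ⟨k1, k2⟩ := K j hj
  obtain ⟨p, p1, p2, p3⟩ := (cnt P E' zR).2 j m2
  have N := P.word m1
  have ck := cw P (KW j)
  have m4 := Mt_of P.ch ck (A := IL j) fun v hv => by rw [rcw P m1 (b12_lt v hv), m3 v hv]
  generalize evL g (KW j) = k at *
  have hq : k⁻¹ * p ∈ Q := rc_ext P.ch ck p2 fun v hv => by rw [m4 v hv, p3 v hv]
  have hW : co a (k⁻¹ * p) ∈ WL := by
    have k0 := allR_spec c2 (co a (k⁻¹ * p)) (Nat.zero_le _) (by simpa using co_lt a _)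
    rw [Bool.or_eq_true, List.contains_iff_mem, List.any_eq_true] at k0
    refine k0.resolve_right ?_
    rintro ⟨b, hb, k3⟩
    obtain ⟨b1, b2⟩ := c4.2.2.2.2.1 b hb
    have r1 := ev_mem E F (bw b)
    have r2 := co_bw E F b2
    have r3 := (cnt P E' zR).1 _ r1 (by rwa [r2])
    have r4 : k * evL (fa z a) (bw b) * k⁻¹ = evL (fa z a) (bw b) ∨
        k * evL (fa z a) (bw b) * k⁻¹ = a 0 * evL (fa z a) (bw b) :=
      (k2 b hb).imp (fun e => NN_conj E F N (bw_inR b) (bw_inR b) e) fun e => by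
        have := NN_conj E F N (bw_inR b) (v := 2 :: bw b) (bw_inR b) e
        rwa [evL_cons, fa_a (i := 0) (by norm_num)] at this
    generalize evL (fa z a) (bw b) = r at *
    rcases E.comm _ hq r r1 with e | e
    · rw [← r2, (comm_iff P.ch hq r1).mp e] at k3
      exact absurd k3 (by simp)
    have e1 : k * r * k⁻¹ * p = z * (p * r) := by
      rw [mul_assoc, mul_assoc, e, ← mul_assoc, ck]; group
    have e2 := E'.comm p p1 r r3
    have e3 := z_ne_s P
    rcases r4 with f | f <;> rcases e2 with f' | f' <;> rw [f] at e1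
    · exact E.ne _ (e1.symm.trans f')
    · exact e3 (mul_right_cancel (e1.symm.trans f'))
    · rw [mul_assoc, f'] at e1
      exact e3 (mul_right_cancel e1).symm
    · rw [mul_assoc, f', E'.zzm] at e1
      exact E.ne _ e1.symm
  have kR : k ∈ R := by
    have := mul_mem p1 (inv_mem ((cnt P E' zR).1 _ hq hW))
    rwa [show p * (k⁻¹ * p)⁻¹ = k by group] at this
  have N2 := mul_mem N N
  rw [Prod.mk_mul_mk, k1] at N2
  have kk : k * k = 1 := by
    rcases NN_K E F N2 with e | e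
    · exact e
    rcases E'.sq k kR with f | f
    · exact f
    · exact absurd (e.symm.trans f) (z_ne_s P)
  exact ⟨_, N, by rw [kk, k1]; exact one_mem _⟩

omit E' zR

theorem sq_mk (K : MK) (sw : ∃ n, n * z * n⁻¹ = a 0 ∧ n * a 0 * n⁻¹ = z) :
    ∀ d ∈ NN P.ch.es P.ch.fr, d.2 * d.2 = 1 → d.1 * d.1 = 1 := by
  obtain ⟨n, n1, n2⟩ := sw
  have E' := P.ch.es.conj n
  rw [n1] at E'
  exact sq_of P (gd_rep P E' ⟨a 0, P.ch.fr.mem 0 (by norm_num), n2⟩ K)

end Cfsg.J4R.V1
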