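import Cfsg.Agent.J4R.V2
import Cfsg.Agent.J4R.M1

/-! The squares of partners: the facts on the model. -/

set_option autoImplicit false
set_option maxRecDepth 100000

namespace Cfsg.J4R

open Subgroup Cfsg.H6

theorem V1.mk0 : ∀ j ∈ [1, 6, 7], eq1 (V1.KW j ++ V1.KW j) = true ∧ ∀ b ∈ V1.WB,
    eqw (V1.KW j ++ bw b ++ (V1.KW j).reverse) (bw b) = true ∨
      eqw (V1.KW j ++ bw b ++ (V1.KW j).reverse) (2 :: bw b) = true := by decide +kernel

theorem V1.mk : V1.MK := fun j hj =>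
  ⟨by rw [← evL_append]; exact eq1_spec (V1.mk0 j hj).1,
    fun b hb => ((V1.mk0 j hj).2 b hb).imp eqw_conj eqw_conj⟩

variable {G : Type*} [Group G] [Finite G] {z : G} {Q : Subgroup G} {a g : ℕ → G} [M : Md]

theorem Pre0.sq (P : Pre0 z Q a g) (sw : ∃ n, n * z * n⁻¹ = a 0 ∧ n * a 0 * n⁻¹ = z) :
    ∀ d ∈ NN P.ch.es P.ch.fr, d.2 * d.2 = 1 → d.1 * d.1 = 1 := V1.sq_mk P V1.mk sw

end Cfsg.J4R
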