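import Cfsg.Agent.J4R.V0
import Cfsg.Agent.J4R.S2

/-! Finite checks for the squares of partners. -/

set_option autoImplicit false
set_option maxRecDepth 100000
set_option linter.unusedSectionVars false

namespace Cfsg.J4R.V1

open Subgroup Cfsg.H6
open Cfsg.Co.Rc (mem_cen)

/-- The action of a word on vectors. -/
noncomputable def imw (w : List ℕ) (v : ℕ) : ℕ := w.foldr im v

/-- A basis of the invariant totally singular subspace. -/
def WB : List ℕ := [1, 2, 28, 44, 768, 3328]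

/-- The invariant totally singular subspace. -/
def WL : List ℕ := [0, 1, 2, 3, 28, 29, 30, 31, 44, 45, 46, 47, 48, 49, 50, 51, 768, 769, 770, 771,
  796, 797, 798, 799, 812, 813, 814, 815, 816, 817, 818, 819, 3328, 3329, 3330, 3331, 3356, 3357,
  3358, 3359, 3372, 3373, 3374, 3375, 3376, 3377, 3378, 3379, 3584, 3585, 3586, 3587, 3612, 3613,
  3614, 3615, 3628, 3629, 3630, 3631, 3632, 3633, 3634, 3635]

/-- Test words. -/
def YL : List (List ℕ) :=
  [[19, 21], [19, 23], [19, 24, 21, 24], [19, 24, 23, 24], [21, 19, 24, 21, 24, 21]]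

/-- The normal subgroup of order 32 of the stabiliser. -/
def LA : List ℕ := [0, 1, 6, 7, 8, 17, 18, 19, 20, 35, 36, 37, 38, 39, 40, 63, 64, 65, 66, 67, 95, 96,
  97, 98, 99, 137, 138, 139, 140, 141, 182, 209]

/-- A basis of the orthogonal complement of the first vector. -/
def B11 : List ℕ := [1, 2, 4, 8, 16, 32, 128, 256, 512, 1024, 2048]

/-- The words of the three representatives. -/
def KW (j : ℕ) : List ℕ := if j = 1 then [19] else if j = 6 then [19, 21, 19, 21, 3] else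
  [19, 21, 19, 21, 24, 21, 24, 21, 19, 21, 24, 21, 24, 2]

/-- The facts on the model. -/
def MK : Prop := ∀ j ∈ [1, 6, 7], evL e0 (KW j) * evL e0 (KW j) = 1 ∧ ∀ b ∈ WB,
  evL e0 (KW j) * evL e0 (bw b) * (evL e0 (KW j))⁻¹ = evL e0 (bw b) ∨
    evL e0 (KW j) * evL e0 (bw b) * (evL e0 (KW j))⁻¹ = evL e0 (2 :: bw b)

theorem c1 : allR (fun v => qf false v || (bf v 1 || (WL.contains v ||
    YL.any fun y => frcB (bf v) (imw y v)))) 0 4096 = true := by decide +kernel

theorem c2 : allR (fun v => WL.contains v || WB.any fun b => bf v b) 0 4096 = true := by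
  decide +kernel

theorem c3 : allR (fun i => LA.contains i || frcB (fun A =>
    B11.any fun v => !WL.contains (v ^^^ ap12 A v)) (IL i)) 0 232 = true := by decide +kernel

theorem c4 : (∀ y ∈ YL, (∀ l ∈ y, l < 25) ∧ imw y 1 = 1) ∧ (∀ v ∈ B11, v < 4096 ∧ bf v 1 = false) ∧
    (∀ j ∈ [1, 6, 7], (∀ l ∈ KW j, l < 25) ∧ j ∈ LA ∧ ∀ v ∈ b12, imw (KW j) v = ap12 (IL j) v) ∧
    (∀ l < 14, ∀ v ∈ b12, im l v = v) ∧ (∀ b ∈ WB, b ∈ WL ∧ b < 4096) ∧
    (∀ v ∈ b12, ap12 (IL 0) v = v) := by decide +kernel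

/-- Conjugating words. -/
def CJ (j : ℕ) : List ℕ × ℕ := if j = 2 then ([15, 14], 6) else if j = 3 then
  ([24, 23, 15, 24, 15, 20], 6) else if j = 4 then ([24, 17, 18], 7) else if j = 5 then
  ([15, 24, 15], 1) else ([], j)

theorem c5 : ∀ j < 8, j = 0 ∨ ((∀ l ∈ (CJ j).1, l < 25) ∧ (CJ j).2 ∈ [1, 6, 7] ∧
    ∀ v ∈ b12, imw (CJ j).1 (ap12 (IL j) v) = ap12 (IL (CJ j).2) (imw (CJ j).1 v)) := by
  decide +kernel

end Cfsg.J4R.V1
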