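import Cfsg.Agent.J4R.X1
import Cfsg.Agent.J4R.V0

/-! The elementary abelian group of order `2 ^ 11` in the group: codes and conjugation. -/

set_option autoImplicit false
set_option maxRecDepth 100000
set_option linter.unusedSectionVars false

namespace Cfsg.J4R.X

open Subgroup Cfsg.H6
open Cfsg.Co.Rc (mem_cen)

variable {G : Type*} [Group G]

theorem xor_gen {ev : ℕ → G} (f : ℕ → ℕ) (N : ℕ) (sq : ∀ i < N, ev (f i) * ev (f i) = 1)
    (cm : ∀ i < N, ∀ j < N, ev (f i) * ev (f j) = ev (f j) * ev (f i)) (x y : ℕ) :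
    ∀ n ≤ N, evL ev (((List.range n).filter (x ^^^ y).testBit).map f) =
      evL ev (((List.range n).filter x.testBit).map f) *
        evL ev (((List.range n).filter y.testBit).map f)
  | 0, _ => by simp [evL_nil]
  | n + 1, h => by
    have c : evL ev (((List.range n).filter y.testBit).map f) * ev (f n) =
        ev (f n) * evL ev (((List.range n).filter y.testBit).map f) :=
      mem_cen.mp (evL_mem_of_letters (K := centralizer {ev (f n)}) fun l hl => by
        obtain ⟨i, hi, rfl⟩ := List.mem_map.mp hl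
        have := List.mem_range.mp (List.mem_filter.mp hi).1
        exact mem_cen.mpr (cm i (by omega) n (by omega)))
    have s := sq n (by omega)
    simp only [List.range_succ, List.filter_append, List.map_append, evL_append]
    rw [xor_gen f N sq cm x y n (by omega)]
    generalize evL ev (((List.range n).filter y.testBit).map f) = B at c ⊢
    generalize evL ev (((List.range n).filter x.testBit).map f) = A
    cases hx : x.testBit n <;> cases hy : y.testBit n <;>
      simp [List.filter, Nat.testBit_xor, hx, hy, evL_nil, evL_singleton, mul_assoc]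
    · exact c
    · rw [c, ← mul_assoc, s, one_mul]

theorem no_aut {V : Type*} [Group V] [Finite V] (hV : Nat.card V = 2 ^ 11) {p : ℕ} (hp : p.Prime)
    (h : ∀ k < 11, 2 ^ 11 % p ≠ 2 ^ k % p) (A : Subgroup (MulAut V)) (v : V) :
    ¬ p ∣ Nat.card (MulAction.orbit A v) := fun d => by
  haveI := Fact.mk hp
  have d2 : p ∣ Nat.card A := d.trans (by
    rw [Nat.card_coe_set_eq, ← MulAction.index_stabilizer]
    exact Subgroup.index_dvd_card _)
  obtain ⟨σ, hσ⟩ := exists_prime_orderOf_dvd_card' p d2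
  have hP : IsPGroup p (zpowers (σ : MulAut V)) :=
    IsPGroup.of_card (n := 1) (by rw [Nat.card_zpowers, Subgroup.orderOf_coe, hσ, pow_one])
  have m := hP.card_modEq_card_fixedPoints V
  have dv := (FixedPoints.subgroup (zpowers (σ : MulAut V)) V).card_subgroup_dvd_card
  rw [hV] at dv
  obtain ⟨k, hk, e⟩ := (Nat.dvd_prime_pow Nat.prime_two).mp dv
  have e' : Nat.card (MulAction.fixedPoints (zpowers (σ : MulAut V)) V) = 2 ^ k := e
  rw [hV, e'] at m
  rcases hk.lt_or_eq with hk | rfl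
  · exact h k hk m
  · have t := Subgroup.eq_top_of_card_eq _ (e.trans hV.symm)
    have : (σ : MulAut V) = 1 := MulEquiv.ext fun x => by
      have : x ∈ FixedPoints.subgroup (zpowers (σ : MulAut V)) V := t ▸ mem_top x
      exact this ⟨σ, mem_zpowers _⟩
    have k : σ = 1 := Subtype.ext this
    rw [k, orderOf_one] at hσ
    exact hp.one_lt.ne hσ

theorem vw_VL (x : ℕ) : ∀ l ∈ vw x, l ∈ VL := fun l hl => by
  obtain ⟨i, hi, rfl⟩ := List.mem_map.mp hl
  have : ∀ i ∈ List.range 11, VL.getD i 0 ∈ VL := by decide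
  exact this i (List.mem_filter.mp hi).1

theorem vv_mem (g : ℕ → G) (x : ℕ) : vv g x ∈ VV g :=
  evL_mem_of_letters fun l hl => subset_closure ⟨l, vw_VL x l hl, rfl⟩

theorem vv_pow (g : ℕ → G) {i : ℕ} (hi : i < 11) : vv g (2 ^ i) = g (VL.getD i 0) := by
  have : ∀ i < 11, vw (2 ^ i) = [VL.getD i 0] := by decide +kernel
  rw [vv, this i hi, evL_singleton]

theorem vv_zero (g : ℕ → G) : vv g 0 = 1 := rfl

theorem hV' : ∀ x < 128, inR 14 (vw x) = true := by decide +kernel

/-- Conjugacy of codes under the normaliser. -/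
def Cj (g : ℕ → G) (x y : ℕ) : Prop :=
  ∃ n ∈ normalizer (VV g : Set G), n * vv g x * n⁻¹ = vv g y

theorem Cj.refl (g : ℕ → G) (x : ℕ) : Cj g x x := ⟨1, one_mem _, by simp⟩

theorem Cj.symm {g : ℕ → G} {x y : ℕ} : Cj g x y → Cj g y x := by
  rintro ⟨n, hn, e⟩
  exact ⟨n⁻¹, inv_mem hn, by rw [← e]; group⟩

theorem Cj.trans {g : ℕ → G} {x y w : ℕ} : Cj g x y → Cj g y w → Cj g x w := by
  rintro ⟨n, hn, e⟩ ⟨m, hm, f⟩
  exact ⟨m * n, mul_mem hm hn, by rw [← f, ← e]; group⟩

theorem Cj.iff {g : ℕ → G} {x y : ℕ} (h : Cj g x y) : Cj g 1 x ↔ Cj g 1 y :=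
  ⟨fun k => k.trans h, fun k => k.trans h.symm⟩

variable [Finite G] [M : Md] {z : G} {Q : Subgroup G} {a g : ℕ → G} (P : Pre z Q a g) (H : HM)
include P

theorem pv (x : ℕ) : (vv g x, vv e0 x) ∈ NN P.ch.es P.ch.fr := P.toPre0.word (vw_lt x)

theorem gQ {l : ℕ} (hl : l < 14) : (g l, e0 l) ∈ Qh P.ch.es P.ch.fr := by
  rcases Nat.eq_zero_or_pos l with rfl | e1
  · rw [M.zero, P.fr 0 hl]; exact one_mem _
  · have := mem_Qh P.ch.es P.ch.fr (w := [l]) (inR_iff.mpr (by simp; omega))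
    rwa [evL_singleton, evL_singleton, ← P.fr l hl] at this

theorem vQ {x : ℕ} (hx : x < 128) : (vv g x, vv e0 x) ∈ Qh P.ch.es P.ch.fr := by
  have := mem_Qh P.ch.es P.ch.fr (hV' x hx)
  rwa [← P.toPre0.fa_word (hV x hx)] at this

theorem vv_one : vv g 1 = z := (vv_pow g (i := 0) (by norm_num)).trans P.toPre0.g1

include H

theorem vsq {x : ℕ} (hx : x < 2048) : vv g x * vv g x = 1 :=
  P.sq _ (pv P x) (by
    change vv e0 x * vv e0 x = 1
    rw [← H.xor x hx x hx, Nat.xor_self]; rfl)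

theorem vcm {x y : ℕ} (hx : x < 2048) (hy : y < 2048) : vv g x * vv g y = vv g y * vv g x := by
  have k := P.sq _ (mul_mem (pv P x) (pv P y)) (by
    change vv e0 x * vv e0 y * (vv e0 x * vv e0 y) = 1
    rw [← H.xor x hx y hy, ← H.xor _ (xor_lt' hx hy) _ (xor_lt' hx hy), Nat.xor_self]; rfl)
  change vv g x * vv g y * (vv g x * vv g y) = 1 at k
  rw [← inv_eq_of_mul_eq_one_right k, mul_inv_rev, inv_eq_of_mul_eq_one_right (vsq P H hx),
    inv_eq_of_mul_eq_one_right (vsq P H hy)]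

theorem vxor (x y : ℕ) : vv g (x ^^^ y) = vv g x * vv g y := by
  have l : ∀ i < 11, 2 ^ i < 2048 := fun i hi => Nat.pow_lt_pow_right (a := 2) (by norm_num) hi
  exact xor_gen (VL.getD · 0) 11
    (fun i hi => by rw [← vv_pow g hi]; exact vsq P H (l i hi))
    (fun i hi j hj => by rw [← vv_pow g hi, ← vv_pow g hj]; exact vcm P H (l i hi) (l j hj)) x y 11
    le_rfl

theorem vz (x : ℕ) : vv g (x ^^^ 1) = z * vv g x := by
  rw [Nat.xor_comm, vxor P H, vv_one P]

theorem mem_VV {y : G} (hy : y ∈ VV g) : ∃ x < 2048, y = vv g x := by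
  induction hy using closure_induction with
  | mem y h =>
    obtain ⟨l, hl, rfl⟩ := h
    have : ∀ l ∈ VL, ∃ i < 11, l = VL.getD i 0 := by decide
    obtain ⟨i, hi, rfl⟩ := this l hl
    exact ⟨2 ^ i, Nat.pow_lt_pow_right (a := 2) (by norm_num) hi, (vv_pow g hi).symm⟩
  | one => exact ⟨0, by norm_num, rfl⟩
  | mul _ _ _ _ h k =>
    obtain ⟨x, hx, rfl⟩ := h
    obtain ⟨y, hy, rfl⟩ := k
    exact ⟨x ^^^ y, xor_lt' hx hy, (vxor P H x y).symm⟩
  | inv _ _ h =>
    obtain ⟨x, hx, rfl⟩ := h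
    exact ⟨x, hx, inv_eq_of_mul_eq_one_right (vsq P H hx)⟩

theorem vinj {x y : ℕ} (hx : x < 2048) (hy : y < 2048) (e : vv g x = vv g y) : x = y := by
  rcases NN_eq' _ _ (pv P x) (e ▸ pv P y) with k | k
  · exact H.eq hx hy k
  · rw [show e0 1 = vv e0 1 from (vv_pow e0 (i := 0) (by norm_num)).symm,
      ← H.xor _ (by norm_num) y hy] at k
    obtain rfl := H.eq hx (xor_lt' (by norm_num) hy) k
    rw [vxor P H, vv_one P] at e
    exact absurd e (P.ch.es.ne _)

theorem vact {l x : ℕ} (hl : l < 24) (hx : x < 2048) :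
    g l * vv g x * (g l)⁻¹ = vv g (ac l x) ∨ g l * vv g x * (g l)⁻¹ = vv g (ac l x ^^^ 1) := by
  rw [vz P H]
  have k := mul_mem (mul_mem (P.nn l (by omega)) (pv P x)) (inv_mem (P.nn l (by omega)))
  simp only [Prod.inv_mk, Prod.mk_mul_mk, (H.act l (by omega) (by omega) x hx).2] at k
  exact NN_eq _ _ k (pv P _)

theorem aclt {l x : ℕ} (hl : l < 24) (hx : x < 2048) : ac l x < 2048 :=
  (H.act l (by omega) (by omega) x hx).1

theorem gN {l : ℕ} (hl : l < 24) : g l ∈ normalizer (VV g : Set G) := by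
  refine mem_normalizer_fintype fun y hy => ?_
  obtain ⟨x, hx, rfl⟩ := mem_VV P H hy
  rcases vact P H hl hx with e | e <;> rw [e] <;> exact vv_mem g _

theorem vactQ {l x : ℕ} (hl : l < 14) (hx : x < 2048) :
    g l * vv g x * (g l)⁻¹ = vv g (ac l x) := by
  have b := (hA l (by omega) x hx).1 hl
  have k := mul_mem (gQ P hl) (NN_nrm _ _ (pv P x) (inv_mem (gQ P hl)))
  simp only [Prod.inv_mk, Prod.mk_mul_mk, ← mul_assoc, (H.act l (by omega) (by omega) x hx).2] at k
  have s : vv e0 x * vv e0 x = 1 := by rw [← H.xor x hx x hx, Nat.xor_self]; rfl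
  rw [inv_eq_of_mul_eq_one_right s, ← H.xor _ (aclt P H (by omega) hx) _ hx] at k
  have := Qh_eq _ _ k (vQ P b)
  rw [vxor P H, inv_eq_of_mul_eq_one_right (vsq P H hx)] at this
  exact mul_right_cancel this

theorem vactR {l x : ℕ} (hl : l < 20) (hx : x < 128) :
    g l * vv g x * (g l)⁻¹ = vv g (ac l x) := by
  have k := NN_nrm _ _ (P.nn l (by omega)) (vQ P hx)
  simp only [Prod.inv_mk, Prod.mk_mul_mk, (H.act l (by omega) (by omega) x (by omega)).2] at k
  exact Qh_eq _ _ k (vQ P ((hA l hl x (by omega)).2 hx))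

theorem cjQ (f : ℕ) {x : ℕ} (hx : x < 2048) : Cj g x (pt T2 f x) :=
  pt_ind (S := (· < 2048)) (Cj.refl g) (fun _ _ _ => Cj.trans) (fun x hx =>
    have b := (hT x hx).2.1
    ⟨aclt P H (by omega) hx, _, gN P H (by omega), vactQ P H b hx⟩) f x hx

theorem cjR {x : ℕ} (hx : x < 128) : Cj g x (rp x) :=
  pt_ind (S := (· < 128)) (Cj.refl g) (fun _ _ _ => Cj.trans) (fun x hx =>
    have b := (hT x (by omega)).1
    ⟨(hA _ b x (by omega)).2 hx, _, gN P H (by omega), vactR P H b hx⟩) 10 x hx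

theorem cj_pair {l x : ℕ} (hl : l < 24) (hx : x < 2048) :
    (Cj g x (ac l x) ∧ Cj g (x ^^^ 1) (ac l x ^^^ 1)) ∨
      (Cj g x (ac l x ^^^ 1) ∧ Cj g (x ^^^ 1) (ac l x)) := by
  have k : g l * vv g (x ^^^ 1) * (g l)⁻¹ = z * (g l * vv g x * (g l)⁻¹) := by
    rw [vz P H, ← mul_assoc, P.ch.cz, mul_assoc z, mul_assoc z]
  rcases vact P H hl hx with e | e
  · exact Or.inl ⟨⟨_, gN P H hl, e⟩, _, gN P H hl, by rw [k, e, vz P H]⟩
  · exact Or.inr ⟨⟨_, gN P H hl, e⟩, _, gN P H hl, by rw [k, e, vz P H, P.ch.es.zzm]⟩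

theorem card_orb : ∃ (_ : Nat.card (VV g) = 2 ^ 11) (A : Subgroup (MulAut (VV g))) (v : VV g),
    Nat.card (MulAction.orbit A v) =
      (open Classical in ((Finset.range 2048).filter (Cj g 1)).card) := by
  classical
  let f : ℕ → VV g := fun x => ⟨vv g x, vv_mem g x⟩
  have c : ∀ p : ℕ → Prop, (f '' ↑((Finset.range 2048).filter p)).ncard =
      ((Finset.range 2048).filter p).card := fun p => by
    rw [Set.InjOn.ncard_image, Set.ncard_coe_finset]
    intro x hx y hy e
    simp only [Finset.coe_filter, Finset.mem_range, Set.mem_ofPred_eq] at hx hy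
    exact vinj P H hx.1 hy.1 (congrArg Subtype.val e)
  refine ⟨?_, (VV g).normalizerMonoidHom.range, f 1, ?_⟩
  · have := c fun _ => True
    rw [Finset.filter_true, Finset.card_range] at this
    rw [← Set.ncard_univ, show (2 : ℕ) ^ 11 = 2048 from rfl, ← this]
    congr 1
    refine (Set.eq_univ_of_forall fun y => ?_).symm
    obtain ⟨x, hx, e⟩ := mem_VV P H y.2
    exact ⟨x, by simpa using hx, Subtype.ext e.symm⟩
  · rw [← c, Nat.card_coe_set_eq]
    congr 1
    ext y
    constructor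
    · rintro ⟨⟨_, n, rfl⟩, rfl⟩
      obtain ⟨x, hx, e⟩ := mem_VV P H ((mem_normalizer_iff.mp n.2 _).mp (vv_mem g 1))
      exact ⟨x, by simpa using ⟨hx, n, n.2, e⟩, Subtype.ext e.symm⟩
    · rintro ⟨x, hx, rfl⟩
      simp only [Finset.coe_filter, Finset.mem_range, Set.mem_ofPred_eq] at hx
      obtain ⟨n, hn, e⟩ := hx.2
      exact ⟨⟨_, ⟨n, hn⟩, rfl⟩, Subtype.ext e⟩

end Cfsg.J4R.X
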