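import Cfsg.Agent.J4R.X2

/-! The orbit of `z` under the normaliser of `V` and the signs of the duads. -/

set_option autoImplicit false
set_option maxRecDepth 100000
set_option linter.unusedSectionVars false

namespace Cfsg.J4R.X

open Subgroup Cfsg.H6
open Cfsg.Co.Rc (mem_cen)

variable {G : Type*} [Group G]

open Classical in
/-- The number of conjugates of `z` in a coset of `⟨z⟩`. -/
noncomputable def cc (g : ℕ → G) (x : ℕ) : ℕ :=
  (if Cj g 1 x then 1 else 0) + if Cj g 1 (x ^^^ 1) then 1 else 0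

theorem xor_one_one (x : ℕ) : x ^^^ 1 ^^^ 1 = x := by
  rw [Nat.xor_assoc, Nat.xor_self, Nat.xor_zero]

theorem cc_one {g : ℕ → G} {x : ℕ} (h : cc g x = 1) : Cj g 1 (x ^^^ 1) ↔ ¬ Cj g 1 x := by
  unfold cc at h
  split_ifs at h <;> simp_all

theorem cc_two {g : ℕ → G} {x : ℕ} (h : cc g x = 2) : Cj g 1 x := by
  unfold cc at h
  split_ifs at h <;> simp_all

theorem cc_zero {g : ℕ → G} {x : ℕ} : cc g x = 0 ↔ ¬ Cj g 1 x ∧ ¬ Cj g 1 (x ^^^ 1) := by
  unfold cc
  split_ifs <;> simp_all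

theorem cc_xor (g : ℕ → G) (x : ℕ) : cc g (x ^^^ 1) = cc g x := by
  unfold cc
  rw [xor_one_one, add_comm]

open Classical in
theorem sum_cc (g : ℕ → G) (S : Finset ℕ) (hS : ∀ x ∈ S, x ^^^ 1 ∈ S) :
    ∑ x ∈ S, cc g x = 2 * (S.filter (Cj g 1)).card := by
  unfold cc
  rw [Finset.sum_add_distrib, Finset.card_filter, two_mul]
  congr 1
  exact Finset.sum_nbij' (· ^^^ 1) (· ^^^ 1) hS hS (fun x _ => xor_one_one x)
    (fun x _ => xor_one_one x) fun _ _ => rfl

theorem sum_fib (c r : ℕ → ℕ) (S : Finset ℕ) (h : ∀ x ∈ S, c x = c (r x))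
    (k : ∀ x ∈ S, r x ∈ [0, 1, 2, 34, 128, 129, 136]) (n : ℕ → ℕ)
    (hn : ∀ e, (S.filter fun x => r x = e).card = n e) :
    ∑ x ∈ S, c x = n 0 * c 0 + (n 1 * c 1 + (n 2 * c 2 + (n 34 * c 34 + (n 128 * c 128 +
      (n 129 * c 129 + n 136 * c 136))))) := by
  rw [Finset.sum_congr rfl h,
    ← Finset.sum_fiberwise_of_maps_to' (t := ({0, 1, 2, 34, 128, 129, 136} : Finset ℕ)) (g := r)
      (fun x hx => by simpa using k x hx) c]
  simp only [Finset.sum_const, smul_eq_mul, hn]
  rw [Finset.sum_insert (by decide), Finset.sum_insert (by decide), Finset.sum_insert (by decide),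
    Finset.sum_insert (by decide), Finset.sum_insert (by decide), Finset.sum_insert (by decide),
    Finset.sum_singleton]

/-- The sizes of the fibres. -/
noncomputable def fib (e : ℕ) : ℕ := ((Finset.range 2048).filter fun x => rp x = e).card

theorem hC' (e n : ℕ)
    (h : (e, n) ∈ [(0, 1), (1, 1), (2, 90), (34, 36), (128, 240), (129, 240), (136, 1440)]) :
    fib e = n := hC (e, n) h

open Classical in
/-- The number of pairs of non-conjugates with a given product. -/
noncomputable def cnt (g : ℕ → G) (w : ℕ) : ℕ :=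
  ((Finset.range 2048).filter fun x => ¬ Cj g 1 x ∧ ¬ Cj g 1 (x ^^^ w)).card

variable [Finite G] [M : Md] {z : G} {Q : Subgroup G} {a g : ℕ → G} (P : Pre z Q a g) (H : HM)
include P H

theorem cc_ac {l x : ℕ} (hl : l < 24) (hx : x < 2048) : cc g x = cc g (ac l x) := by
  unfold cc
  rcases cj_pair P H hl hx with ⟨h, k⟩ | ⟨h, k⟩ <;> rw [h.iff, k.iff]
  exact add_comm _ _

theorem cc_pt {T : ℕ} (hT : ∀ x < 2048, lt T x < 24) (f : ℕ) {x : ℕ} (hx : x < 2048) :
    cc g x = cc g (pt T f x) :=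
  pt_ind (S := (· < 2048)) (R := fun x y => cc g x = cc g y) (fun _ => rfl) (fun _ _ _ => Eq.trans)
    (fun x hx => ⟨aclt P H (hT x hx) hx, cc_ac P H (hT x hx) hx⟩) f x hx

theorem cc_rp {x : ℕ} (hx : x < 2048) : cc g x = cc g (rp x) :=
  cc_pt P H (fun x hx => by have := (hT x hx).1; omega) 10 hx

theorem not0 : ¬ Cj g 1 0 := by
  rintro ⟨n, -, e⟩
  rw [vv_one P, vv_zero, mul_inv_eq_one, mul_eq_left] at e
  exact P.ch.es.z1 e

theorem cj2 : Cj g 1 2 := by
  obtain ⟨n, hn, e⟩ := P.mv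
  exact ⟨n, hn, by rw [vv_one P, e]; exact (vv_pow g (i := 1) (by norm_num)).symm⟩

theorem nc34 : ¬ IsConj z (vv g 34) := by
  rw [show vv g 34 = g 2 * g 6 by
    rw [vv, show vw 34 = [2, 6] by decide +kernel, evL_cons, evL_singleton]]
  exact P.n1

theorem not34 : ¬ Cj g 1 34 := by
  rintro ⟨n, -, e⟩
  exact nc34 P H (isConj_iff.mpr ⟨n, by rw [← e, vv_one P]⟩)

theorem cc0 : cc g 0 = 1 := by
  unfold cc
  rw [if_neg (not0 P H), show 0 ^^^ 1 = 1 from rfl, if_pos (Cj.refl g 1)]

theorem cc2 : cc g 2 = 2 := by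
  unfold cc
  have := (cjQ P H 5 (x := 3) (by norm_num)).iff
  rw [hQ.1] at this
  rw [if_pos (cj2 P H), show 2 ^^^ 1 = 3 from rfl, if_pos (this.mpr (cj2 P H))]

theorem cc34 : cc g 34 = 0 := by
  have := (cjQ P H 5 (x := 35) (by norm_num)).iff
  rw [hQ.2.1] at this
  exact cc_zero.mpr ⟨not34 P H, fun h => not34 P H (this.mp h)⟩

theorem cc_main : cc g 128 = 1 ∧ cc g 136 = 2 := by
  classical
  have h1 := sum_cc g (Finset.range 2048) fun x hx =>
    Finset.mem_range.mpr (xor_lt' (Finset.mem_range.mp hx) (by norm_num))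
  have h2 := sum_fib (cc g) rp (Finset.range 2048) (fun x hx => cc_rp P H (Finset.mem_range.mp hx))
    (fun x hx => (hT x (Finset.mem_range.mp hx)).2.2.1) fib fun _ => rfl
  rw [hC' 0 1 (by simp), hC' 1 1 (by simp), hC' 2 90 (by simp), hC' 34 36 (by simp),
    hC' 128 240 (by simp), hC' 129 240 (by simp), hC' 136 1440 (by simp), cc0 P H, cc2 P H, cc34 P H,
    show cc g 1 = cc g 0 from cc_xor g 0, cc0 P H, show cc g 129 = cc g 128 from cc_xor g 128,
    h1] at h2
  obtain ⟨hc, A, v, e⟩ := card_orb P H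
  have k : ∀ p : ℕ, p.Prime → (∀ k < 11, 2 ^ 11 % p ≠ 2 ^ k % p) →
      ¬ p ∣ ((Finset.range 2048).filter (Cj g 1)).card := fun p hp h => by
    have := no_aut hc hp h A v
    rw [e] at this
    convert this
  have k1 := k 13 (by norm_num) (by decide)
  have k2 := k 331 (by norm_num) (by decide)
  have k3 := k 571 (by norm_num) (by decide)
  have k4 := k 1531 (by norm_num) (by decide)
  have k5 := k 2011 (by norm_num) (by decide)
  have b1 : cc g 128 ≤ 2 := by unfold cc; split_ifs <;> norm_num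
  have b2 : cc g 136 = 0 ∨ cc g 136 = 2 := by
    have := (cjQ P H 5 (x := 137) (by norm_num)).iff
    rw [hQ.2.2] at this
    unfold cc
    rw [show 136 ^^^ 1 = 137 from rfl, this]
    split_ifs <;> norm_num
  generalize ((Finset.range 2048).filter (Cj g 1)).card = n at h2 k1 k2 k3 k4 k5
  generalize cc g 128 = i at h2 b1 ⊢
  generalize cc g 136 = j at h2 b2 ⊢
  obtain rfl : n = 91 + 240 * i + 720 * j := by omega
  rcases b2 with rfl | rfl <;> interval_cases i <;> simp_all

theorem cc_M4 {x : ℕ} (hx : x < 2048) (h : M4.testBit x = true) : cc g x = 1 := by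
  rw [cc_rp P H hx]
  rcases (hT x hx).2.2.2.1.mp h with e | e <;> rw [e]
  · exact (cc_main P H).1
  · exact (cc_xor g 128).trans (cc_main P H).1

theorem cc_34 {x : ℕ} (hx : x < 2048) : cc g x = 0 ↔ rp x = 34 := by
  rw [cc_rp P H hx]
  have m := cc_main P H
  have := (hT x hx).2.2.1
  simp only [List.mem_cons, List.not_mem_nil, or_false] at this
  rcases this with e | e | e | e | e | e | e <;> rw [e] <;>
    simp [cc0 P H, cc2 P H, cc34 P H, show cc g 1 = cc g 0 from cc_xor g 0,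
      show cc g 129 = cc g 128 from cc_xor g 128, m.1, m.2]

theorem cj_nP {ε : ℕ} (hε : ∀ e < 16, ε.testBit e = true ↔ Cj g 1 (dl e)) {x : ℕ} (hx : x < 2048) :
    nP ε x = true ↔ ¬ Cj g 1 x := by
  obtain ⟨-, -, h3, h4, -, h6, h7, h8, h9⟩ := hT x hx
  unfold nP
  cases hm : M4.testBit x
  · rw [hm] at h4
    rw [Bool.false_and, Bool.xor_false, h8]
    have c := cc_rp P H hx
    simp only [List.mem_cons, List.not_mem_nil, or_false] at h3
    rcases h3 with e | e | e | e | e | e | e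
    · rw [e, h6 e]; simp [not0 P H]
    · rw [e, h7 e]; simp [Cj.refl]
    · simp [e, cc_two (c.trans (e ▸ cc2 P H))]
    · simp [e, (cc_zero.mp (c.trans (e ▸ cc34 P H))).1]
    · simp [e] at h4
    · simp [e] at h4
    · simp [e, cc_two (c.trans (e ▸ (cc_main P H).2))]
  · have k := (cjQ P H 5 hx).iff
    have c := cc_pt P H (T := T2) (fun x hx => by have := (hT x hx).2.1; omega) 5 hx
    rw [h9 hm] at k c
    rw [cc_M4 P H hx hm] at c
    have := hε (x / 128) (by omega)
    cases hn : N0.testBit x <;> rw [hn] at k c <;> simp only [cond, Nat.xor_zero] at k c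
    · rw [cc_xor] at c
      rw [k, cc_one c.symm, ← this]
      simp
    · rw [k, ← this]
      simp

theorem cnt_le {u w : ℕ} (hu : u < 2048) (h : Cj g u w) : cnt g u ≤ cnt g w := by
  classical
  obtain ⟨n, hn, e⟩ := h
  have : ∀ x, ∃ y < 2048, n * vv g x * n⁻¹ = vv g y := fun x =>
    mem_VV P H ((mem_normalizer_iff.mp hn _).mp (vv_mem g x))
  choose φ h1 h2 using this
  unfold cnt
  refine Finset.card_le_card_of_injOn φ (fun x hx => ?_) fun x hx y hy k => ?_
  · simp only [Finset.coe_filter, Finset.mem_range, Set.mem_ofPred_eq] at hx ⊢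
    refine ⟨h1 x, fun k => hx.2.1 ((Cj.iff ⟨n, hn, h2 x⟩).mpr k), fun k => hx.2.2
      ((Cj.iff ⟨n, hn, ?_⟩).mpr k)⟩
    rw [vxor P H, vxor P H, ← h2, ← e]
    group
  · simp only [Finset.coe_filter, Finset.mem_range, Set.mem_ofPred_eq] at hx hy
    have := h2 x
    rw [k, ← h2 y] at this
    exact vinj P H hx.1 hy.1 (mul_left_cancel (mul_right_cancel this))

theorem cnt_one : cnt g 1 = 36 := by
  classical
  rw [← hC' 34 36 (by simp)]
  unfold cnt fib
  congr 1
  exact Finset.filter_congr fun x hx => cc_zero.symm.trans (cc_34 P H (Finset.mem_range.mp hx))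

theorem sgn {ε : ℕ} (hε : ∀ e < 16, ε.testBit e = true ↔ Cj g 1 (dl e)) {r e : ℕ} (hr : r < 24)
    (he : dl e < 2048) (hm : M4.testBit (ac r (dl e)) = true) :
    g r * vv g (dl e) * (g r)⁻¹ = vv g (ac r (dl e) ^^^ cond (tw ε r e) 1 0) := by
  have b := aclt P H hr he
  have h1 := cj_nP P H hε he
  have h2 := cj_nP P H hε b
  unfold tw
  rcases vact P H hr he with k | k
  · rw [(Cj.iff ⟨_, gN P H hr, k⟩), ← h2] at h1
    rw [k, Bool.eq_iff_iff.mpr h1, Bool.xor_self, cond_false, Nat.xor_zero]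
  · rw [(Cj.iff ⟨_, gN P H hr, k⟩), cc_one (cc_M4 P H b hm), ← h2] at h1
    rw [k]
    revert h1
    cases nP ε (dl e) <;> cases nP ε (ac r (dl e)) <;> simp

/-- The duads are the nonzero non-conjugates of `z`. -/
theorem duads (hn : ∀ x ∈ [128, 256, 512, 1024], ¬ Cj g 1 x) {x : ℕ} (hx : x < 2048) :
    N0.testBit x = true ↔ ¬ Cj g 1 x := by
  classical
  let ε := Nat.ofBits (n := 16) fun i => decide (Cj g 1 (dl i))
  have hε : ∀ e < 16, ε.testBit e = true ↔ Cj g 1 (dl e) := fun e he => by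
    simp [ε, Nat.testBit_ofBits_lt _ _ he]
  have h0 : ε ∈ [0, 11808, 38504, 47176] := by
    refine hE (Nat.ofBits_lt_two_pow _) (fun i hi => ?_) fun w hw => ?_
    · simp only [List.mem_cons, List.not_mem_nil, or_false] at hi
      rw [← Bool.not_eq_true, hε i (by omega)]
      rcases hi with rfl | rfl | rfl | rfl | rfl
      · exact not0 P H
      · exact hn _ (by decide)
      · exact hn _ (by decide)
      · exact hn _ (by decide)
      · exact hn _ (by decide)
    · obtain ⟨-, h2, h3, h4⟩ := hW w hw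
      obtain ⟨r, e, f⟩ := w
      simp only [List.mem_cons, List.not_mem_nil, or_false, forall_eq_or_imp, forall_eq] at h2 h3 h4 ⊢
      obtain ⟨⟨a1, a2⟩, ⟨b1, b2⟩, c1, c2⟩ := h4
      have s1 := sgn P H hε (by omega) a1 a2
      have s2 := sgn P H hε (by omega) b1 b2
      have s3 := sgn P H hε (by omega) c1 c2
      have s := vactR P H h2 h3
      have t : vv g (ac r (dl e) ^^^ cond (tw ε r e) 1 0 ^^^ (ac r (dl f) ^^^ cond (tw ε r f) 1 0) ^^^
          (ac r (dl (e ^^^ f)) ^^^ cond (tw ε r (e ^^^ f)) 1 0)) =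
          vv g (ac r (dl e ^^^ dl f ^^^ dl (e ^^^ f))) := by
        rw [← s, vxor P H, vxor P H, ← s1, ← s2, ← s3, vxor P H, vxor P H]
        group
      have l : ∀ b : Bool, cond b 1 0 < 2048 := by decide
      have t' := vinj P H (xor_lt' (xor_lt' (xor_lt' (aclt P H (by omega) a1) (l _))
        (xor_lt' (aclt P H (by omega) b1) (l _))) (xor_lt' (aclt P H (by omega) c1) (l _)))
        (aclt P H (by omega) (by omega)) t
      rw [ac_xor, ac_xor] at t'
      have := congrArg (·.testBit 0) t'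
      simp only [Nat.testBit_xor] at this
      revert this
      generalize (ac r (dl e)).testBit 0 = p
      generalize (ac r (dl f)).testBit 0 = q
      generalize (ac r (dl (e ^^^ f))).testBit 0 = u
      generalize tw ε r e = p'
      generalize tw ε r f = q'
      generalize tw ε r (e ^^^ f) = u'
      revert p q u p' q' u'
      decide
  have h1 : Cj g 1 129 := (cc_one (cc_main P H).1).mpr (hn _ (by decide))
  have h2 : cnt g 129 = 36 := le_antisymm ((cnt_le P H (by norm_num) h1.symm).trans (cnt_one P H).le)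
    ((cnt_one P H).ge.trans (cnt_le P H (by norm_num) h1))
  rcases List.mem_cons.mp h0 with h0 | h0
  · rw [← cj_nP P H hε hx, h0]
    simp [nP]
  · refine absurd ?_ (hF ε h0)
    rw [← h2]
    unfold cnt
    congr 1
    exact Finset.filter_congr fun x hx => and_congr (cj_nP P H hε (Finset.mem_range.mp hx))
      (cj_nP P H hε (xor_lt' (Finset.mem_range.mp hx) (by norm_num)))

theorem exactD (hn : ∀ x ∈ [128, 256, 512, 1024], ¬ Cj g 1 x) {l x : ℕ} (hl : l < 24) (hx : x < 2048)
    (hm : M4.testBit (ac l x) = true) (e : N0.testBit x = N0.testBit (ac l x)) :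
    g l * vv g x * (g l)⁻¹ = vv g (ac l x) := by
  refine (vact P H hl hx).resolve_right fun k => ?_
  have b := aclt P H hl hx
  have h1 := duads P H hn hx
  rw [(Cj.iff ⟨_, gN P H hl, k⟩), cc_one (cc_M4 P H b hm), ← duads P H hn b, e] at h1
  simp at h1

theorem nc128 (hn : ∀ x ∈ [128, 256, 512, 1024], ¬ Cj g 1 x) : ¬ IsConj z (g 20) := fun k => by
  obtain ⟨n, hn', e⟩ := (cj2 P H).symm
  obtain ⟨x, hx, f⟩ := mem_VV P H ((mem_normalizer_iff.mp hn' _).mp (vv_mem g 128))
  have c1 : Cj g 128 x := ⟨n, hn', f⟩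
  have c2 : Cj g (128 ^^^ 2) (x ^^^ 1) := ⟨n, hn', by rw [vxor P H, vxor P H, ← f, ← e]; group⟩
  have c := (cc_34 P H hx).mp (cc_zero.mpr ⟨fun h => hn 128 (by simp) (c1.iff.mpr h), fun h =>
    (duads P H hn (x := 128 ^^^ 2) (by decide)).mp (by decide +kernel) (c2.iff.mpr h)⟩)
  obtain ⟨m, -, t⟩ := c1.trans (c ▸ cjR P H ((hT x hx).2.2.2.2.1 c))
  rw [show vv g 128 = g 20 from vv_pow g (i := 7) (by norm_num)] at t
  exact nc34 P H (k.trans (isConj_iff.mpr ⟨m, t⟩))

end Cfsg.J4R.X
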