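import Cfsg.Agent.J4R.X3
import Cfsg.Agent.J4R.M1
import Cfsg.Agent.J4R.XA.Main
import Cfsg.Agent.J4R.XB.Main

/-! The choice of the signs of the letters and the order of the group generated by the pairs. -/

set_option autoImplicit false
set_option maxRecDepth 100000
set_option linter.unusedSectionVars false

namespace Cfsg.J4R.X

open Subgroup Cfsg.H6
open Cfsg.Co.Rc (mem_cen)

variable {G : Type*} [Group G]

theorem cover_sup {N H K : Subgroup G} {n : ℕ} (h : Cover H K n) (k : K ≤ normalizer (N : Set G)) :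
    Cover (N ⊔ H) (N ⊔ K) n := by
  obtain ⟨r, hr⟩ := h
  refine ⟨r, fun y hy => ?_⟩
  have : y ∈ ((N ⊔ K : Subgroup G) : Set G) := hy
  rw [coe_mul_of_right_le_normalizer_left N K k] at this
  obtain ⟨q, hq, x, hx, rfl⟩ := this
  obtain ⟨j, hj, e⟩ := hr x hx
  exact ⟨j, hj, by
    change q * x * _ ∈ _
    rw [mul_assoc]; exact mul_mem (mem_sup_left hq) (mem_sup_right e)⟩

theorem evL_upd {z : G} {g : ℕ → G} (hz : ∀ l, g l * z = z * g l) (l : ℕ) (w : List ℕ) :
    evL (Function.update g l (z * g l)) w = z ^ w.count l * evL g w := by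
  induction w with
  | nil => simp [evL_nil]
  | cons k w ih =>
    have c : g k * z ^ w.count l = z ^ w.count l * g k := (Commute.pow_right (hz k) _).eq
    rw [evL_cons, evL_cons, ih]
    by_cases e : k = l
    · subst e
      rw [Function.update_self, List.count_cons_self, pow_succ', mul_assoc, ← mul_assoc (g k), c]
      simp only [mul_assoc]
    · rw [Function.update_of_ne e, List.count_cons_of_ne e, ← mul_assoc, c, mul_assoc]

theorem cj_congr {g g' : ℕ → G} (h : ∀ l ∈ VL, g' l = g l) (x y : ℕ) : Cj g' x y ↔ Cj g x y := by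
  have e : VV g' = VV g := by
    unfold VV
    congr 1
    ext u
    exact exists_congr fun l => and_congr_right fun hl => by rw [h l hl]
  have f : ∀ x, vv g' x = vv g x := fun x => evL_congr fun l hl => h l (vw_VL x l hl)
  unfold Cj
  rw [e, f, f]

/-- The relators that are not squares. -/
def SP : List (List ℕ) := [[19,14,15,18,15,18], [17,18,17,18,17,18], [16,17,16,17,16,17],
  [15,16,15,16,15,16], [14,15,14,15,14,15]]

def SQ : List (ℕ × ℕ × List ℕ) := [(14, 8, [21,20]), (15, 7, [21,20]), (15, 9, [22,21]),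
  (16, 8, [22,21]), (16, 10, [23,22]), (17, 9, [23,22]), (18, 10, [23,22,20,1])]

theorem hSQ : ∀ s ∈ SQ, s.1 < 24 ∧ s.2.1 < 11 ∧ M4.testBit (ac s.1 (2 ^ s.2.1)) = true ∧
    N0.testBit (2 ^ s.2.1) = N0.testBit (ac s.1 (2 ^ s.2.1)) ∧
    s.2.2 = (vw (ac s.1 (2 ^ s.2.1))).reverse := by decide +kernel

theorem hRel : ∀ r ∈ XA.R ++ XB.R, eq1 r = true ∧ (∀ l ∈ r, l < 24) ∧
    (r = r.take (r.length / 2) ++ r.take (r.length / 2) ∨ r ∈ SP ∨
      ∃ s ∈ SQ, r = s.1 :: VL.getD s.2.1 0 :: s.1 :: s.2.2) := by decide +kernel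

variable [Finite G] [M : Md] {z : G} {Q : Subgroup G} {a g : ℕ → G} (P : Pre z Q a g)
include P

theorem twist {g' : ℕ → G} (h : ∀ l, g' l = g l ∨ (14 ≤ l ∧ g' l = z * g l)) :
    Pre z Q a g' ∧ VV g' = VV g := by
  have E := P.ch.es
  have h0 : ∀ l < 14, g' l = g l := fun l hl => (h l).resolve_right fun k => by omega
  have hv : VV g' = VV g := by
    refine le_antisymm ((closure_le _).mpr ?_) ((closure_le _).mpr ?_) <;> rintro _ ⟨l, hl, rfl⟩
    · have k : g l ∈ VV g := subset_closure ⟨l, hl, rfl⟩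
      rcases h l with e | ⟨-, e⟩ <;> rw [e]
      · exact k
      · exact mul_mem (subset_closure ⟨1, by decide, P.toPre0.g1.symm⟩) k
    · have k : g' l ∈ VV g' := subset_closure ⟨l, hl, rfl⟩
      rcases h l with e | ⟨-, e⟩
      · rw [← e]; exact k
      · rw [← E.zzm (g l), ← e]
        exact mul_mem (subset_closure ⟨1, by decide, ((h0 1 (by norm_num)).trans P.toPre0.g1).symm⟩) k
  refine ⟨⟨⟨⟨E, P.ch.fr, fun l => ?_, fun l h1 h2 v hv => ?_, fun x hx => ?_⟩,
    fun l hl => (h0 l hl).trans (P.fr l hl), fun l hl => ?_⟩, P.sq, ?_, ?_⟩, hv⟩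
  · rcases h l with e | ⟨-, e⟩ <;> rw [e]
    · exact P.ch.cz l
    · rw [mul_assoc, P.ch.cz]
  · rcases h l with e | ⟨-, e⟩ <;> rw [e]
    · exact P.ch.act l h1 h2 v hv
    · rw [← P.ch.cz, rc_mul E P.ch.fr (P.ch.cz l) rfl, rc_Q E P.ch.fr E.zQ hv, P.ch.act l h1 h2 v hv]
  · obtain ⟨w, hw, hx⟩ := P.ch.gen x hx
    refine ⟨w, hw, ?_⟩
    have := mul_mem hx (evL_adj E P.ch.cz (w := w) (g := g') fun l _ => by
      rcases h l with e | ⟨-, e⟩
      · exact ⟨1, one_mem _, by rw [e, mul_one]⟩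
      · exact ⟨z, E.zQ, by rw [e, P.ch.cz]⟩)
    rwa [mul_assoc, inv_mul_cancel_left] at this
  · rcases h l with e | ⟨-, e⟩ <;> rw [e]
    · exact P.nn l hl
    · have := mul_mem (z_NN E P.ch.fr) (P.nn l hl)
      rwa [Prod.mk_mul_mk, one_mul] at this
  · rw [hv, h0 2 (by norm_num)]; exact P.mv
  · rw [h0 2 (by norm_num), h0 6 (by norm_num)]; exact P.n1

theorem gsq {l : ℕ} (hl : l < 25) : g l * g l = 1 := P.sq _ (P.nn l hl) (M.sq l (by omega))

theorem fixD (H : HM) : ∃ g', Pre z Q a g' ∧ ∀ x ∈ [128, 256, 512, 1024], ¬ Cj g' 1 x := by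
  classical
  let g' : ℕ → G := fun l =>
    if 20 ≤ l ∧ ∃ n ∈ normalizer (VV g : Set G), n * z * n⁻¹ = g l then z * g l else g l
  obtain ⟨P', e⟩ := twist P (g' := g') fun l => by
    by_cases c : 20 ≤ l ∧ ∃ n ∈ normalizer (VV g : Set G), n * z * n⁻¹ = g l
    · exact Or.inr ⟨by omega, if_pos c⟩
    · exact Or.inl (if_neg c)
  refine ⟨g', P', fun x hx => ?_⟩
  have : ∀ x ∈ [128, 256, 512, 1024], ∃ i < 11, x = 2 ^ i ∧ 20 ≤ VL.getD i 0 ∧ x < 2048 ∧
      M4.testBit x = true := by decide +kernel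
  obtain ⟨i, hi, rfl, h1, h2, h3⟩ := this x hx
  unfold Cj
  rw [e, vv_one P', vv_pow g' hi]
  intro k
  by_cases c : 20 ≤ VL.getD i 0 ∧ ∃ n ∈ normalizer (VV g : Set G), n * z * n⁻¹ = g (VL.getD i 0)
  · rw [show g' _ = _ from if_pos c, ← vv_pow g hi, ← vz P H] at k
    refine (cc_one (cc_M4 P H h2 h3)).mp ?_ ?_ <;> unfold Cj <;> rw [vv_one P]
    · exact k
    · rw [vv_pow g hi]; exact c.2
  · rw [show g' _ = _ from if_neg c] at k
    exact c ⟨h1, k⟩

theorem fixr (D : ∀ x ∈ [128, 256, 512, 1024], ¬ Cj g 1 x) {RS : List (List ℕ)} (h : Rels g RS)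
    (l : ℕ) (r : List ℕ) (k : 14 ≤ l ∧ l ∉ VL ∧ (∀ s ∈ RS, l ∉ s) ∧ r.count l % 2 = 1 ∧
      (∀ m ∈ r, m < 25) ∧ eq1 r = true) :
    ∃ g', Pre z Q a g' ∧ (∀ x ∈ [128, 256, 512, 1024], ¬ Cj g' 1 x) ∧ Rels g' (r :: RS) := by
  obtain ⟨k1, k2, k3, k4, k5, k6⟩ := k
  have t := P.toPre0.word k5
  rw [eq1_spec k6] at t
  rcases NN_K _ _ t with e | e
  · exact ⟨g, P, D, List.forall_mem_cons.mpr ⟨e, h⟩⟩
  refine ⟨Function.update g l (z * g l), (twist P fun m => ?_).1, fun x hx => ?_,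
    List.forall_mem_cons.mpr ⟨?_, fun s hs => ?_⟩⟩
  · by_cases c : m = l
    · subst c; exact Or.inr ⟨k1, Function.update_self ..⟩
    · exact Or.inl (Function.update_of_ne c ..)
  · rw [cj_congr (g := g) fun m hm => Function.update_of_ne (by rintro rfl; exact k2 hm) ..]
    exact D x hx
  · rw [evL_upd P.ch.cz, e, ← Nat.div_add_mod (r.count l) 2, k4, pow_succ, pow_mul, pow_two,
      P.ch.es.zz, one_pow, one_mul, P.ch.es.zz]
  · rw [evL_upd P.ch.cz, h s hs, List.count_eq_zero_of_not_mem (k3 s hs), pow_zero, mul_one]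

theorem fixAll (H : HM) : ∃ g', Pre z Q a g' ∧ (∀ x ∈ [128, 256, 512, 1024], ¬ Cj g' 1 x) ∧
    Rels g' SP := by
  obtain ⟨g0, P0, D0⟩ := fixD P H
  obtain ⟨g1, P1, D1, R1⟩ := fixr P0 D0 (RS := []) (fun _ h => by simp at h) 15 [14,15,14,15,14,15]
    (by decide +kernel)
  obtain ⟨g2, P2, D2, R2⟩ := fixr P1 D1 R1 16 [15,16,15,16,15,16] (by decide +kernel)
  obtain ⟨g3, P3, D3, R3⟩ := fixr P2 D2 R2 17 [16,17,16,17,16,17] (by decide +kernel)
  obtain ⟨g4, P4, D4, R4⟩ := fixr P3 D3 R3 18 [17,18,17,18,17,18] (by decide +kernel)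
  exact fixr P4 D4 R4 19 [19,14,15,18,15,18] (by decide +kernel)

theorem rels (H : HM) (D : ∀ x ∈ [128, 256, 512, 1024], ¬ Cj g 1 x) (R : Rels g SP) :
    Rels (pr2 g) (XA.R ++ XB.R) := fun r hr => by
  obtain ⟨h1, h2, h3⟩ := hRel r hr
  rw [evL_pr2, eq1_spec h1]
  refine Prod.ext ?_ rfl
  change evL g r = 1
  rcases h3 with e | e | ⟨s, hs, e⟩
  · have t := eq1_spec h1
    rw [e, evL_append] at t ⊢
    exact P.sq _ (P.toPre0.word fun l hl => (h2 l (List.mem_of_mem_take hl)).trans (by norm_num)) t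
  · exact R r e
  · obtain ⟨b1, b2, b3, b4, b5⟩ := hSQ s hs
    have t := exactD P H D b1 (Nat.pow_lt_pow_right (a := 2) (by norm_num) b2) b3 b4
    rw [vv_pow g b2, inv_eq_of_mul_eq_one_right (gsq P (by omega))] at t
    rw [e, evL_cons, evL_cons, evL_cons, b5, evL_rev' fun l hl => gsq P (vw_lt _ l hl), ← mul_assoc,
      ← mul_assoc, t]
    exact mul_inv_cancel _

theorem ub_Qh : UB (Qh P.ch.es P.ch.fr) 8192 := by
  refine ⟨inferInstance, ?_⟩
  rw [← P.ch.es.card]
  refine Nat.card_le_card_of_injective (fun d => (⟨d.1.1, Qh_mem _ _ d.2⟩ : Q)) fun d e h => ?_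
  have k : d.1.1 = e.1.1 := congrArg Subtype.val h
  exact Subtype.ext (Prod.ext k (Qh_eq' _ _ (p := d.1.1) d.2 (k ▸ e.2)))

theorem exists_U (R : Rels (pr2 g) (XA.R ++ XB.R)) : ∃ U : Subgroup (G × Spor.J4),
    U ≤ NN P.ch.es P.ch.fr ∧ Nat.card U ≤ 283115520 ∧ ∀ l < 24, (g l, e0 l) ∈ U := by
  let ev2 : ℕ → G × Spor.J4 := fun l => if l < 24 then pr2 g l else 1
  have c : ∀ w : List ℕ, (∀ l ∈ w, l < 24) → evL ev2 w = evL (pr2 g) w := fun w h =>
    evL_congr fun l hl => if_pos (h l hl)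
  have hg : Good ev2 566073426779046459040877649791461066728553822781039575296 := by
    refine good_of_rels (m := 24) (Prod.ext (P.fr 0 (by norm_num)) M.zero)
      (fun l hl => if_neg (by omega)) (by norm_num) fun r hr => ?_
    obtain ⟨l, hl, rfl⟩ := List.mem_map.mp hr
    have hl' := List.mem_range.mp hl
    have : ∀ l < 24, invL 566073426779046459040877649791461066728553822781039575296 l = l := by
      decide +kernel
    rw [this l hl', c _ (by simpa using hl'), evL_cons, evL_singleton]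
    exact Prod.ext (gsq P (by omega)) (M.sq l (by omega))
  have hr : Rels ev2 (XA.R ++ XB.R) := fun r hr => by rw [c r (hRel r hr).2.1]; exact R r hr
  have n : ∀ W, gen ev2 W ≤ NN P.ch.es P.ch.fr := fun W => gen_le fun w _ =>
    evL_mem_of_letters fun l _ => by
      by_cases e : l < 24
      · rw [show ev2 l = _ from if_pos e]; exact P.nn l (by omega)
      · rw [show ev2 l = _ from if_neg e]; exact one_mem _
  have n' : ∀ W, gen ev2 W ≤ normalizer (Qh P.ch.es P.ch.fr : Set (G × Spor.J4)) :=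
    fun W => (n W).trans inf_le_left
  have cA := cover_sup (XA.cover hg fun r h => hr r (List.mem_append_left _ h)) (n' _)
  have cB := cover_sup (XB.cover hg fun r h => hr r (List.mem_append_right _ h)) (n' _)
  have u : UB (Qh P.ch.es P.ch.fr ⊔ gen ev2 XA.Sub) 8192 := (ub_Qh P).mono (sup_le le_rfl
    (gen_le fun w hw => by
      obtain rfl : w = [1] := by simpa [XA.Sub] using hw
      rw [evL_singleton]
      exact gQ P (l := 1) (by norm_num)))
  refine ⟨_, sup_le (Qh_le _ _) (n _), ((u.cover cA).cover cB).2, fun l hl => ?_⟩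
  by_cases e : l < 14
  · exact mem_sup_left (gQ P e)
  · have : ∀ l < 24, ¬ l < 14 → [l] ∈ XB.X := by decide
    have k := evL_mem_gen ev2 (this l hl e)
    rw [evL_singleton, show ev2 l = _ from if_pos hl] at k
    exact mem_sup_right k

end Cfsg.J4R.X
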