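import Cfsg.Agent.J4R.X4
import Cfsg.Agent.J4R.HG
import Cfsg.Agent.J4R.M4

/-! The graph of a homomorphism from the centraliser in the model onto the centraliser. -/

set_option autoImplicit false
set_option maxRecDepth 100000
set_option linter.unusedSectionVars false

namespace Cfsg.J4R.X

open Subgroup Cfsg.H6
open Cfsg.Co.Rc (mem_cen)

theorem hD3 : ∀ i < 12, eqw [i + 2, 14, 19, i + 2, 19, 14, 19, 14, i + 2, 14, 19] [] = true ∨
    eqw [i + 2, 14, 19, i + 2, 19, 14, 19, 14, i + 2, 14, 19] [1] = true := by decide +kernel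

variable {G : Type*} [Group G]
variable [Finite G] [M : Md] {z : G} {Q : Subgroup G} {a g : ℕ → G} (P : Pre z Q a g)
include P

theorem card_NN : 2 * (8192 * 2661120) ≤ Nat.card (NN P.ch.es P.ch.fr) := by
  let f : NN P.ch.es P.ch.fr →* G := (MonoidHom.fst _ _).comp (Subgroup.subtype _)
  have h1 : f.range = centralizer {z} := by
    ext x
    constructor
    · rintro ⟨d, rfl⟩
      exact mem_cen.mpr (NN_cen _ _ d.2)
    · intro h
      obtain ⟨x0, k⟩ := P.toPre0.part (mem_cen.mp h)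
      exact ⟨⟨_, k⟩, rfl⟩
  have h2 : 1 < Nat.card f.ker := (Subgroup.one_lt_card_iff_ne_bot _).mpr fun e => by
    have : (⟨_, z0_NN P.ch.es P.ch.fr⟩ : NN P.ch.es P.ch.fr) ∈ f.ker := rfl
    rw [e, mem_bot] at this
    exact M.z1 (congrArg (·.1.2) this)
  rw [← f.ker.card_mul_index, index_ker, h1, P.ch.es.cardC]
  exact Nat.mul_le_mul_right _ h2

theorem exists_cpl (c77 : Cover (closure (e0 '' Set.Icc 1 23)) (closure (e0 '' Set.Icc 1 24)) 77)
    (R : Rels (pr2 g) (XA.R ++ XB.R)) : ∃ Γ : Subgroup (G × Spor.J4), Γ ≤ NN P.ch.es P.ch.fr ∧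
      (∀ x, (x, 1) ∈ Γ → x = 1) ∧ ∀ d ∈ NN P.ch.es P.ch.fr, d ∈ Γ ∨ (z, 1) * d ∈ Γ := by
  classical
  have E := P.ch.es
  obtain ⟨U, h1, h2, h3⟩ := exists_U P R
  have pt : ∀ {K : Subgroup (G × Spor.J4)}, K ≤ NN P.ch.es P.ch.fr → ∀ d ∈ NN P.ch.es P.ch.fr,
      ∀ u ∈ K, u.2 = d.2 → d ∈ K ∨ (z, 1) * d ∈ K := fun {K} hK d hd u hu e => by
    rcases NN_eq _ _ (c := u.1) (d := d.1) (c0 := d.2) (e ▸ hK hu) hd with k | k
    · exact Or.inl (by rw [← Prod.ext k e]; exact hu)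
    · exact Or.inr (by
        rw [show (z, 1) * d = u from Prod.ext k.symm ((one_mul _).trans e.symm)]; exact hu)
  let s := MonoidHom.snd G Spor.J4
  let S := NN P.ch.es P.ch.fr ⊓ (U.map s).comap s
  have c1 : Cover S (NN P.ch.es P.ch.fr) 77 := by
    obtain ⟨r, hr⟩ := c77
    have : ∀ j, ∃ x, r j ∈ C0 → (x, r j) ∈ NN P.ch.es P.ch.fr := fun j => by
      by_cases e : r j ∈ C0
      · obtain ⟨x, hx⟩ := P.toPre0.part0 e
        exact ⟨x, fun _ => hx⟩
      · exact ⟨1, fun k => absurd k e⟩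
    choose x hx using this
    refine ⟨fun j => (x j, r j), fun y hy => ?_⟩
    have k : y.2 ∈ closure (e0 '' Set.Icc 1 24) := by
      obtain ⟨w, hw, e⟩ := C0_word (NN_C0 _ _ hy)
      rw [← e]
      exact evL_mem_of_letters fun l hl => subset_closure
        ⟨l, ⟨(inR_spec hw l hl).1, Nat.le_of_lt_succ (inR_spec hw l hl).2⟩, rfl⟩
    obtain ⟨j, hj, e⟩ := hr _ k
    have b : closure (e0 '' Set.Icc 1 23) ≤ U.map s := (closure_le _).mpr (by
      rintro _ ⟨l, hl, rfl⟩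
      exact ⟨_, h3 l (Nat.lt_succ_of_le hl.2), rfl⟩)
    have b' : U.map s ≤ C0 := by
      rintro _ ⟨u, hu, rfl⟩
      exact NN_C0 _ _ (h1 hu)
    have t : r j ∈ C0 := by
      have := mul_mem (inv_mem (b' (b e))) (NN_C0 _ _ hy)
      simpa using this
    exact ⟨j, hj, mem_inf.mpr ⟨mul_mem hy (inv_mem (hx j t)), b e⟩⟩
  have c2 : Cover U S 2 := ⟨fun j => if j = 0 then 1 else (z, 1), fun y hy => by
    obtain ⟨u, hu, e⟩ := hy.2
    rcases pt h1 y hy.1 u hu e with k | k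
    · exact ⟨0, by norm_num, by simpa using k⟩
    · refine ⟨1, by norm_num, ?_⟩
      rw [show y * (if 1 = 0 then 1 else (z, 1))⁻¹ = (z, 1) * y from
        Prod.ext (by simpa [E.zinv] using NN_cen _ _ hy.1) (by simp)]
      exact k⟩
  have n1 := card_NN P
  have n2 := c1.finite_card.2
  have n3 := c2.finite_card.2
  have hz : (z, 1) ∉ U := fun k => by
    have : S ≤ U := fun y hy => by
      obtain ⟨u, hu, e⟩ := hy.2
      exact (pt h1 y hy.1 u hu e).elim id fun t => (mul_mem_cancel_left k).mp t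
    have := card_le_of_le this
    omega
  have hi : (S.subgroupOf (NN P.ch.es P.ch.fr)).index = 77 := by
    have t := (S.subgroupOf (NN P.ch.es P.ch.fr)).index_mul_card
    rw [Nat.card_congr (subgroupOfEquivOfLe (H := S) inf_le_left).toEquiv] at t
    have p : 0 < Nat.card S := Nat.card_pos
    refine le_antisymm (Nat.le_of_mul_le_mul_right (t.le.trans n2) p) ?_
    by_contra k
    have := Nat.mul_le_mul_right (Nat.card S) (Nat.le_of_lt_succ (not_le.mp k))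
    omega
  refine (gasch (V := (s.comp (NN P.ch.es P.ch.fr).subtype).ker)
    (S := S.subgroupOf (NN P.ch.es P.ch.fr)) (X := U.subgroupOf (NN P.ch.es P.ch.fr))
    (fun v hv => ?_) (fun v hv => ?_) (fun v hv => ⟨v.2, _, hv, rfl⟩) (fun v hv k => ?_)
    (fun v hv => ?_) (by rw [hi]; decide)).elim fun Y ⟨y1, y2⟩ => ?_
  rotate_right
  · refine ⟨Y.map (Subgroup.subtype _), map_subtype_le _, ?_, fun d hd => ?_⟩
    · rintro x ⟨y, hy, e⟩
      have := y1 y hy (congrArg Prod.snd e)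
      rw [this] at e
      exact (congrArg Prod.fst e).symm
    · obtain ⟨y, hy, e⟩ := y2 ⟨d, hd⟩
      exact pt (map_subtype_le _) d hd y ⟨y, hy, rfl⟩ (mul_inv_eq_one.mp e).symm
  · have e : v.1.2 = 1 := hv
    refine Subtype.ext (Prod.ext ?_ ?_)
    · change v.1.1 * v.1.1 = 1
      rcases NN_K _ _ (c := v.1.1) (by rw [← e]; exact v.2) with k | k <;> rw [k]
      · exact one_mul _
      · exact E.zz
    · change v.1.2 * v.1.2 = 1
      rw [e, one_mul]
  · have e : v.1.2 = 1 := hv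
    exact ⟨v.2, 1, one_mem _, e.symm⟩
  · have e : v.1.2 = 1 := k
    rcases NN_K _ _ (c := v.1.1) (by rw [← e]; exact v.2) with t | t
    · exact Subtype.ext (Prod.ext t e)
    · exact absurd (by rw [← Prod.ext (x := v.1) (y := (z, 1)) t e]; exact hv) hz
  · obtain ⟨u, hu, e⟩ := hv.2
    exact ⟨⟨u, h1 hu⟩, hu, mul_inv_eq_one.mpr e.symm⟩

theorem st_of_pre' (c77 : Cover (closure (e0 '' Set.Icc 1 23)) (closure (e0 '' Set.Icc 1 24)) 77)
    (H : HM) : ∃ Γ g1, St z Q a Γ g1 := by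
  classical
  obtain ⟨g, P, D, R⟩ := fixAll P H
  have R' := rels P H D R
  obtain ⟨Γ, h1, h2, h3⟩ := exists_cpl P c77 R'
  have E := P.ch.es
  have zc : ∀ d ∈ NN P.ch.es P.ch.fr, d * (z, 1) = (z, 1) * d := fun d hd =>
    Prod.ext (NN_cen _ _ hd) (by simp)
  have zz : ((z, 1) : G × Spor.J4) * (z, 1) = 1 := Prod.ext E.zz (one_mul _)
  have mi : ∀ d ∈ NN P.ch.es P.ch.fr, ∀ e ∈ NN P.ch.es P.ch.fr, (d ∈ Γ ↔ e ∈ Γ) → d * e ∈ Γ :=
    fun d hd e he k => by
      by_cases c : d ∈ Γ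
      · exact mul_mem c (k.mp c)
      · have := mul_mem ((h3 d hd).resolve_left c) ((h3 e he).resolve_left fun t => c (k.mpr t))
        rwa [← zc d hd, mul_assoc, ← mul_assoc (z, 1), zz, one_mul] at this
  have cj : ∀ d ∈ NN P.ch.es P.ch.fr, ∀ e ∈ Γ, d * e * d⁻¹ ∈ Γ := fun d hd e he => by
    rcases h3 d hd with k | k
    · exact mul_mem (mul_mem k he) (inv_mem k)
    · have := mul_mem (mul_mem k he) (inv_mem k)
      rwa [mul_inv_rev, mul_assoc (z, 1), mul_assoc (z, 1), ← mul_assoc (d * e),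
        inv_eq_of_mul_eq_one_right zz, zc _ (mul_mem (mul_mem hd (h1 he)) (inv_mem hd)), ← mul_assoc,
        zz, one_mul] at this
  have cj' : ∀ d ∈ NN P.ch.es P.ch.fr, ∀ e, d * e * d⁻¹ ∈ Γ ↔ e ∈ Γ := fun d hd e =>
    ⟨fun k => by simpa [mul_assoc] using cj _ (inv_mem hd) _ k, cj d hd e⟩
  have cm : ∀ d ∈ NN P.ch.es P.ch.fr, ∀ e ∈ NN P.ch.es P.ch.fr, d * e * d⁻¹ * e ∈ Γ :=
    fun d hd e he => mi _ (mul_mem (mul_mem hd he) (inv_mem hd)) e he (cj' d hd e)
  have sq : ∀ l < 25, (pr2 g l)⁻¹ = pr2 g l := fun l hl =>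
    inv_eq_of_mul_eq_one_right (Prod.ext (gsq P hl) (M.sq l (by omega)))
  have z1 : (z, e0 1) ∈ Γ := by
    have t := cm _ (P.nn 8 (by norm_num)) _ (P.nn 2 (by norm_num))
    have q := mul_mem (mul_mem (mul_mem (gQ P (l := 8) (by norm_num)) (gQ P (l := 2) (by norm_num)))
      (inv_mem (gQ P (l := 8) (by norm_num)))) (gQ P (l := 2) (by norm_num))
    have e : e0 8 * e0 2 * (e0 8)⁻¹ * e0 2 = e0 1 := by
      have := eqw_spec (u := [8, 2, 8, 2]) (v := [1]) (by decide +kernel)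
      simpa [evL_cons, evL_nil, e0_inv, mul_assoc] using this
    simp only [Prod.inv_mk, Prod.mk_mul_mk, e] at t q
    rwa [Qh_eq _ _ q (zh_Qh _ _)] at t
  have q1 : ∀ l < 14, (g l, e0 l) ∈ Γ := fun l hl => by
    rcases l with _ | _ | i
    · rw [M.zero, P.fr 0 hl]; exact one_mem _
    · rw [P.toPre0.g1]; exact z1
    have d := mul_mem (P.nn 14 (by norm_num)) (P.nn 19 (by norm_num))
    have x := gQ P hl
    have q := mul_mem x (mul_mem (NN_nrm _ _ d x) (NN_nrm _ _ (inv_mem d) x))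
    have t := mi _ (Qh_le _ _ (NN_nrm _ _ d x)) _ (Qh_le _ _ (NN_nrm _ _ (inv_mem d) x))
      ((cj' _ d _).trans (cj' _ (inv_mem d) _).symm)
    refine (mul_mem_cancel_right t).mp ?_
    simp only [Prod.inv_mk, Prod.mk_mul_mk] at q ⊢
    have e : e0 (i + 1 + 1) * (e0 14 * e0 19 * e0 (i + 1 + 1) * (e0 14 * e0 19)⁻¹ *
        ((e0 14 * e0 19)⁻¹ * e0 (i + 1 + 1) * (e0 14 * e0 19)⁻¹⁻¹)) =
        evL e0 [i + 2, 14, 19, i + 2, 19, 14, 19, 14, i + 2, 14, 19] := by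
      simp [evL_cons, evL_nil, e0_inv, mul_assoc]
    rw [e] at q ⊢
    rcases hD3 i (by omega) with k | k <;> rw [eqw_spec k] at q ⊢
    · rw [Qh_snd _ _ q]; exact one_mem _
    · rw [evL_singleton] at q ⊢
      rw [Qh_eq _ _ q (zh_Qh _ _)]; exact z1
  have q2 : pr2 g 20 ∈ Γ := by
    have t := cm _ (P.nn 14 (by norm_num)) _ (P.nn 21 (by norm_num))
    have e := R' [14, 21, 14, 21, 20] (by decide)
    change pr2 g 14 * pr2 g 21 * (pr2 g 14)⁻¹ * pr2 g 21 ∈ Γ at t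
    rw [sq 14 (by norm_num)] at t
    simp only [evL_cons, evL_nil, mul_one, ← mul_assoc] at e
    rw [← inv_eq_of_mul_eq_one_right e]
    exact inv_mem t
  let g' : ℕ → G := fun l => if (g l, e0 l) ∈ Γ then g l else z * g l
  obtain ⟨P', -⟩ := twist P (g' := g') fun l => by
    by_cases c : (g l, e0 l) ∈ Γ
    · exact Or.inl (if_pos c)
    · exact Or.inr ⟨not_lt.mp fun k => c (q1 l k), if_neg c⟩
  have m : ∀ l < 25, (g' l, e0 l) ∈ Γ := fun l hl => by
    by_cases c : (g l, e0 l) ∈ Γ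
    · rw [show g' l = _ from if_pos c]; exact c
    · have := (h3 _ (P.nn l hl)).resolve_left c
      rw [Prod.mk_mul_mk, one_mul] at this
      rw [show g' l = _ from if_neg c]; exact this
  refine ⟨Γ, g', P'.ch, ⟨h2, fun x0 hx => ?_, m, fun K hK d hd => ?_, P'.fr⟩, P'.mv, P'.n1, ?_⟩
  · refine (NN_snd _ _ (h1 hx)).resolve_right fun e => E.z1 (h2 z ?_)
    have := mul_mem hx z1
    rwa [e, Prod.mk_mul_mk, one_mul, M.sq 1 (by norm_num)] at this
  · obtain ⟨w, hw, e⟩ := C0_word (NN_C0 _ _ (h1 hd))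
    have k : ∀ L : Subgroup (G × Spor.J4), (∀ l < 25, (g' l, e0 l) ∈ L) →
        (evL g' w, evL e0 w) ∈ L := fun L hL => by
      rw [← evL_pr2]
      exact evL_mem_of_letters fun l hl => hL l (inR_spec hw l hl).2
    have t := mul_mem hd (inv_mem (k Γ m))
    rw [show d * (evL g' w, evL e0 w)⁻¹ = (d.1 * (evL g' w)⁻¹, 1) from
      Prod.ext rfl (mul_inv_eq_one.mpr e.symm)] at t
    rw [show d = (evL g' w, evL e0 w) from Prod.ext (mul_inv_eq_one.mp (h2 _ t)) e.symm]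
    exact k K hK
  · rw [show g' 20 = g 20 from if_pos q2]
    exact nc128 P H D

theorem st_of_pre (H : HM) : ∃ Γ g1, St z Q a Γ g1 := st_of_pre' P cover77 H

end Cfsg.J4R.X
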