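import Cfsg.Agent.J4R.Y0
import Cfsg.Agent.J4R.S4
import Cfsg.Agent.J4R.V0

/-! Elementary abelian subgroups of order `2 ^ 11` containing `z` and `s` are conjugate to `V`. -/

set_option autoImplicit false
set_option maxRecDepth 100000
set_option linter.unusedSectionVars false

namespace Cfsg.J4R

open Subgroup Cfsg.H6
open Cfsg.Co.Rc (mem_cen)

variable {G : Type*} [Group G] [Finite G] {z : G} {Q : Subgroup G} {a c : ℕ → G} {B : Subgroup G}

/-- A large elementary abelian subgroup containing `z` and `s`. -/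
structure Big (z s : G) (B : Subgroup G) : Prop where
  hz : z ∈ B
  hs : s ∈ B
  cm : ∀ x ∈ B, ∀ y ∈ B, x * y = y * x
  sq : ∀ x ∈ B, x * x = 1
  card : 2048 ≤ Nat.card B

theorem Big.conj {s : G} (b : Big z s B) (k : G) {z' s' : G}
    (h1 : z' ∈ B.map (MulAut.conj k).toMonoidHom) (h2 : s' ∈ B.map (MulAut.conj k).toMonoidHom) :
    Big z' s' (B.map (MulAut.conj k).toMonoidHom) := by
  refine ⟨h1, h2, ?_, ?_, by rw [card_map_of_injective (MulAut.conj k).injective]; exact b.card⟩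
  · rintro _ ⟨x, hx, rfl⟩ _ ⟨y, hy, rfl⟩
    rw [← map_mul, ← map_mul, b.cm x hx y hy]
  · rintro _ ⟨x, hx, rfl⟩
    rw [← map_mul, b.sq x hx, map_one]

theorem hY1 {u : ℕ} (hu : u < 4096) (h1 : qf false u = false) (h2 : qf false (u ^^^ 1) = false)
    (h3 : 4 ≤ u) : (∃ j < 9, rp j = u) ∨ ∃ l ∈ SL4, 4 ≤ im l u ∧ dpY (im l u) < dpY u := by
  have k := allR_spec chkY1 u (Nat.zero_le _) (by omega)
  rw [okY1, h1, h2, show Nat.blt u 4 = false from
    Bool.eq_false_iff.mpr (by rw [ne_eq, Nat.blt_eq]; omega)] at k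
  simp only [Bool.false_or, Bool.or_eq_true, Bool.not_eq_true'] at k
  refine k.imp (fun k => ?_) fun k => ?_
  · obtain ⟨j, -, e1, e2⟩ := not_allR k
    exact ⟨j, by omega, Nat.eq_of_beq_eq_true (by simpa using e2)⟩
  · by_contra n
    push Not at n
    rw [allL_iff.mpr fun l hl => by
      rw [frcB_eq, Bool.or_eq_true, Nat.blt_eq, Nat.ble_eq]
      have := n l hl
      omega] at k
    exact absurd k (by simp)

theorem wB_ok : ∀ j < 16, ∀ l ∈ wB j, 14 ≤ l ∧ l < 25 ∧ l ∈ VL := by decide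

variable (h : Ch z Q a c)
include h

theorem ev_cz (w : List ℕ) : evL c w * z = z * evL c w :=
  mem_cen.mp (evL_mem_of_letters fun l _ => mem_cen.mpr (h.cz l))

theorem rc_w : ∀ {w : List ℕ}, (∀ l ∈ w, 14 ≤ l ∧ l < 25 ∧ l ∈ VL) → ∀ {v : ℕ}, v < 4096 →
    rc z a (evL c w) v = imw w v
  | [], _, _, hv => rc_Q h.es h.fr Q.one_mem hv
  | l :: w, hw, v, hv => by
    obtain ⟨k1, k2⟩ := List.forall_mem_cons.mp hw
    rw [evL_cons, rc_mul h.es h.fr (h.cz l) (ev_cz h w), h.act l k1.1 k1.2.1 _ (rc_lt _ _), rc_w k2 hv]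
    rfl

theorem cntE (hB : ∀ x ∈ B, x * z = z * x) (f : ℕ → ℕ → ℕ) (L : List ℕ)
    (k : ∀ x ∈ B, ∃ i ∈ L, ∀ v < 4096, rc z a x v = f i v) :
    Nat.card B ≤ Nat.card (B ⊓ Q : Subgroup G) * L.length := by
  classical
  choose! i h1 h2 using k
  have e : ∀ H : Subgroup G, Nat.card H = (H : Set G).toFinite.toFinset.card := fun H =>
    Set.ncard_eq_toFinset_card _ _
  rw [e, e]
  refine (Finset.card_le_mul_card_image_of_maps_to (t := L.toFinset) (f := i)
    (fun p hp => List.mem_toFinset.mpr (h1 p (by simpa using hp))) _ fun j _ => ?_).trans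
    (Nat.mul_le_mul_left _ (List.toFinset_card_le L))
  rcases (Finset.filter (i · = j) _).eq_empty_or_nonempty with e | ⟨p, hp⟩
  · rw [e]; exact Nat.zero_le _
  · refine Finset.card_le_card_of_injOn (fun x => p⁻¹ * x) (fun x hx => ?_) fun _ _ _ _ e => by
      simpa using e
    rw [Finset.mem_coe] at hx ⊢
    rw [Finset.mem_filter, Set.Finite.mem_toFinset] at hx hp
    rw [Set.Finite.mem_toFinset]
    exact ⟨B.mul_mem (B.inv_mem hp.1) hx.1, rc_ext h (hB p hp.1) (hB x hx.1) fun v hv => by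
      rw [h2 p hp.1 v hv, h2 x hx.1 v hv, hp.2, hx.2]⟩

theorem cntU (L : List ℕ) (k : ∀ q ∈ B, q ∈ Q → co a q ∈ L) :
    Nat.card (B ⊓ Q : Subgroup G) ≤ 2 * L.length := by
  classical
  refine (card_le_fin (F := (L.toFinset ×ˢ Finset.univ).image fun x : ℕ × Bool =>
    if x.2 = true then z * evL (fa z a) (bw x.1) else evL (fa z a) (bw x.1)) fun q hq => ?_).trans
    (Finset.card_image_le.trans ?_)
  · have m := List.mem_toFinset.mpr (k q hq.1 hq.2)
    rcases nf h.es h.fr hq.2 with e | e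
    exacts [Finset.mem_image.mpr ⟨(co a q, false), Finset.mem_product.mpr ⟨m, Finset.mem_univ _⟩, e.symm⟩,
      Finset.mem_image.mpr ⟨(co a q, true), Finset.mem_product.mpr ⟨m, Finset.mem_univ _⟩, e.symm⟩]
  · rw [Finset.card_product, mul_comm]
    exact Nat.mul_le_mul_left _ (List.toFinset_card_le L)

variable (b : Big z (a 0) B)
include b

theorem Big.fix {x q : G} (hx : x ∈ B) (hq : q ∈ B) (k : q ∈ Q) : rc z a x (co a q) = co a q := by
  rw [← co_conj h.es h.fr (b.cm x hx z b.hz) k, b.cm x hx q hq, mul_inv_cancel_right]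

theorem Big.c0 : co a (a 0) = 1 := co_a h.es h.fr (i := 0) (by norm_num)

theorem Big.ex {x : G} (hx : x ∈ B) : ∃ i < 232, Mt z a x (IL i) :=
  exI h (b.cm x hx z b.hz) (b.c0 h ▸ b.fix h hx b.hs (h.fr.mem 0 (by norm_num)))
    (b.sq x hx ▸ Q.one_mem)

theorem Big.c7 : Nat.card (B ⊓ Q : Subgroup G) ≤ 128 :=
  h.es.ab_le inf_le_right fun x hx y hy => b.cm x hx.1 y hy.1

theorem Big.q0 {q : G} (hq : q ∈ B) (k : q ∈ Q) : qf false (co a q) = false :=
  (sq_iff h k).mp (b.sq q hq)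

theorem Big.q1 {p q : G} (hp : p ∈ B) (l : p ∈ Q) (hq : q ∈ B) (k : q ∈ Q) :
    qf false (co a p ^^^ co a q) = false :=
  co_mul h.es h.fr l k ▸ b.q0 h (mul_mem hp hq) (mul_mem l k)

theorem Big.base {r : G} (hr : r ∈ B) (hr' : r ∈ Q) {j : ℕ} (hj : j < 9) (e : rp j = co a r) :
    ∀ x ∈ B, ∃ k < 16, ∀ v < 4096, rc z a x v = imw (wB k) v := by
  have cz := fun x hx => b.cm x hx z b.hz
  have m : ∀ x ∈ B, ∃ A ∈ MY j, Mt z a x A := fun x hx => by
    obtain ⟨i, hi, k⟩ := b.ex h hx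
    have := allR_spec (allR_spec chkY2 j (Nat.zero_le _) (by omega)) i (Nat.zero_le _) (by omega)
    rw [frcB_eq, fxY, e, ← k _ (co_lt _ _), b.fix h hx hr hr', Nat.beq_refl] at this
    exact ⟨_, by simpa using this, k⟩
  have d : ∀ q ∈ B, q ∈ Q → co a q ∈ DY j := fun q hq k => by
    have := allR_spec (allR_spec chkY3 j (Nat.zero_le _) (by omega)) _ (Nat.zero_le _)
      (by have := co_lt a q; omega : co a q < 0 + 4096)
    have c1 := cntE h cz ap12 ((MY j).filter fun A => fxY A (co a q)) fun x hx => by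
      obtain ⟨A, h1, h2⟩ := m x hx
      exact ⟨A, List.mem_filter.mpr ⟨h1, by
        rw [fxY, ← h2 _ (co_lt _ _), b.fix h hx hq k, Nat.beq_refl]⟩, h2⟩
    have c2 := b.c7 h
    have c3 := b.card
    rw [b.q0 h hq k, ← b.c0 h, b.q1 h hq k b.hs (h.fr.mem 0 (by norm_num)), e, b.q1 h hq k hr hr',
      cnL_eq, show Nat.blt _ 16 = false from Bool.eq_false_iff.mpr (by
        rw [ne_eq, Nat.blt_eq]; intro n; nlinarith)] at this
    simpa using this
  intro x hx
  obtain ⟨A, h1, h2⟩ := m x hx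
  obtain ⟨k1, k2⟩ := andB_eq_true.mp (allR_spec chkY4 j (Nat.zero_le _) (by omega))
  have k3 := allL_iff.mp k2 A h1
  rw [Bool.or_eq_true, Nat.ble_eq, cnL_eq, Bool.not_eq_true'] at k3
  rw [Nat.ble_eq] at k1
  rcases k3 with k3 | k3
  · have c1 := cntE h cz ap12 (MY j) m
    have c2 := cntU h (B := B) ((DY j).filter (fxY A)) fun q hq k => List.mem_filter.mpr ⟨d q hq k, by
      rw [fxY, ← h2 _ (co_lt _ _), b.fix h hx hq k, Nat.beq_refl]⟩
    have c3 := b.card
    have := Nat.mul_le_mul (c2.trans (Nat.mul_le_mul_left 2 k3)) k1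
    omega
  obtain ⟨k, -, e1, e2⟩ := not_allR k3
  rw [Bool.not_eq_false', allL_iff] at e2
  have kl : k < 16 := by omega
  refine ⟨k, kl, fun v hv => ?_⟩
  rw [← rc_w h (wB_ok k kl) hv]
  refine (h2 v hv).trans (Mt_of h (ev_cz h _) (fun v hv => ?_) v hv).symm
  rw [rc_w h (wB_ok k kl) (b12_lt v hv)]
  exact (Nat.eq_of_beq_eq_true (e2 v hv)).symm

theorem Big.le (fr : ∀ l < 14, c l = fa z a l) (V : Big z (a 0) (VV c))
    (k : ∀ x ∈ B, ∃ k < 16, ∀ v < 4096, rc z a x v = imw (wB k) v) : B ≤ VV c := by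
  have cz := fun x hx => b.cm x hx z b.hz
  have c3 := b.card
  have d : ∀ q ∈ B, q ∈ Q → co a q < 64 := fun q hq m => by
    by_contra n
    have := allR_spec chkY5 (co a q) (by omega) (by have := co_lt a q; omega)
    rw [Bool.not_eq_true'] at this
    obtain ⟨i, -, e1, e2⟩ := not_allR this
    have il : 2 ^ i ∈ List.range 16 := by
      have : i < 4 := by omega
      interval_cases i <;> decide
    have c1 := cntE h cz (fun j => imw (wB j)) ((List.range 16).erase (2 ^ i)) fun x hx => by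
      obtain ⟨j, h1, h2⟩ := k x hx
      refine ⟨j, (List.mem_erase_of_ne ?_).mpr (List.mem_range.mpr h1), h2⟩
      rintro rfl
      rw [← h2 _ (co_lt _ _), b.fix h hx hq m, Nat.beq_refl] at e2
      exact absurd e2 (by simp)
    rw [List.length_erase_of_mem il, List.length_range] at c1
    have := b.c7 h
    omega
  have c1 := cntE h cz (fun j => imw (wB j)) (List.range 16) fun x hx =>
    (k x hx).imp fun j hj => ⟨List.mem_range.mpr hj.1, hj.2⟩
  have am : ∀ i < 6, a i ∈ B := fun i hi => by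
    have il : 2 ^ i ∈ List.range 64 := by interval_cases i <;> decide
    by_contra n
    have c2 := cntU h (B := B) ((List.range 64).erase (2 ^ i)) fun q hq m =>
      (List.mem_erase_of_ne fun e => n (by
        rcases eq_of_co h.es h.fr (h.fr.mem i (by omega)) m
          ((co_a h.es h.fr (by omega)).trans e.symm) with r | r <;> rw [r]
        exacts [hq, mul_mem b.hz hq])).mpr (List.mem_range.mpr (d q hq m))
    rw [List.length_erase_of_mem il, List.length_range] at c2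
    rw [List.length_range] at c1
    omega
  have cv : ∀ l ∈ VL, c l ∈ VV c := fun l hl => subset_closure ⟨l, hl, rfl⟩
  have av : ∀ i < 6, a i ∈ VV c := fun i hi => by
    rw [← fa_a (z := z) (a := a) (show i < 12 by omega), ← fr _ (by omega)]
    exact cv _ (by interval_cases i <;> decide)
  intro x hx
  obtain ⟨j, h1, h2⟩ := k x hx
  have wv : evL c (wB j) ∈ VV c := evL_mem_of_letters fun l hl => cv l (wB_ok j h1 l hl).2.2
  have m := rc_ext h (ev_cz h (wB j)) (cz x hx) fun v hv => by rw [rc_w h (wB_ok j h1) hv, h2 v hv]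
  refine (mul_mem_cancel_left (inv_mem wv)).mp ?_
  generalize hq : (evL c (wB j))⁻¹ * x = q at m
  have cm : ∀ i < 6, a i * q = q * a i := fun i hi => by
    rw [← hq, ← mul_assoc, V.cm _ (av i hi) _ (inv_mem wv), mul_assoc, b.cm _ (am i hi) x hx, mul_assoc]
  have bv : evL (fa z a) (bw (co a q)) ∈ VV c := evL_mem_of_letters fun l hl => by
    obtain ⟨i, hi, rfl⟩ := List.mem_map.mp hl
    obtain ⟨i1, i2⟩ := List.mem_filter.mp hi
    rw [List.mem_range] at i1
    rw [fa_a i1]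
    refine av i ?_
    by_contra n
    exact (co_bit a q i1).mp i2 (cm _ (by unfold pr; omega))
  rcases nf h.es h.fr m with e | e <;> rw [e]
  exacts [bv, mul_mem V.hz bv]

omit b in
theorem Big.cj (fr : ∀ l < 14, c l = fa z a l) (V : Big z (a 0) (VV c)) (n : ℕ) :
    ∀ {B : Subgroup G}, Big z (a 0) B → ∀ r ∈ B, r ∈ Q → 4 ≤ co a r → dpY (co a r) = n →
      ∃ k, k * z = z * k ∧ B.map (MulAut.conj k).toMonoidHom ≤ VV c := by
  induction n using Nat.strong_induction_on with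
  | _ n ih =>
    intro B b r hr hr' h4 hn
    have a0 := h.fr.mem 0 (by norm_num)
    rcases hY1 (co_lt a r) (b.q0 h hr hr') (b.c0 h ▸ b.q1 h hr hr' b.hs a0) h4 with
      ⟨j, hj, e⟩ | ⟨l, hl, e1, e2⟩
    · refine ⟨1, by simp, ?_⟩
      rintro _ ⟨x, hx, rfl⟩
      simpa using b.le h fr V (b.base h hr hr' hj e) hx
    obtain ⟨l1, l2, l3⟩ := GL_fix l hl
    have m : ∀ x ∈ B, c l * x * (c l)⁻¹ ∈ B.map (MulAut.conj (c l)).toMonoidHom := fun x hx =>
      ⟨x, hx, rfl⟩
    have mz := m z b.hz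
    rw [h.cz l, mul_inv_cancel_right] at mz
    have ms : a 0 ∈ B.map (MulAut.conj (c l)).toMonoidHom := by
      rcases eq_of_co h.es h.fr a0 (h.es.nrm _ (h.cz l) _ a0) (by
        rw [co_conj h.es h.fr (h.cz l) a0, b.c0 h, h.act l l1 l2 1 (by norm_num), l3]) with r | r <;>
        rw [r]
      exacts [m _ b.hs, mul_mem mz (m _ b.hs)]
    have e : co a (c l * r * (c l)⁻¹) = im l (co a r) := by
      rw [co_conj h.es h.fr (h.cz l) hr', h.act l l1 l2 _ (co_lt _ _)]
    obtain ⟨k, k1, k2⟩ := ih _ (hn ▸ e2) (b.conj (c l) mz ms) _ (m r hr) (h.es.nrm _ (h.cz l) _ hr')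
      (e ▸ e1) (by rw [e])
    refine ⟨k * c l, by rw [mul_assoc, h.cz l, ← mul_assoc, k1, mul_assoc], ?_⟩
    rintro _ ⟨x, hx, rfl⟩
    simpa [mul_assoc] using k2 ⟨_, m x hx, rfl⟩

theorem Big.cj' (fr : ∀ l < 14, c l = fa z a l) (V : Big z (a 0) (VV c)) :
    ∃ k, k * z = z * k ∧ B.map (MulAut.conj k).toMonoidHom ≤ VV c := by
  by_contra n
  have c1 := cntE h (fun x hx => b.cm x hx z b.hz) (fun i => ap12 (IL i)) (List.range 232)
    fun x hx => (b.ex h hx).imp fun j hj => ⟨List.mem_range.mpr hj.1, hj.2⟩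
  have c2 := cntU h (B := B) (List.range 4) fun q hq m => List.mem_range.mpr (by
    by_contra k
    exact n (Big.cj h fr V _ b q hq m (by omega) rfl))
  have := b.card
  rw [List.length_range] at c1 c2
  omega

omit b in
theorem mv_big (fr : ∀ l < 14, c l = fa z a l) (V : Big z (a 0) (VV c))
    (sw : ∃ n, n * z * n⁻¹ = a 0 ∧ n * a 0 * n⁻¹ = z) :
    ∃ n ∈ normalizer (VV c : Set G), n * z * n⁻¹ = c 2 := by
  obtain ⟨n, h1, h2⟩ := sw
  obtain ⟨k, k1, k2⟩ := (V.conj n⁻¹ (z' := z) (s' := a 0) ⟨_, V.hs, by simp [← h1, mul_assoc]⟩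
    ⟨_, V.hz, by simp [← h2, mul_assoc]⟩).cj' h fr V
  refine ⟨(k * n⁻¹)⁻¹, inv_mem (mem_normalizer_fintype fun x hx => ?_), ?_⟩
  · simpa [mul_assoc] using k2 ⟨_, ⟨x, hx, rfl⟩, rfl⟩
  · rw [fr 2 (by norm_num), fa_a (i := 0) (by norm_num), ← h1]
    calc _ = n * (k⁻¹ * (z * k)) * n⁻¹ := by group
      _ = _ := by rw [← k1, inv_mul_cancel_left]

omit b in
theorem big_V (fr : ∀ l < 14, c l = fa z a l) (h1 : ∀ l ∈ VL, c l * c l = 1)
    (h2 : ∀ l ∈ VL, ∀ k ∈ VL, c l * c k = c k * c l) : Big z (a 0) (VV c) := by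
  have cv : ∀ l ∈ VL, c l ∈ VV c := fun l hl => subset_closure ⟨l, hl, rfl⟩
  have zv : z ∈ VV c := by
    have := cv 1 (by decide)
    rwa [fr 1 (by norm_num)] at this
  have cm : ∀ x ∈ VV c, ∀ y ∈ VV c, x * y = y * x := fun x hx y hy => by
    refine mem_cen.mp ((closure_le (centralizer {y})).mpr ?_ hx)
    rintro _ ⟨l, hl, rfl⟩
    refine mem_cen.mpr (mem_cen.mp ((closure_le (centralizer {c l})).mpr ?_ hy)).symm
    rintro _ ⟨k, hk, rfl⟩
    exact mem_cen.mpr (h2 k hk l hl)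
  refine ⟨zv, by
    rw [← fa_a (z := z) (a := a) (i := 0) (by norm_num), ← fr _ (by norm_num)]
    exact cv 2 (by decide), cm, fun x hx => ?_, ?_⟩
  · induction hx using closure_induction with
    | mem x hx => obtain ⟨l, hl, rfl⟩ := hx; exact h1 l hl
    | one => exact mul_one 1
    | mul x y hx hy k l => rw [mul_assoc, ← mul_assoc y, cm y hy x hx, mul_assoc, l, mul_one, k]
    | inv x _ k => rw [← mul_inv_rev, k, inv_one]
  have bv : ∀ u < 64, ∀ l ∈ bw u, l < 14 ∧ l ∈ VL := by decide +kernel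
  have p : ∀ (u : Fin 64) (t : Bool), cond t z 1 * evL (fa z a) (bw u) ∈ Q ∧
      co a (cond t z 1 * evL (fa z a) (bw u)) = u ∧ cond t z 1 * evL (fa z a) (bw u) ∈ VV c :=
    fun u t => by
      have e1 := ev_mem h.es h.fr (bw u)
      have e2 := co_bw h.es h.fr (v := u) (by omega)
      have e3 : evL (fa z a) (bw u) ∈ VV c := evL_mem_of_letters fun l hl =>
        fr l (bv u u.2 l hl).1 ▸ cv l (bv u u.2 l hl).2
      cases t
      · simpa using ⟨e1, e2, e3⟩
      · exact ⟨mul_mem h.es.zQ e1, (co_zm h.es h.fr e1).trans e2, mul_mem zv e3⟩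
  let f : Fin 16 × Fin 64 × Bool → VV c := fun x =>
    ⟨evL c (wB x.1) * (cond x.2.2 z 1 * evL (fa z a) (bw x.2.1)), mul_mem
      (evL_mem_of_letters fun l hl => cv l (wB_ok _ x.1.2 l hl).2.2) (p _ _).2.2⟩
  have := Nat.card_le_card_of_injective f (by
    rintro ⟨j, u, s⟩ ⟨k, v, t⟩ e
    replace e := congrArg Subtype.val e
    have r : ∀ (j : Fin 16) q, q ∈ Q → ∀ v ∈ b12, rc z a (evL c (wB j) * q) v = imw (wB j) v :=
      fun j q hq v hv => by
        rw [rc_mul h.es h.fr (ev_cz h _) (h.es.qz q hq), rc_Q h.es h.fr hq (b12_lt v hv),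
          rc_w h (wB_ok _ j.2) (b12_lt v hv)]
    obtain rfl : j = k := Fin.ext (chkY6 _ j.2 _ k.2 fun w hw => by
      rw [← r j _ (p u s).1 w hw, ← r k _ (p v t).1 w hw]; exact congrArg (rc z a · w) e)
    replace e := mul_left_cancel e
    obtain rfl : u = v := Fin.ext (by rw [← (p u s).2.1, ← (p v t).2.1]; exact congrArg _ e)
    replace e := mul_right_cancel e
    cases s <;> cases t
    exacts [rfl, absurd e.symm h.es.z1, absurd e h.es.z1, rfl])
  simpa using this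

omit b h in
theorem mv_of [M : Md] {g : ℕ → G} (P : Pre0 z Q a g)
    (hm : ∀ l ∈ VL, ∀ k ∈ VL, e0 l * e0 k * (e0 l * e0 k) = 1)
    (sq : ∀ d ∈ NN P.ch.es P.ch.fr, d.2 * d.2 = 1 → d.1 * d.1 = 1)
    (sw : ∃ n, n * z * n⁻¹ = a 0 ∧ n * a 0 * n⁻¹ = z) :
    ∃ n ∈ normalizer (VV g : Set G), n * z * n⁻¹ = g 2 := by
  have lt : ∀ l ∈ VL, l < 25 := by decide
  have h1 : ∀ l ∈ VL, g l * g l = 1 := fun l hl =>
    sq _ (P.nn l (lt l hl)) (M.sq l (by have := lt l hl; omega))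
  refine mv_big P.ch P.fr (big_V P.ch P.fr h1 fun l hl k hk => ?_) sw
  have := sq _ (mul_mem (P.nn l (lt l hl)) (P.nn k (lt k hk))) (hm l hl k hk)
  replace this : g l * g k * (g l * g k) = 1 := this
  rw [← inv_eq_of_mul_eq_one_right this, mul_inv_rev, inv_eq_of_mul_eq_one_right (h1 l hl), inv_eq_of_mul_eq_one_right (h1 k hk)]

end Cfsg.J4R
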