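import Cfsg.Agent.J4R.Y1
import Cfsg.Agent.J4R.M1

/-! The letters of `VL` commute in the model. -/

set_option autoImplicit false
set_option maxRecDepth 100000

namespace Cfsg.J4R

open Cfsg.H6

theorem hmV : ∀ l ∈ VL, ∀ k ∈ VL, e0 l * e0 k * (e0 l * e0 k) = 1 := fun l hl k hk => by
  have : ∀ l ∈ VL, ∀ k ∈ VL, eq1 [l, k, l, k] = true := by decide +kernel
  have e := eq1_spec (this l hl k hk)
  simpa [evL_cons, evL_nil, mul_assoc] using e

end Cfsg.J4R
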