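import Cfsg.Agent.J4R.R6
import Cfsg.Agent.J4R.S5
import Cfsg.Agent.J4R.H4
import Cfsg.Agent.J4R.E3
import Cfsg.Agent.J4R.E4
import Cfsg.Agent.J4R.Y2
import Cfsg.Agent.J4R.M4
import Cfsg.Agent.J4R.X5
import Cfsg.Agent.J4R.V3

/-! The assembly of the recognition of the fourth Janko group from its parts. -/

set_option autoImplicit false
set_option maxRecDepth 100000

namespace Cfsg.J4R

open Subgroup Cfsg.H6

variable {G : Type*} [Group G] [Finite G]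

theorem Z.am [IsSimpleGroup G] {z : G} {Q : Subgroup G} {a c : ℕ → G} (h : Ch z Q a c) :
    ∃ Γ Λ g k, Am2 z Q a Γ Λ g k := by
  obtain ⟨hO, hZ⟩ := h.es.simple
  have sw := swap h (cs h hO hZ)
  obtain ⟨g, P⟩ := exists_pre0 h
  have sq := P.sq sw
  have n1 : ¬ IsConj z (g 2 * g 6) := by
    rw [P.ga (i := 0) (by omega), P.ga (i := 4) (by omega)]
    exact nz h
  obtain ⟨Γ, g1, T⟩ := X.st_of_pre ⟨P, sq, mv_of P hmV sq sw, n1⟩ hm
  exact exists_am2 T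

theorem Z.main [IsSimpleGroup G] {z : G} {Q : Subgroup G} {a c : ℕ → G} (h : Ch z Q a c)
    (hphi : ∀ {Γ Λ : Subgroup (G × Spor.J4)} {g : ℕ → G} {k : G}, Am2 z Q a Γ Λ g k →
      ∃ Φ : Spor.J4 →* G, ∀ l < 25, Φ (e0 l) = g l) :
    Spor.IsoJ4 G ∧ IsJ4 G ∧ ∃ x y : G, orderOf x = 2 ∧ orderOf y = 2 ∧ ¬ IsConj x y ∧
      ∀ z : G, orderOf z = 2 → IsConj z x ∨ IsConj z y := by
  obtain ⟨Γ, Λ, g, k, A⟩ := Z.am h
  obtain ⟨Φ, hΦ⟩ := hphi A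
  exact fin hm E.ex A.st Φ hΦ

end Cfsg.J4R
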